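import Mathlib
import Cfsg.Agent.Inv.Counting
import Cfsg.Agent.Ch.Orthogonality
import Cfsg.Agent.GT.PGroupMaxClass
import Cfsg.Agent.GT.CoprimeGen
import Cfsg.Agent.Perm.TWPerm

/-!
# Groups with a four-subgroup whose involutions have small centralizers
-/

set_option autoImplicit false

universe u

open Subgroup

namespace Cfsg.Agent.FG.Four

variable {G : Type u} [Group G] [Finite G]

/-- Brauer–Fowler counting: an involution with a small centralizer gives a small class. -/
theorem exists_index_le {t : G} (ht : orderOf t = 2) {n : ℕ}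
    (hn : Nat.card (centralizer ({t} : Set G)) ≤ n) :
    Nat.card G ≤ n ∨ ∃ g : G, g ≠ 1 ∧ (centralizer ({g} : Set G)).index ≤ 2 * n ^ 2 := by
  classical
  have := Fintype.ofFinite G
  by_contra hcon
  push Not at hcon
  obtain ⟨h1, h2⟩ := hcon
  set K : Finset G := Finset.univ.filter fun x => IsConj t x with hK
  have hKc : K.card * Nat.card (centralizer ({t} : Set G)) = Nat.card G := by
    rw [← Ch.card_isConj_mul_card_centralizer t,
      Nat.card_eq_fintype_card (α := {x // IsConj t x}), Fintype.card_subtype]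
  have hord : ∀ s ∈ K, orderOf s = 2 := fun s hs => by
    obtain ⟨c, rfl⟩ := isConj_iff.1 (Finset.mem_filter.1 hs).2
    rw [← ht]
    exact (MulAut.conj c).orderOf_eq t
  have hsum : (K ×ˢ K).card = ∑ g : G, ((K ×ˢ K).filter fun q => q.1 * q.2 = g).card :=
    Finset.card_eq_sum_card_fiberwise fun _ _ => Finset.mem_coe.2 (Finset.mem_univ _)
  have hfib : ∀ g : G, ((K ×ˢ K).filter fun q => q.1 * q.2 = g).card ≤
      Nat.card (centralizer ({g} : Set G)) := fun g => by
    refine le_trans ?_ (Inv.pairCount_le g)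
    unfold Inv.pairCount
    rw [Nat.card_eq_fintype_card, Fintype.card_subtype]
    refine Finset.card_le_card fun q hq => ?_
    rw [Finset.mem_filter, Finset.mem_product] at hq
    simp only [Finset.mem_filter, Finset.mem_univ, true_and]
    exact ⟨hord _ hq.1.1, hord _ hq.1.2, hq.2⟩
  have hfib1 : ((K ×ˢ K).filter fun q => q.1 * q.2 = 1).card ≤ K.card := by
    refine Finset.card_le_card_of_injOn Prod.fst (fun q hq => ?_) fun q hq q' hq' h => ?_
    · exact (Finset.mem_product.1 (Finset.mem_filter.1 hq).1).1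
    · have e1 := (Finset.mem_filter.1 hq).2
      have e2 := (Finset.mem_filter.1 hq').2
      refine Prod.ext h ?_
      rw [← h, ← e1] at e2
      exact (mul_left_cancel e2).symm
  rw [← Finset.add_sum_erase _ _ (Finset.mem_univ (1 : G)), Finset.card_product] at hsum
  have h3 : (2 * n ^ 2 + 1) * ∑ g ∈ Finset.univ.erase (1 : G),
      ((K ×ˢ K).filter fun q => q.1 * q.2 = g).card ≤ Nat.card G * Nat.card G := by
    rw [Finset.mul_sum]
    refine (Finset.sum_le_card_nsmul _ _ (Nat.card G) fun g hg => ?_).trans ?_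
    · rw [← (centralizer ({g} : Set G)).index_mul_card]
      exact Nat.mul_le_mul (h2 g (Finset.ne_of_mem_erase hg)) (hfib g)
    · rw [smul_eq_mul]
      refine Nat.mul_le_mul_right _ ((Finset.card_le_univ _).trans ?_)
      rw [Nat.card_eq_fintype_card]
  set S := ∑ g ∈ Finset.univ.erase (1 : G), ((K ×ˢ K).filter fun q => q.1 * q.2 = g).card
  set k := K.card
  set c := Nat.card (centralizer ({t} : Set G))
  have hk : 2 ≤ k := by
    by_contra hk
    have : k ≤ 1 := by omega
    nlinarith
  have h4 : k * k ≤ k + S := by omega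
  have h5 : Nat.card G * Nat.card G ≤ k * k * n ^ 2 := by
    rw [← hKc]
    calc k * c * (k * c) = k * k * c ^ 2 := by ring
      _ ≤ k * k * n ^ 2 := by gcongr
  have h6 : k * k ≤ 2 * S := by nlinarith
  nlinarith

/-- Bound for abelian normal subgroups in the presence of two commuting elements `x`, `y`. -/
theorem card_abelian_le {A : Subgroup G} [A.Normal] (hA : ∀ a ∈ A, ∀ b ∈ A, a * b = b * a)
    {x y : G} (hx : x * x = 1) (hy : y * y = 1) (hxy : (x * y) * (x * y) = 1) :
    Nat.card A ≤ 2 ^ (Nat.card G).factorization 2 * (Nat.card (centralizer ({x} : Set G)) *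
      Nat.card (centralizer ({y} : Set G)) * Nat.card (centralizer ({x * y} : Set G))) := by
  have hn : ∀ v, ∀ a ∈ A, v * a * v⁻¹ ∈ A := fun v a ha => ‹A.Normal›.conj_mem a ha v
  let f : ∀ v : G, v * v = 1 → (A →* centralizer ({v} : Set G)) := fun v hv =>
    { toFun := fun a => ⟨a * (v * a * v⁻¹), by
        rw [mem_centralizer_singleton_iff, hA _ a.2 _ (hn v a a.2),
          inv_eq_of_mul_eq_one_right hv]
        calc v * a * v * a * v = v * (a * (v * a * v)) := by group
          _ = v * (v * a * v * a) := by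
            have := hA _ a.2 _ (hn v a a.2)
            rw [inv_eq_of_mul_eq_one_right hv] at this
            rw [this]⟩
      map_one' := by ext; simp
      map_mul' := fun a b => by
        ext
        have := hA _ b.2 _ (hn v a a.2)
        simp only [coe_mul]
        calc (a : G) * b * (v * (a * b) * v⁻¹) = a * (b * (v * a * v⁻¹)) * (v * b * v⁻¹) := by
              group
          _ = a * (v * a * v⁻¹) * (b * (v * b * v⁻¹)) := by rw [this]; group }
  let F := ((f x hx).prod (f y hy)).prod (f (x * y) hxy)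
  have h1 : Nat.card A = Nat.card F.ker * Nat.card F.range := by
    rw [← F.ker.card_mul_index, index_ker]
  have h2 : Nat.card F.range ≤ Nat.card (centralizer ({x} : Set G)) *
      Nat.card (centralizer ({y} : Set G)) * Nat.card (centralizer ({x * y} : Set G)) := by
    rw [← Nat.card_prod, ← Nat.card_prod]
    exact card_le_card_group _
  have h3 : IsPGroup 2 F.ker := by
    intro a
    refine ⟨1, ?_⟩
    have ha := a.2
    rw [MonoidHom.mem_ker] at ha
    have e1 : ((a : A) : G) * (x * (a : A) * x⁻¹) = 1 :=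
      congrArg (fun q => ((q.1.1 : centralizer ({x} : Set G)) : G)) ha
    have e2 : ((a : A) : G) * (y * (a : A) * y⁻¹) = 1 :=
      congrArg (fun q => ((q.1.2 : centralizer ({y} : Set G)) : G)) ha
    have e3 : ((a : A) : G) * (x * y * (a : A) * (x * y)⁻¹) = 1 :=
      congrArg (fun q => ((q.2 : centralizer ({x * y} : Set G)) : G)) ha
    apply Subtype.ext
    apply Subtype.ext
    change ((a : A) : G) ^ 2 ^ 1 = 1
    set b : G := ((a : A) : G)
    have e1' := eq_inv_of_mul_eq_one_right e1
    have e2' := eq_inv_of_mul_eq_one_right e2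
    have : x * y * b * (x * y)⁻¹ = b := by
      calc x * y * b * (x * y)⁻¹ = x * (y * b * y⁻¹) * x⁻¹ := by group
        _ = (x * b * x⁻¹)⁻¹ := by rw [e2']; group
        _ = b := by rw [e1', inv_inv]
    rw [this] at e3
    rw [pow_one, sq, e3]
  have : Fact (Nat.Prime 2) := ⟨Nat.prime_two⟩
  obtain ⟨k, hk⟩ := IsPGroup.iff_card.1 h3
  have h4 : 2 ^ k ∣ Nat.card G := by
    rw [← hk]
    exact (card_subgroup_dvd_card _).trans (card_subgroup_dvd_card A)
  have h5 : k ≤ (Nat.card G).factorization 2 :=
    (Nat.prime_two.pow_dvd_iff_le_factorization Nat.card_pos.ne').1 h4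
  rw [h1, hk]
  exact Nat.mul_le_mul (Nat.pow_le_pow_right two_pos h5) h2

/-- A nontrivial normal subgroup of bounded order. -/
theorem exists_normal_card_le {x y : G} (hx : orderOf x = 2) (hy : y * y = 1)
    (hxy : (x * y) * (x * y) = 1) {n : ℕ} (hG : (Nat.card G).factorization 2 ≤ n)
    (h1 : Nat.card (centralizer ({x} : Set G)) ≤ n)
    (h2 : Nat.card (centralizer ({y} : Set G)) ≤ n)
    (h3 : Nat.card (centralizer ({x * y} : Set G)) ≤ n) :
    ∃ M : Subgroup G, M.Normal ∧ M ≠ ⊥ ∧
      Nat.card M ≤ n + 2 ^ n * n ^ 3 * (2 * n ^ 2).factorial := by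
  rcases exists_index_le hx h1 with h | ⟨g, hg1, hg⟩
  · refine ⟨⊤, inferInstance, fun h => ?_, by rw [card_top]; omega⟩
    have : x ∈ (⊥ : Subgroup G) := h ▸ mem_top x
    rw [mem_bot.1 this] at hx
    simp at hx
  set K := (centralizer ({g} : Set G)).normalCore
  have hK : K.index ≤ (2 * n ^ 2).factorial :=
    (Nat.le_of_dvd (Nat.factorial_pos _) (Perm.index_normalCore_dvd _)).trans
      (Nat.factorial_le hg)
  refine ⟨centralizer (K : Set G), inferInstance, fun h => hg1 ?_, ?_⟩
  · rw [← mem_bot, ← h]
    intro k hk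
    exact mem_centralizer_singleton_iff.1 (normalCore_le _ hk)
  have hx2 : x * x = 1 := by rw [← sq, ← hx, pow_orderOf_eq_one]
  have h4 := card_abelian_le (A := K ⊓ centralizer (K : Set G))
    (fun a ha b hb => hb.2 a ha.1) hx2 hy hxy
  have h5 : Nat.card ↥(K ⊓ centralizer (K : Set G)) ≤ 2 ^ n * n ^ 3 := by
    refine h4.trans (Nat.mul_le_mul (Nat.pow_le_pow_right two_pos hG) ?_)
    calc _ ≤ n * n * n := by gcongr
      _ = n ^ 3 := by ring
  have h6 : Nat.card (centralizer (K : Set G)) =
      Nat.card ↥(K ⊓ centralizer (K : Set G)) * K.relIndex (centralizer (K : Set G)) := by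
    rw [← (K.subgroupOf (centralizer (K : Set G))).card_mul_index, ← inf_subgroupOf_right,
      Nat.card_congr (subgroupOfEquivOfLe inf_le_right).toEquiv, inf_subgroupOf_right]
    rfl
  have h7 : K.relIndex (centralizer (K : Set G)) ≤ K.index :=
    Nat.le_of_dvd (Nat.pos_of_ne_zero index_ne_zero_of_finite) (relIndex_dvd_index_of_normal _ _)
  rw [h6]
  exact le_add_left (Nat.mul_le_mul h5 (h7.trans hK))

theorem card_centralizer_mk_lt {M : Subgroup G} [M.Normal] {v : G}
    (hc : (orderOf v).Coprime (Nat.card M)) (h : M ⊓ centralizer {v} ≠ ⊥) :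
    Nat.card (centralizer ({(v : G ⧸ M)} : Set (G ⧸ M))) <
      Nat.card (centralizer ({v} : Set G)) := by
  have h1 := GT.CopAct.map_mk'_centralizer M (A := zpowers v) (by rwa [Nat.card_zpowers])
    (Or.inl (GT.CopAct.isSolvable_zpowers v))
  rw [MonoidHom.map_zpowers, zpowers_eq_closure, zpowers_eq_closure, centralizer_closure,
    centralizer_closure] at h1
  change _ = centralizer ({(v : G ⧸ M)} : Set (G ⧸ M)) at h1
  rw [← h1]
  set C := centralizer ({v} : Set G)
  let f := (QuotientGroup.mk' M).comp C.subtype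
  have h2 : C.map (QuotientGroup.mk' M) = f.range := by
    rw [MonoidHom.range_comp, range_subtype]
  have h3 : Nat.card C = Nat.card f.ker * Nat.card f.range := by
    rw [← f.ker.card_mul_index, index_ker]
  have h4 : 1 < Nat.card f.ker := by
    rw [one_lt_card_iff_ne_bot]
    intro hb
    apply h
    rw [eq_bot_iff]
    intro g hg
    have : (⟨g, hg.2⟩ : C) ∈ f.ker := by
      rw [MonoidHom.mem_ker]
      exact (QuotientGroup.eq_one_iff g).2 hg.1
    rw [hb, mem_bot] at this
    exact congrArg Subtype.val this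
  rw [h2, h3]
  have : 0 < Nat.card f.range := Nat.card_pos
  nlinarith

/-- Main bound: `φ` embeds a noncyclic elementary abelian `2`-group `K`. -/
theorem card_le_of_four (n : ℕ) : ∃ N : ℕ, ∀ (G : Type u) [Group G] [Finite G] (K : Type u)
    [Group K] [Fintype K] [DecidableEq K] (φ : K →* G), Function.Injective φ →
    (∀ k : K, k * k = 1) → ¬ IsCyclic K →
    (Nat.card G).factorization 2 +
      ∑ k ∈ Finset.univ.erase (1 : K), Nat.card (centralizer ({φ k} : Set G)) < n →
    Nat.card G ≤ N := by
  induction n with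
  | zero => exact ⟨0, fun _ _ _ _ _ _ _ _ _ _ _ h => absurd h (Nat.not_lt_zero _)⟩
  | succ n ih =>
    obtain ⟨N, hN⟩ := ih
    set B := n + 2 ^ n * n ^ 3 * (2 * n ^ 2).factorial
    refine ⟨B * (n + N), fun G _ _ K _ _ _ φ hφ hK hnc hlt => ?_⟩
    have hle : ∀ k : K, k ≠ 1 → Nat.card (centralizer ({φ k} : Set G)) ≤ n := fun k hk => by
      have := Finset.single_le_sum (f := fun k => Nat.card (centralizer ({φ k} : Set G)))
        (fun _ _ => Nat.zero_le _) (Finset.mem_erase.2 ⟨hk, Finset.mem_univ k⟩)
      omega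
    have hord : ∀ k : K, k ≠ 1 → orderOf (φ k) = 2 := fun k hk => by
      rw [orderOf_injective φ hφ]
      exact orderOf_eq_prime (by rw [sq, hK]) hk
    obtain ⟨a, ha⟩ : ∃ a : K, a ≠ 1 := by
      by_contra h
      push Not at h
      exact hnc ⟨⟨1, fun k => ⟨0, by rw [h k]; simp⟩⟩⟩
    obtain ⟨b, hb⟩ : ∃ b : K, b ∉ zpowers a := by
      by_contra h
      push Not at h
      exact hnc ⟨⟨a, h⟩⟩
    have hb1 : b ≠ 1 := fun h => hb (h ▸ one_mem _)
    have hab : a * b ≠ 1 := fun h => hb (by
      rw [eq_inv_of_mul_eq_one_right h]; exact inv_mem (mem_zpowers a))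
    obtain ⟨M, hMn, hM1, hMc⟩ := exists_normal_card_le (hord a ha) (y := φ b)
      (by rw [← map_mul, hK, map_one]) (by rw [← map_mul, ← map_mul, hK, map_one])
      (n := n) (by omega) (hle a ha) (hle b hb1) (by rw [← map_mul]; exact hle _ hab)
    by_cases hin : ∃ k : K, k ≠ 1 ∧ φ k ∈ M
    · obtain ⟨k, hk, hkM⟩ := hin
      have h1 : Nat.card {x : G // IsConj (φ k) x} ≤ Nat.card M :=
        Nat.card_le_card_of_injective (fun x => ⟨x.1, by
          obtain ⟨c, hc⟩ := isConj_iff.1 x.2
          rw [← hc]; exact hMn.conj_mem _ hkM c⟩)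
          fun x y h => Subtype.ext (congrArg (fun z : M => (z : G)) h)
      rw [← Ch.card_isConj_mul_card_centralizer (φ k)]
      exact Nat.mul_le_mul (h1.trans hMc) ((hle k hk).trans (Nat.le_add_right _ _))
    push Not at hin
    have hinj : Function.Injective ((QuotientGroup.mk' M).comp φ) := by
      rw [injective_iff_map_eq_one]
      intro k hk
      by_contra hk1
      exact hin k hk1 ((QuotientGroup.eq_one_iff _).1 hk)
    have hcard : Nat.card G = Nat.card (G ⧸ M) * Nat.card M := card_eq_card_quotient_mul_card_subgroup M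
    have hfac : (Nat.card G).factorization 2 =
        (Nat.card (G ⧸ M)).factorization 2 + (Nat.card M).factorization 2 := by
      rw [hcard, Nat.factorization_mul Nat.card_pos.ne' Nat.card_pos.ne']; rfl
    have hsum : ∀ k ∈ Finset.univ.erase (1 : K),
        Nat.card (centralizer ({((QuotientGroup.mk' M).comp φ) k} : Set (G ⧸ M))) ≤
        Nat.card (centralizer ({φ k} : Set G)) := fun k _ => GT.PG.card_centralizer_mk_le M _
    have key := hN (G ⧸ M) K _ hinj hK hnc (by
      by_cases h2 : 2 ∣ Nat.card M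
      · have := Nat.prime_two.factorization_pos_of_dvd Nat.card_pos.ne' h2
        have := Finset.sum_le_sum hsum
        omega
      · have hKc : ∀ a b : K, a * b = b * a := fun a b => by
          have e : ∀ k : K, k⁻¹ = k := fun k => inv_eq_of_mul_eq_one_right (hK k)
          rw [← e (a * b), mul_inv_rev, e, e]
        have : Fact (Nat.Prime 2) := ⟨Nat.prime_two⟩
        have hP : IsPGroup 2 φ.range := IsPGroup.of_surjective (G := K)
          (fun k => ⟨1, by rw [pow_one, sq, hK]⟩) φ.rangeRestrict φ.rangeRestrict_surjective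
        obtain ⟨v, hv, hv1, hne⟩ := GT.CopAct.exists_inf_centralizer_ne_bot (A := φ.range) (K := M)
          ⟨⟨fun a b => by
            obtain ⟨_, a, rfl⟩ := a
            obtain ⟨_, b, rfl⟩ := b
            apply Subtype.ext
            change φ a * φ b = φ b * φ a
            rw [← map_mul, hKc, map_mul]⟩⟩
          (fun h => hnc (isCyclic_of_injective φ.rangeRestrict
            fun a b h => hφ (congrArg Subtype.val h)))
          (by rw [normalizer_eq_top]; exact le_top)
          (GT.CopAct.coprime_of_isPGroup_left hP h2) hM1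
        obtain ⟨k, rfl⟩ := hv
        have hk1 : k ≠ 1 := fun h => hv1 (by rw [h, map_one])
        have := Finset.sum_lt_sum hsum ⟨k, Finset.mem_erase.2 ⟨hk1, Finset.mem_univ k⟩,
          card_centralizer_mk_lt (by
            rw [hord k hk1]; exact (Nat.Prime.coprime_iff_not_dvd Nat.prime_two).2 h2) hne⟩
        omega)
    rw [hcard, mul_comm]
    exact Nat.mul_le_mul hMc (key.trans (Nat.le_add_left _ _))

end Cfsg.Agent.FG.Four
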