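import Mathlib
import Cfsg.Agent.GT.Conj
import Cfsg.Agent.GT.CoprimeFixed
import Cfsg.Agent.GT.CoprimeGen
import Cfsg.Agent.GT.PGroupCyclicNormal

/-!
Odd groups acting on a 2-group whose involutions are central and permuted transitively
(Higman): a normal `s`-subgroup centralising the involutions is cyclic.
-/

set_option autoImplicit false

namespace Cfsg.Agent.FG.HomInv

open Cfsg Subgroup Cfsg.Agent.GT
open scoped commutatorElement

local notation:75 H " ^ᶜ " g:76 => Subgroup.map (MulEquiv.toMonoidHom (MulAut.conj g)) H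

variable {G : Type*} [Group G]

/-- A partition of the involutions into classes of equal size without rainbow lines has one
class, when the number of involutions is odd. -/
theorem one_class {β : Type*} (T : Finset G) (f : G → β)
    (hT : ∀ a ∈ T, a ≠ 1 ∧ a * a = 1)
    (hmul : ∀ a ∈ T, ∀ b ∈ T, a ≠ b → a * b ∈ T)
    (h3 : ∀ a ∈ T, ∀ b ∈ T, f a ≠ f b → f (a * b) = f a ∨ f (a * b) = f b)
    {m : ℕ} (hm : ∀ a ∈ T, Nat.card {x // x ∈ T ∧ f x = f a} = m) (hodd : Odd T.card) :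
    ∀ a ∈ T, ∀ b ∈ T, f a = f b := by
  classical
  have hm' : ∀ a ∈ T, (T.filter fun x => f x = f a).card = m := by
    intro a ha
    rw [← hm a ha, Nat.subtype_card (T.filter fun x => f x = f a) (by simp)]
  obtain ⟨k, hk⟩ : m ∣ T.card := by
    rw [Finset.card_eq_sum_card_image f T]
    refine Finset.dvd_sum fun y hy => ?_
    obtain ⟨a, ha, rfl⟩ := Finset.mem_image.1 hy
    rw [hm' a ha]
  set P : Finset (Σ _ : G, G) := T.sigma fun a => T.filter fun b => ¬ f b = f a with hP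
  set S : Finset (Σ _ : G, G) := T.sigma fun a => (T.filter fun b => f b = f a).erase a with hS
  have cP : P.card = T.card * (T.card - m) := by
    rw [hP, Finset.card_sigma, Finset.sum_congr rfl (g := fun _ => T.card - m), Finset.sum_const,
      smul_eq_mul]
    intro a ha
    have := Finset.card_filter_add_card_filter_not (s := T) (fun b => f b = f a)
    rw [hm' a ha] at this
    omega
  have cS : S.card = T.card * (m - 1) := by
    rw [hS, Finset.card_sigma, Finset.sum_congr rfl (g := fun _ => m - 1), Finset.sum_const,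
      smul_eq_mul]
    intro a ha
    rw [Finset.card_erase_of_mem (by simp [ha]), hm' a ha]
  have hsub : P ⊆ S.image (fun x => (⟨x.1, x.1 * x.2⟩ : Σ _ : G, G)) ∪
      S.image (fun x => (⟨x.2 * x.1, x.1⟩ : Σ _ : G, G)) := by
    rintro ⟨a, b⟩ hab
    simp only [hP, Finset.mem_sigma, Finset.mem_filter] at hab
    obtain ⟨ha, hb, hne⟩ := hab
    have hab : a ≠ b := fun h => hne (by rw [h])
    rcases h3 a ha b hb (Ne.symm hne) with h | h
    · refine Finset.mem_union_left _ (Finset.mem_image.2 ⟨⟨a, a * b⟩, ?_, ?_⟩)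
      · simp only [hS, Finset.mem_sigma, Finset.mem_erase, Finset.mem_filter]
        exact ⟨ha, fun e => (hT b hb).1 (by simpa using e), hmul a ha b hb hab, h⟩
      · simp only
        rw [← mul_assoc, (hT a ha).2, one_mul]
    · refine Finset.mem_union_right _ (Finset.mem_image.2 ⟨⟨b, a * b⟩, ?_, ?_⟩)
      · simp only [hS, Finset.mem_sigma, Finset.mem_erase, Finset.mem_filter]
        exact ⟨hb, fun e => (hT a ha).1 (by simpa using e), hmul a ha b hb hab, h⟩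
      · simp only
        rw [mul_assoc, (hT b hb).2, mul_one]
  have hle : P.card ≤ S.card + S.card :=
    (Finset.card_le_card hsub).trans ((Finset.card_union_le _ _).trans
      (Nat.add_le_add Finset.card_image_le Finset.card_image_le))
  rw [cP, cS, ← mul_add] at hle
  have hpos : 0 < T.card := hodd.pos
  have hle' := Nat.le_of_mul_le_mul_left hle hpos
  have hm0 : 0 < m := by
    rcases Nat.eq_zero_or_pos m with h | h
    · rw [h, zero_mul] at hk; omega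
    · exact h
  have hk1 : k = 1 := by
    rw [hk] at hodd hle'
    have hko : Odd k := (Nat.odd_mul.1 hodd).2
    by_contra hne
    have h3k : 3 ≤ k := by obtain ⟨j, rfl⟩ := hko; omega
    have : m * 3 ≤ m * k := Nat.mul_le_mul_left _ h3k
    omega
  intro a ha b hb
  have : (T.filter fun x => f x = f b) = T :=
    Finset.eq_of_subset_of_card_le (Finset.filter_subset _ _) (by rw [hm' b hb, hk, hk1, mul_one])
  rw [← this] at ha
  exact (Finset.mem_filter.1 ha).2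

/-- The configuration of Higman's lemma. -/
structure Core (D X H : Subgroup G) : Prop where
  pow4 : ∀ c ∈ D, c ^ 4 = 1
  memD : ∀ v : G, v ^ 2 = 1 → v ∈ D
  cenD : ∀ v : G, v ^ 2 = 1 → ∀ d ∈ D, Commute v d
  cenX : ∀ v : G, v ^ 2 = 1 → ∀ x ∈ X, Commute v x
  HD : H ≤ normalizer (D : Set G)
  XH : X ≤ H
  HX : H ≤ normalizer (X : Set G)
  odd : Odd (Nat.card X)
  faithful : ∀ x ∈ X, (∀ d ∈ D, Commute x d) → x = 1
  trans : ∀ u v : G, u ≠ 1 → u ^ 2 = 1 → v ≠ 1 → v ^ 2 = 1 → ∃ h ∈ H, h * u * h⁻¹ = v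

namespace Core

variable {D X H : Subgroup G} (h : Core D X H)
include h

theorem conj_mem {t d : G} (ht : t ∈ H) (hd : d ∈ D) : t * d * t⁻¹ ∈ D :=
  conj_mem_of_mem_normalizer (h.HD ht) hd

theorem mul_sq {u v : G} (hu : u ^ 2 = 1) (hv : v ^ 2 = 1) : (u * v) ^ 2 = 1 := by
  rw [(h.cenD u hu v (h.memD v hv)).mul_pow, hu, hv, one_mul]

theorem sq_sq {c : G} (hc : c ∈ D) : (c ^ 2) ^ 2 = 1 := by
  rw [← pow_mul]; exact h.pow4 c hc

theorem comm_sq {c d : G} (hc : c ∈ D) (hd : d ∈ D) : (c * d * c⁻¹ * d⁻¹) ^ 2 = 1 := by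
  have : c * d * c⁻¹ * d⁻¹ = c ^ 2 * (c⁻¹ * d) ^ 2 * (d⁻¹) ^ 2 := by
    simp only [pow_two]; group
  rw [this]
  exact h.mul_sq (h.mul_sq (h.sq_sq hc) (h.sq_sq (D.mul_mem (D.inv_mem hc) hd)))
    (h.sq_sq (D.inv_mem hd))

theorem twist_mem {t d : G} (ht : t ∈ X) (hd : d ∈ D) : d⁻¹ * (t * d * t⁻¹) ∈ D :=
  D.mul_mem (D.inv_mem hd) (h.conj_mem (h.XH ht) hd)

theorem commute_twist {t c d : G} (ht : t ∈ X) (hc : c ∈ D) (hd : d ∈ D) (hct : Commute c t) :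
    Commute c (d⁻¹ * (t * d * t⁻¹)) := by
  have h1 := (h.cenX _ (h.comm_sq hc hd) t ht).eq
  have h2 := hct.eq
  have e1 : c * (t * d * t⁻¹) * c⁻¹ = (c * d * c⁻¹ * d⁻¹) * (t * d * t⁻¹) := by
    calc c * (t * d * t⁻¹) * c⁻¹ = (c * t) * d * (c * t)⁻¹ := by group
      _ = (t * c) * d * (t * c)⁻¹ := by rw [h2]
      _ = (t * (c * d * c⁻¹ * d⁻¹)) * d * t⁻¹ := by group
      _ = _ := by rw [← h1]; group
  have : c * (d⁻¹ * (t * d * t⁻¹)) * c⁻¹ = d⁻¹ * (t * d * t⁻¹) := by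
    calc c * (d⁻¹ * (t * d * t⁻¹)) * c⁻¹ = (c * d⁻¹ * c⁻¹) * (c * (t * d * t⁻¹) * c⁻¹) := by group
      _ = _ := by rw [e1]; group
  exact mul_inv_eq_iff_eq_mul.1 this

theorem commute_of_twist [Finite G] {t d : G} (ht : t ∈ X) (hd : d ∈ D)
    (he : Commute (d⁻¹ * (t * d * t⁻¹)) t) : Commute t d := by
  set e := d⁻¹ * (t * d * t⁻¹) with hedef
  have key : ∀ n : ℕ, t ^ n * d * (t ^ n)⁻¹ = d * e ^ n := by
    intro n
    induction n with
    | zero => simp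
    | succ n ih =>
      have hc : t * e ^ n = e ^ n * t := (he.symm.pow_right n).eq
      calc t ^ (n + 1) * d * (t ^ (n + 1))⁻¹ = t * (t ^ n * d * (t ^ n)⁻¹) * t⁻¹ := by
            rw [pow_succ']; group
        _ = (t * d * t⁻¹) * (t * e ^ n) * t⁻¹ := by rw [ih]; group
        _ = (d * e) * (e ^ n * t) * t⁻¹ := by rw [hc, hedef]; group
        _ = d * e ^ (n + 1) := by rw [pow_succ']; group
  have htn : t ^ Nat.card X = 1 := by
    have := pow_card_eq_one' (x := (⟨t, ht⟩ : X))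
    exact congrArg Subtype.val this
  have h1 : e ^ Nat.card X = 1 := by
    have := key (Nat.card X)
    rw [htn] at this
    simpa using this.symm
  have h4 : e ^ 4 = 1 := h.pow4 e (h.twist_mem ht hd)
  have hcop : (Nat.card X).Coprime 4 := by
    have := (Nat.coprime_two_right.2 h.odd).pow_right 2
    simpa using this
  have he1 : e = 1 := by
    have := pow_gcd_eq_one.2 ⟨h1, h4⟩
    rwa [hcop.gcd_eq_one, pow_one] at this
  have : t * d * t⁻¹ = d := by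
    have h0 : d * e = d := by rw [he1, mul_one]
    rw [hedef] at h0
    simpa using h0
  exact mul_inv_eq_iff_eq_mul.1 this

theorem mul_sq_of_sq_eq {c e : G} (hc : c ∈ D) (hce : Commute c e) (hsq : e ^ 2 = c ^ 2) :
    (c * e) ^ 2 = 1 := by
  rw [hce.mul_pow, hsq, ← pow_add]; exact h.pow4 c hc

theorem commute_of_twist_sq [Finite G] {t c d : G} (ht : t ∈ X) (hc : c ∈ D) (hd : d ∈ D)
    (hct : Commute c t) (hsq : (d⁻¹ * (t * d * t⁻¹)) ^ 2 = c ^ 2) : Commute t d := by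
  refine h.commute_of_twist ht hd ?_
  have h1 := h.mul_sq_of_sq_eq hc (h.commute_twist ht hc hd hct) hsq
  have h2 := h.cenX _ h1 t ht
  have := hct.inv_left.mul_left h2
  rwa [inv_mul_cancel_left] at this

theorem eq_bot_of_sq [Finite G] {B : Subgroup G} (hB : B ≤ X)
    (hall : ∀ v : G, v ≠ 1 → v ^ 2 = 1 → ∃ c ∈ D, c ∈ centralizer (B : Set G) ∧ c ^ 2 = v) :
    B = ⊥ := by
  refine (eq_bot_iff_forall _).2 fun t ht => h.faithful t (hB ht) fun d hd => ?_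
  by_cases h1 : (d⁻¹ * (t * d * t⁻¹)) ^ 2 = 1
  · exact h.commute_of_twist_sq (hB ht) D.one_mem hd (Commute.one_left t) (by rw [h1, one_pow])
  · obtain ⟨c, hc, hcB, hsq⟩ := hall _ h1 (h.sq_sq (h.twist_mem (hB ht) hd))
    exact h.commute_of_twist_sq (hB ht) hc hd (Commute.symm (hcB t ht)) hsq.symm

theorem lemA [Finite G] {Z : Subgroup G} (hZ : Z ≤ X) (hZ0 : Z ≠ ⊥)
    (hHZ : H ≤ normalizer (Z : Set G)) {c : G} (hc : c ∈ D) (hcZ : c ∈ centralizer (Z : Set G)) :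
    c ^ 2 = 1 := by
  by_contra hne
  refine hZ0 (h.eq_bot_of_sq hZ fun v hv1 hv => ?_)
  obtain ⟨g, hg, hgv⟩ := h.trans _ v hne (h.sq_sq hc) hv1 hv
  refine ⟨g * c * g⁻¹, h.conj_mem hg hc, ?_, by rw [← hgv]; simp [pow_two]⟩
  exact conj_mem_of_mem_normalizer (normalizer_le_normalizer_set_centralizer _ (hHZ hg)) hcZ

theorem isPGroup : IsPGroup 2 D := fun c =>
  ⟨2, Subtype.ext (by simpa using h.pow4 c c.2)⟩

section B

variable [Finite G] {A B₁ B₂ : Subgroup G}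

theorem lemB1 (hA : A ≤ X) (hAc : IsMulCommutative A)
    (hCA : ∀ c ∈ D, c ∈ centralizer (A : Set G) → c ^ 2 = 1)
    (hB : B₁ ⊔ B₂ = A) {c₁ c₂ : G} (h1 : c₁ ∈ D) (h1B : c₁ ∈ centralizer (B₁ : Set G))
    (h2 : c₂ ∈ D) (h2B : c₂ ∈ centralizer (B₂ : Set G)) : Commute c₁ c₂ := by
  have hB1 : B₁ ≤ A := hB ▸ le_sup_left
  have hB2 : B₂ ≤ A := hB ▸ le_sup_right
  have hn : B₁ ≤ normalizer ((D ⊓ centralizer (B₂ : Set G) : Subgroup G) : Set G) := by
    refine PG.le_normalizer_inf ((hB1.trans hA).trans (h.XH.trans h.HD)) ?_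
    refine le_trans ?_ (normalizer_le_normalizer_set_centralizer _)
    exact hB1.trans (le_normalizer_of_le_of_comm hB2)
  have hcop : (Nat.card B₁).Coprime (Nat.card (D ⊓ centralizer (B₂ : Set G) : Subgroup G)) := by
    obtain ⟨k, hk⟩ := (h.isPGroup.to_le (inf_le_left (b := centralizer (B₂ : Set G)))).exists_card_eq
    rw [hk]
    exact (Nat.coprime_two_right.2 (h.odd.of_dvd_nat (card_dvd_of_le (hB1.trans hA)))).pow_right _
  have hsol : Group.IsSolvable B₁ := by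
    refine Group.isSolvable_of_comm fun a b => Subtype.ext ?_
    have := congrArg Subtype.val (hAc.is_comm.comm (⟨a, hB1 a.2⟩ : A) ⟨b, hB1 b.2⟩)
    exact this
  have key := CopAct.commutator_sup_centralizer hn hcop (Or.inl hsol)
  have hle : D ⊓ centralizer (B₂ : Set G) ≤ centralizer {c₁} := by
    rw [← key]
    refine sup_le (commutator_le.2 fun d hd t ht => ?_) fun d hd => ?_
    · rw [mem_centralizer_singleton_iff]
      have := h.commute_twist (hA (hB1 ht)) h1 (D.inv_mem hd.1) (Commute.symm (h1B t ht))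
      rw [commutatorElement_def]
      have e : d * t * d⁻¹ * t⁻¹ = d⁻¹⁻¹ * (t * d⁻¹ * t⁻¹) := by group
      rw [e]
      exact this.eq.symm
    · rw [mem_centralizer_singleton_iff]
      have hdA : d ∈ centralizer (A : Set G) := by
        rw [← hB, centralizer_sup]; exact ⟨hd.2, hd.1.2⟩
      exact (h.cenD d (hCA d hd.1.1 hdA) c₁ h1).eq
  exact (mem_centralizer_singleton_iff.1 (hle ⟨h2, h2B⟩)).symm

theorem lemB2 (hA : A ≤ X) (hAc : IsMulCommutative A)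
    (hCA : ∀ c ∈ D, c ∈ centralizer (A : Set G) → c ^ 2 = 1)
    (hB : B₁ ⊔ B₂ = A) {c₁ c₂ : G} (h1 : c₁ ∈ D) (h1B : c₁ ∈ centralizer (B₁ : Set G))
    (h2 : c₂ ∈ D) (h2B : c₂ ∈ centralizer (B₂ : Set G)) (hsq : c₂ ^ 2 = c₁ ^ 2) :
    c₂ ^ 2 = 1 := by
  have hB1 : B₁ ≤ A := hB ▸ le_sup_left
  have hv := h.mul_sq_of_sq_eq h1 (h.lemB1 hA hAc hCA hB h1 h1B h2 h2B) hsq
  refine hCA c₂ h2 ?_
  rw [← hB, centralizer_sup]
  refine ⟨?_, h2B⟩
  have : c₁ * c₂ ∈ centralizer (B₁ : Set G) := fun t ht => (h.cenX _ hv t (hA (hB1 ht))).eq.symm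
  simpa using (centralizer (B₁ : Set G)).mul_mem ((centralizer (B₁ : Set G)).inv_mem h1B) this

theorem lemB3 {B₃ : Subgroup G} (hA : A ≤ X) (hAc : IsMulCommutative A)
    (hCA : ∀ c ∈ D, c ∈ centralizer (A : Set G) → c ^ 2 = 1)
    (hB : B₁ ⊔ B₂ = A) (hB' : B₁ ⊔ B₃ = A) (hB'' : B₂ ⊔ B₃ = A) {c₁ c₂ c₃ : G}
    (h1 : c₁ ∈ D) (h1B : c₁ ∈ centralizer (B₁ : Set G))
    (h2 : c₂ ∈ D) (h2B : c₂ ∈ centralizer (B₂ : Set G))
    (h3 : c₃ ∈ D) (h3B : c₃ ∈ centralizer (B₃ : Set G)) (hsq : c₃ ^ 2 = c₁ ^ 2 * c₂ ^ 2) :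
    c₂ ^ 2 = 1 := by
  have hB1 : B₁ ≤ A := hB ▸ le_sup_left
  have hB2 : B₂ ≤ A := hB ▸ le_sup_right
  have hB3 : B₃ ≤ A := hB' ▸ le_sup_right
  have c12 := h.lemB1 hA hAc hCA hB h1 h1B h2 h2B
  have c13 := h.lemB1 hA hAc hCA hB' h1 h1B h3 h3B
  have c23 := h.lemB1 hA hAc hCA hB'' h2 h2B h3 h3B
  have hv : (c₁ * c₂ * c₃) ^ 2 = 1 :=
    h.mul_sq_of_sq_eq (D.mul_mem h1 h2) (c13.mul_left c23) (by rw [hsq, c12.mul_pow])
  refine hCA c₂ h2 ?_
  rw [← hB, centralizer_sup]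
  refine ⟨fun t ht => ?_, h2B⟩
  have htA : t ∈ A := hB1 ht
  have hn : ∀ B : Subgroup G, B ≤ A → ∀ c ∈ centralizer (B : Set G),
      t * c * t⁻¹ ∈ centralizer (B : Set G) := fun B hBA c hc =>
    conj_mem_of_mem_normalizer (normalizer_le_normalizer_set_centralizer _
      (le_normalizer_of_le_of_comm hBA htA)) hc
  have e1 : t * (c₂ * c₃) = c₂ * c₃ * t := by
    have a1 : Commute (c₁ * c₂ * c₃) t := h.cenX _ hv t (hA htA)
    have a2 : Commute c₁ t := Commute.symm (h1B t ht)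
    have := a2.inv_left.mul_left a1
    rw [mul_assoc, inv_mul_cancel_left] at this
    exact this.eq.symm
  have e2 : c₂⁻¹ * (t * c₂ * t⁻¹) = c₃ * (t * c₃ * t⁻¹)⁻¹ := by
    calc c₂⁻¹ * (t * c₂ * t⁻¹) = c₂⁻¹ * (t * (c₂ * c₃)) * c₃⁻¹ * t⁻¹ := by group
      _ = _ := by rw [e1]; group
  have hmem : c₂⁻¹ * (t * c₂ * t⁻¹) ∈ centralizer (A : Set G) := by
    rw [← hB'', centralizer_sup]
    refine ⟨Subgroup.mul_mem _ (Subgroup.inv_mem _ h2B) (hn _ hB2 _ h2B), ?_⟩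
    rw [e2]
    exact Subgroup.mul_mem _ h3B (Subgroup.inv_mem _ (hn _ hB3 _ h3B))
  exact (h.commute_of_twist (hA htA) h2 (Commute.symm (hmem t htA))).eq

end B

omit h in
theorem sup_eq_of_ne [Finite G] {s : ℕ} (hs : s.Prime) {A B₁ B₂ : Subgroup G} (h1 : B₁ ≤ A)
    (h2 : B₂ ≤ A) (r1 : B₁.relIndex A = s) (r2 : B₂.relIndex A = s) (hne : B₁ ≠ B₂) :
    B₁ ⊔ B₂ = A := by
  rcases PG.eq_or_eq_of_relIndex_prime hs le_sup_left (sup_le h1 h2) r1 with e | e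
  · have hle : B₂ ≤ B₁ := e ▸ le_sup_right
    rcases PG.eq_or_eq_of_relIndex_prime hs hle h1 r2 with e' | e'
    · exact absurd e' hne
    · rw [e', relIndex_self] at r1
      exact absurd r1.symm hs.one_lt.ne'
  · exact e

theorem exists_hyperplane [Finite G] {s : ℕ} [hs : Fact s.Prime] (hs2 : s ≠ 2) {A : Subgroup G}
    (hA : A ≤ X) (hAe : IsElementaryAbelian s A) (hA0 : A ≠ ⊥) :
    ∃ B ≤ A, B.relIndex A = s ∧ ∃ c ∈ D, c ∈ centralizer (B : Set G) ∧ c ^ 2 ≠ 1 := by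
  by_contra hne
  push Not at hne
  have hnd : ¬ s ∣ Nat.card D := by
    obtain ⟨k, hk⟩ := h.isPGroup.exists_card_eq
    rw [hk]
    exact fun hd => hs2 ((Nat.prime_dvd_prime_iff_eq hs.out Nat.prime_two).1
      (hs.out.dvd_of_dvd_pow hd))
  have hle : D ≤ centralizer (X : Set G) :=
    CopAct.le_of_hyperplane_centralizer_le hAe hA0 (hA.trans (h.XH.trans h.HD)) hnd
      fun B hB hr c hc x hx => (h.cenX c (hne B hB hr c hc.1 hc.2) x hx).eq.symm
  exact hA0 ((eq_bot_iff_forall _).2 fun x hx =>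
    h.faithful x (hA hx) fun d hd => hle hd x (hA hx))

theorem odd_card [Fintype G] [DecidableEq G] {v : G} (hv1 : v ≠ 1) (hv : v ^ 2 = 1) :
    Odd (Finset.univ.filter fun x : G => x ≠ 1 ∧ x ^ 2 = 1).card := by
  let V : Subgroup G :=
    { carrier := {x | x ^ 2 = 1}
      mul_mem' := fun ha hb => h.mul_sq ha hb
      one_mem' := one_pow 2
      inv_mem' := fun {x} hx => by
        have hx' : x ^ 2 = 1 := hx
        change x⁻¹ ^ 2 = 1
        rw [inv_pow, hx', inv_one] }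
  have h2 : 2 ∣ Nat.card V := by
    have := orderOf_dvd_natCard (⟨v, hv⟩ : V)
    rwa [orderOf_eq_prime (Subtype.ext hv) (fun e => hv1 (congrArg Subtype.val e))] at this
  have hc : Nat.card V = (Finset.univ.filter fun x : G => x ^ 2 = 1).card :=
    Nat.subtype_card _ (fun x => by simp; rfl)
  have : (Finset.univ.filter fun x : G => x ≠ 1 ∧ x ^ 2 = 1) =
      (Finset.univ.filter fun x : G => x ^ 2 = 1).erase 1 := by
    ext x; simp
  rw [this, Finset.card_erase_of_mem (by simp), ← hc]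
  have hpos : 0 < Nat.card V := Nat.card_pos
  obtain ⟨k, hk⟩ := h2
  exact ⟨k - 1, by omega⟩

theorem card_eq_of_normal [Finite G] {s : ℕ} [hs : Fact s.Prime] (hs2 : s ≠ 2) {A : Subgroup G}
    (hA : A ≤ X) (hAe : IsElementaryAbelian s A) (hA0 : A ≠ ⊥)
    (hHA : H ≤ normalizer (A : Set G)) : Nat.card A = s := by
  classical
  have := Fintype.ofFinite G
  have hCA : ∀ c ∈ D, c ∈ centralizer (A : Set G) → c ^ 2 = 1 := fun c hc hcA =>
    h.lemA hA hA0 hHA hc hcA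
  let R : G → Subgroup G → Prop := fun v B =>
    B ≤ A ∧ B.relIndex A = s ∧ ∃ c ∈ D, c ∈ centralizer (B : Set G) ∧ c ^ 2 = v
  have hRc : ∀ v B, R v B → ∀ g ∈ H, R (g * v * g⁻¹) (B ^ᶜ g) := by
    rintro v B ⟨h1, h2, c, hc, hcB, rfl⟩ g hg
    refine ⟨map_conj_le_of_mem_normalizer h1 (hHA hg), ?_, g * c * g⁻¹, h.conj_mem hg hc, ?_,
      by simp [pow_two]⟩
    · rw [← h2, ← relIndex_map_conj B A g, map_conj_eq_of_mem_norm (hHA hg)]
    · rw [centralizer_map_conj]; exact conj_mem_map_conj.2 hcB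
  have hRu : ∀ v B B', v ≠ 1 → R v B → R v B' → B = B' := by
    rintro v B B' hv ⟨h1, h2, c, hc, hcB, rfl⟩ ⟨h1', h2', c', hc', hcB', e⟩
    by_contra hne
    exact hv (e ▸ h.lemB2 hA hAe.1 hCA (sup_eq_of_ne hs.out h1 h1' h2 h2' hne) hc hcB hc' hcB' e)
  obtain ⟨B₀, hB₀, hr₀, c₀, hc₀, hc₀B, hc₀1⟩ := h.exists_hyperplane hs2 hA hAe hA0
  have hR₀ : R (c₀ ^ 2) B₀ := ⟨hB₀, hr₀, c₀, hc₀, hc₀B, rfl⟩
  have hex : ∀ v : G, ∃ B, v ≠ 1 → v ^ 2 = 1 → R v B := by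
    intro v
    by_cases hv : v ≠ 1 ∧ v ^ 2 = 1
    · obtain ⟨g, hg, e⟩ := h.trans _ v hc₀1 (h.sq_sq hc₀) hv.1 hv.2
      exact ⟨B₀ ^ᶜ g, fun _ _ => e ▸ hRc _ _ hR₀ g hg⟩
    · exact ⟨⊥, fun h1 h2 => absurd ⟨h1, h2⟩ hv⟩
  choose f hf using hex
  set T : Finset G := Finset.univ.filter fun x : G => x ≠ 1 ∧ x ^ 2 = 1 with hT
  have hmem : ∀ x, x ∈ T ↔ x ≠ 1 ∧ x ^ 2 = 1 := fun x => by simp [hT]
  have hconj : ∀ g x : G, x ∈ T → g * x * g⁻¹ ∈ T := fun g x hx => by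
    rw [hmem] at hx ⊢
    exact ⟨by simpa using hx.1, by rw [conj_pow, hx.2]; simp⟩
  have hfc : ∀ x ∈ T, ∀ g ∈ H, f (g * x * g⁻¹) = f x ^ᶜ g := fun x hx g hg => by
    have h1 := (hmem _).1 (hconj g x hx)
    have h2 := (hmem _).1 hx
    exact hRu _ _ _ h1.1 (hf _ h1.1 h1.2) (hRc _ _ (hf x h2.1 h2.2) g hg)
  have h0T : c₀ ^ 2 ∈ T := (hmem _).2 ⟨hc₀1, h.sq_sq hc₀⟩
  have hone := one_class T f (fun a ha => ⟨((hmem a).1 ha).1, by
      rw [← pow_two]; exact ((hmem a).1 ha).2⟩)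
    (fun a ha b hb hab => (hmem _).2 ⟨fun e => hab (by
      have := ((hmem b).1 hb).2
      rw [pow_two, ← e] at this
      exact (mul_right_cancel this).symm), h.mul_sq ((hmem a).1 ha).2 ((hmem b).1 hb).2⟩)
    (fun a ha b hb hab => by
      by_contra hne
      push Not at hne
      have ha' := (hmem a).1 ha
      have hb' := (hmem b).1 hb
      have hab1 : a * b ≠ 1 := fun e => hab (by
        have := hb'.2
        rw [pow_two, ← e] at this
        rw [mul_right_cancel this])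
      obtain ⟨a1, a2, c₁, hc₁, hc₁B, e₁⟩ := hf a ha'.1 ha'.2
      obtain ⟨b1, b2, c₂, hc₂, hc₂B, e₂⟩ := hf b hb'.1 hb'.2
      obtain ⟨d1, d2, c₃, hc₃, hc₃B, e₃⟩ := hf (a * b) hab1 (h.mul_sq ha'.2 hb'.2)
      exact hb'.1 (e₂ ▸ h.lemB3 hA hAe.1 hCA (sup_eq_of_ne hs.out a1 b1 a2 b2 hab)
        (sup_eq_of_ne hs.out a1 d1 a2 d2 hne.1.symm) (sup_eq_of_ne hs.out b1 d1 b2 d2 hne.2.symm)
        hc₁ hc₁B hc₂ hc₂B hc₃ hc₃B (by rw [e₁, e₂, e₃])))
    (m := Nat.card {x // x ∈ T ∧ f x = f (c₀ ^ 2)})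
    (fun a ha => by
      obtain ⟨g, hg, rfl⟩ := h.trans _ a hc₀1 (h.sq_sq hc₀) ((hmem a).1 ha).1 ((hmem a).1 ha).2
      refine (Nat.card_congr ((MulAut.conj g).toEquiv.subtypeEquiv fun x => ?_)).symm
      change _ ↔ g * x * g⁻¹ ∈ T ∧ f (g * x * g⁻¹) = _
      constructor
      · rintro ⟨h1, h2⟩
        exact ⟨hconj g x h1, by rw [hfc x h1 g hg, hfc _ h0T g hg, h2]⟩
      · rintro ⟨h1, h2⟩
        have hx : x ∈ T := by simpa [mul_assoc] using hconj g⁻¹ _ h1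
        rw [hfc x hx g hg, hfc _ h0T g hg, map_conj_inj] at h2
        exact ⟨hx, h2⟩)
    (h.odd_card hc₀1 (h.sq_sq hc₀))
  have hB0 : B₀ = ⊥ := h.eq_bot_of_sq (hB₀.trans hA) fun v hv1 hv => by
    have e : f v = B₀ := by
      rw [hone v ((hmem v).2 ⟨hv1, hv⟩) _ h0T]
      exact hRu _ _ _ hc₀1 (hf _ hc₀1 (h.sq_sq hc₀)) hR₀
    exact e ▸ (hf v hv1 hv).2.2
  rw [← hr₀, hB0, relIndex_bot_left]

/-- Higman: `X` is cyclic. -/
theorem isCyclic [Finite G] {s : ℕ} [hs : Fact s.Prime] (hs2 : s ≠ 2) (hX : IsPGroup s X) :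
    IsCyclic X := by
  by_contra hnc
  set Z := omegaOne s (X ⊓ centralizer (X : Set G)) with hZ
  have hcomm : IsMulCommutative (X ⊓ centralizer (X : Set G) : Subgroup G) :=
    ⟨⟨fun a b => Subtype.ext (b.2.2 a a.2.1)⟩⟩
  have hmem : ∀ x, x ∈ Z ↔ x ∈ X ⊓ centralizer (X : Set G) ∧ x ^ s = 1 := fun x =>
    PG.mem_omegaOne_iff hcomm
  have hZX : Z ≤ X := fun x hx => ((hmem x).1 hx).1.1
  have hZe : IsElementaryAbelian s Z :=
    ⟨⟨⟨fun a b => Subtype.ext (((hmem b).1 b.2).1.2 a (hZX a.2))⟩⟩, fun a ha => ((hmem a).1 ha).2⟩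
  have hHZ : H ≤ normalizer (Z : Set G) :=
    (PG.le_normalizer_inf h.HX (h.HX.trans (normalizer_le_normalizer_set_centralizer _))).trans
      (PG.normalizer_le_normalizer_omegaOne _)
  obtain ⟨A₀, hA₀n, hA₀e, hA₀c⟩ := PG.exists_normal_elementary_sq_of_odd hs2 hX hnc
  set A := A₀.map X.subtype with hA
  have hAX : A ≤ X := map_subtype_le _
  have hAc : Nat.card A = s ^ 2 := by rw [hA, card_map_of_injective X.subtype_injective, hA₀c]
  have hAe : IsElementaryAbelian s A := by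
    refine ⟨⟨⟨?_⟩⟩, ?_⟩
    · rintro ⟨_, a, ha, rfl⟩ ⟨_, b, hb, rfl⟩
      have := congrArg (fun x : A₀ => ((x : X) : G)) (hA₀e.1.is_comm.comm ⟨a, ha⟩ ⟨b, hb⟩)
      exact Subtype.ext this
    · rintro _ ⟨a, ha, rfl⟩
      exact congrArg Subtype.val (hA₀e.2 a ha)
  have hXA : X ≤ normalizer (A : Set G) := (normal_iff_le_normalizer_map_subtype A₀).1 hA₀n
  have hmeet : ∀ B ≤ A, B ≠ ⊥ → X ≤ normalizer (B : Set G) → ∃ z ∈ Z, z ≠ 1 ∧ z ∈ B := by
    intro B hB hB0 hXB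
    have := PG.inf_centralizer_ne_bot_of_isPGroup (hX.to_le (hB.trans hAX)) hX hXB hB0
    obtain ⟨⟨z, hz⟩, hz1⟩ := (ne_bot_iff_exists_ne_one).1 this
    exact ⟨z, (hmem z).2 ⟨⟨hAX (hB hz.1), hz.2⟩, hAe.2 z (hB hz.1)⟩,
      fun e => hz1 (Subtype.ext e), hz.1⟩
  have hs1 := hs.out.one_lt
  have hA0 : A ≠ ⊥ := by
    intro e
    rw [e, card_bot] at hAc
    nlinarith
  have hZ0 : Z ≠ ⊥ := by
    obtain ⟨z, hz, hz1, -⟩ := hmeet A le_rfl hA0 hXA
    exact fun e => hz1 (by simpa [e] using hz)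
  have hZc := h.card_eq_of_normal hs2 hZX hZe hZ0 hHZ
  have hZle : ∀ B ≤ A, B ≠ ⊥ → X ≤ normalizer (B : Set G) → Z ≤ B := by
    intro B hB hB0 hXB
    obtain ⟨z, hz, hz1, hzB⟩ := hmeet B hB hB0 hXB
    have : zpowers z = Z := eq_of_le_of_card_ge (zpowers_le.2 hz) (by
      rw [Nat.card_zpowers, orderOf_eq_prime (hZe.2 z hz) hz1, hZc])
    rw [← this]
    exact zpowers_le.2 hzB
  have hCA : ∀ c ∈ D, c ∈ centralizer (A : Set G) → c ^ 2 = 1 := fun c hc hcA =>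
    h.lemA hZX hZ0 hHZ hc (centralizer_anti (hZle A le_rfl hA0 hXA) hcA)
  obtain ⟨B, hB, hr, c, hc, hcB, hc1⟩ := h.exists_hyperplane hs2 hAX hAe hA0
  have hB0 : B ≠ ⊥ := by
    intro e
    rw [e, relIndex_bot_left, hAc] at hr
    nlinarith
  by_cases hXB : X ≤ normalizer (B : Set G)
  · exact hc1 (h.lemA hZX hZ0 hHZ hc (centralizer_anti (hZle B hB hB0 hXB) hcB))
  · obtain ⟨y, hy, hyB⟩ := SetLike.not_le_iff_exists.1 hXB
    have hne : B ^ᶜ y ≠ B := fun e => hyB (map_conj_eq_self_iff.1 e)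
    have hr' : (B ^ᶜ y).relIndex A = s := by
      rw [← hr, ← relIndex_map_conj B A y, map_conj_eq_of_mem_norm (hXA hy)]
    refine hc1 (h.lemB2 hAX hAe.1 hCA (sup_eq_of_ne hs.out
      (map_conj_le_of_mem_normalizer hB (hXA hy)) hB hr' hr hne) (h.conj_mem (h.XH hy) hc)
      (by rw [centralizer_map_conj]; exact conj_mem_map_conj.2 hcB) hc hcB ?_)
    rw [conj_pow, ← (h.cenX _ (h.sq_sq hc) y hy).eq, mul_inv_cancel_right]

end Core

end Cfsg.Agent.FG.HomInv
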