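import Mathlib
import Cfsg.Agent.FG.HomInvA
import Cfsg.Agent.FG.ClassIdx
import Cfsg.Agent.GT.PGroupCritical
import Cfsg.Agent.GT.CoprimeNilp
import Cfsg.Agent.GT.TransferSylow
import Cfsg.Agent.GT.HallTools
import Cfsg.Agent.GT.Fitting
import Cfsg.Agent.GT.Supersolvable2
import Cfsg.Agent.GT.SchurZassenhaus

/-!
Solvable groups with one class of involutions and a Sylow 2-subgroup with more than one
involution have 2-length at most one (the case of trivial odd core).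
-/

set_option autoImplicit false

namespace Cfsg.Agent.FG.HomInv

open Cfsg Subgroup Cfsg.Agent.GT
open scoped commutatorElement

variable {G : Type*} [Group G]

/-- Elements of order dividing four of a class two subgroup with central squares. -/
def omegaTwo (C : Subgroup G) (h1 : ∀ c ∈ C, ∀ d ∈ C, Commute (c ^ 2) d)
    (h2 : ∀ c ∈ C, ∀ d ∈ C, ∀ e ∈ C, Commute ⁅c, d⁆ e) : Subgroup G where
  carrier := {c | c ∈ C ∧ c ^ 4 = 1}
  one_mem' := ⟨C.one_mem, one_pow _⟩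
  inv_mem' := fun {c} hc => ⟨C.inv_mem hc.1, by rw [inv_pow, hc.2, inv_one]⟩
  mul_mem' := by
    rintro c d ⟨hc, hc4⟩ ⟨hd, hd4⟩
    refine ⟨C.mul_mem hc hd, ?_⟩
    set w := ⁅c⁻¹, d⁆ with hw
    have hwC : ∀ e ∈ C, Commute w e := h2 _ (C.inv_mem hc) d hd
    have e1 : c⁻¹ * d * c = w * d := by rw [hw, commutatorElement_def]; group
    have hw2 : w ^ 2 = 1 := by
      have a1 : c⁻¹ * (c⁻¹ * d * c) * c = d := by
        have := (h1 c hc d hd).eq
        calc c⁻¹ * (c⁻¹ * d * c) * c = c⁻¹ * c⁻¹ * (d * c ^ 2) := by rw [pow_two]; group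
          _ = d := by rw [← this, pow_two]; group
      have a2 : c⁻¹ * (w * d) * c = w * (c⁻¹ * d * c) := by
        rw [← mul_assoc, ← (hwC _ (C.inv_mem hc)).eq]; group
      rw [e1, a2, e1, ← mul_assoc, ← pow_two] at a1
      simpa using a1
    have e2 : (c * d) ^ 2 = c ^ 2 * (w * d ^ 2) := by
      calc (c * d) ^ 2 = c ^ 2 * ((c⁻¹ * d * c) * d) := by simp only [pow_two]; group
        _ = _ := by rw [e1, pow_two d]; group
    have e3 : (c * d) ^ 4 = ((c * d) ^ 2) ^ 2 := by rw [← pow_mul]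
    have hwm : w ∈ C := by
      rw [hw, commutatorElement_def]
      exact C.mul_mem (C.mul_mem (C.mul_mem (C.inv_mem hc) hd) (C.inv_mem (C.inv_mem hc)))
        (C.inv_mem hd)
    rw [e3, e2, (h1 c hc _ (C.mul_mem hwm (C.pow_mem hd 2))).mul_pow,
      (hwC _ (C.pow_mem hd 2)).mul_pow, hw2, ← pow_mul, ← pow_mul]
    simp [hc4, hd4]

theorem exists_core [Finite G] {Q X H : Subgroup G} [Q.Normal] (hQ : IsPGroup 2 Q)
    (hV : ∀ v : G, v ^ 2 = 1 → v ∈ Q ∧ v ∈ centralizer (Q : Set G))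
    (cenX : ∀ v : G, v ^ 2 = 1 → ∀ x ∈ X, Commute v x) (XH : X ≤ H)
    (HX : H ≤ normalizer (X : Set G)) (odd : Odd (Nat.card X))
    (faith : ∀ x ∈ X, x ∈ centralizer (Q : Set G) → x = 1)
    (trans : ∀ u v : G, u ≠ 1 → u ^ 2 = 1 → v ≠ 1 → v ^ 2 = 1 → ∃ h ∈ H, h * u * h⁻¹ = v) :
    ∃ D : Subgroup G, Core D X H := by
  obtain ⟨C₀, hC₀⟩ := PG.exists_isCritical hQ
  have := hC₀.char
  set C := C₀.map Q.subtype with hC
  have hCn : C.Normal := ConjAct.normal_of_characteristic_of_normal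
  have hCQ : C ≤ Q := map_subtype_le _
  have h1 : ∀ c ∈ C, ∀ d ∈ C, Commute (c ^ 2) d := by
    rintro _ ⟨c, hc, rfl⟩ _ ⟨d, hd, rfl⟩
    exact (congrArg Subtype.val (hC₀.pow_mem c hc d hd)).symm
  have h2 : ∀ c ∈ C, ∀ d ∈ C, ∀ e ∈ C, Commute ⁅c, d⁆ e := by
    rintro _ ⟨c, hc, rfl⟩ _ ⟨d, -, rfl⟩ _ ⟨e, he, rfl⟩
    exact (congrArg Subtype.val (hC₀.commutator_mem c hc d e he)).symm
  have h3 : Q ⊓ centralizer (C : Set G) ≤ C := by
    rintro x ⟨hx, hxC⟩
    exact ⟨⟨x, hx⟩, hC₀.centralizer_le fun c hc => Subtype.ext (hxC c ⟨c, hc, rfl⟩), rfl⟩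
  have hDn : (omegaTwo C h1 h2).Normal := ⟨fun c hc g =>
    ⟨hCn.conj_mem c hc.1 g, by rw [conj_pow, hc.2]; simp⟩⟩
  refine ⟨omegaTwo C h1 h2, fun c hc => hc.2, fun v hv => ⟨h3 ⟨(hV v hv).1,
    centralizer_anti hCQ (hV v hv).2⟩, ?_⟩, fun v hv d hd => ((hV v hv).2 d (hCQ hd.1)).symm,
    cenX, by rw [normalizer_eq_top]; exact le_top, XH, HX, odd, fun x hx hxD => ?_, trans⟩
  · rw [show 4 = 2 * 2 from rfl, pow_mul, hv, one_pow]
  · have hcop : (Nat.card (zpowers x)).Coprime 2 :=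
      Nat.coprime_two_right.2 (odd.of_dvd_nat (card_dvd_of_le (zpowers_le.2 hx)))
    have a1 : zpowers x ≤ centralizer (C : Set G) :=
      CopAct.le_centralizer_of_pow_sq_eq_one (hQ.to_le hCQ) (by rw [normalizer_eq_top]; exact le_top)
        hcop fun c hc hc4 => by
          rw [centralizer_zpowers, mem_centralizer_singleton_iff]
          exact (hxD c ⟨hc, hc4⟩).eq.symm
    have a2 : zpowers x ≤ centralizer (Q : Set G) :=
      CopAct.le_centralizer_of_isNilpotent_of_subgroup hQ.isNilpotent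
        (by rw [normalizer_eq_top]; exact le_top) (PG.coprime_card_of_isPGroup hQ hcop) hCQ a1
        (h3.trans (le_centralizer_iff.1 a1))
    exact faith x hx (a2 (mem_zpowers x))

theorem frat [Finite G] {r : ℕ} [Fact r.Prime] {N K : Subgroup G} [N.Normal] [K.Normal]
    (hNK : N ≤ K) {k : ℕ} (hk : N.relIndex K = r ^ k) :
    ∃ R ≤ K, IsPGroup r R ∧ N ⊔ R = K ∧ N ⊔ normalizer (R : Set G) = ⊤ := by
  obtain ⟨P⟩ : Nonempty (Sylow r G) := inferInstance
  have hnd : ¬ r ∣ ((P : Subgroup G) ⊓ K).relIndex K := by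
    rw [inf_relIndex_right]
    exact fun h => P.not_dvd_index (h.trans (CI.relIndex_dvd_index_of_normal_right _ _))
  have hP : IsPGroup r ((P : Subgroup G) ⊓ K : Subgroup G) := P.isPGroup'.to_le inf_le_left
  have hs : N ⊔ (P : Subgroup G) ⊓ K = K := by
    refine HT.sup_eq_of_coprime_relIndex hNK inf_le_right ?_
    rw [hk]
    exact ((Nat.Prime.coprime_iff_not_dvd Fact.out).2 hnd).pow_left k
  refine ⟨_, inf_le_right, hP, hs, eq_top_iff.2 fun g _ => ?_⟩
  obtain ⟨m, hm, n, hn, rfl⟩ := Tr.frattini_sylowIn hP inf_le_right hnd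
    (n := g) (by rw [normalizer_eq_top]; trivial)
  rw [← hs] at hm
  exact Subgroup.mul_mem _ (sup_le_sup_left le_normalizer N hm) (mem_sup_right hn)

theorem relIndex_comap_mk' (N : Subgroup G) [N.Normal] (K : Subgroup (G ⧸ N)) :
    N.relIndex (K.comap (QuotientGroup.mk' N)) = Nat.card K := by
  have := relIndex_ker (K.comap (QuotientGroup.mk' N)) (QuotientGroup.mk' N)
  rwa [QuotientGroup.ker_mk', map_comap_mk'] at this

theorem trans_of_sup {N H : Subgroup G} [N.Normal] (hN : ∀ v : G, v ^ 2 = 1 → ∀ n ∈ N, Commute v n)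
    (hs : N ⊔ H = ⊤) (hconj : ∀ x y : G, x ≠ 1 → x ^ 2 = 1 → y ≠ 1 → y ^ 2 = 1 → IsConj x y)
    (u v : G) (hu1 : u ≠ 1) (hu : u ^ 2 = 1) (hv1 : v ≠ 1) (hv : v ^ 2 = 1) :
    ∃ h ∈ H, h * u * h⁻¹ = v := by
  obtain ⟨g, hg⟩ := isConj_iff.1 (hconj u v hu1 hu hv1 hv)
  have hg' : g ∈ H ⊔ N := by rw [sup_comm, hs]; trivial
  obtain ⟨h, hh, n, hn, rfl⟩ := mem_sup_of_normal_right.1 hg'
  refine ⟨h, hh, ?_⟩
  rw [← hg]
  calc h * u * h⁻¹ = h * (u * n) * (h * n)⁻¹ := by group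
    _ = _ := by rw [(hN u hu n hn).eq]; group

theorem exists_invol [Finite G] {A : Subgroup G} (h : 2 ∣ Nat.card A) :
    ∃ v ∈ A, v ≠ 1 ∧ v ^ 2 = 1 := by
  obtain ⟨x, hx⟩ := exists_prime_orderOf_dvd_card' 2 h
  refine ⟨x, x.2, fun e => ?_, ?_⟩
  · rw [show x = 1 from Subtype.ext e, orderOf_one] at hx
    omega
  · have := pow_orderOf_eq_one x
    rw [hx] at this
    exact congrArg Subtype.val this

theorem exists_invol_of_isPGroup [Finite G] {A : Subgroup G} (hA : IsPGroup 2 A) (h : A ≠ ⊥) :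
    ∃ v ∈ A, v ≠ 1 ∧ v ^ 2 = 1 := by
  refine exists_invol ?_
  rcases hA.card_eq_or_dvd with e | e
  · exact absurd (card_eq_one.1 e) h
  · exact e

section Main

variable [Finite G] [Group.IsSolvable G]

/-- A Sylow 2-subgroup centralises the normal subgroup formed by the involutions. -/
theorem sylow_le_centralizer (S : Sylow 2 G) {V : Subgroup G} (hV : ∀ x, x ∈ V ↔ x ^ 2 = 1)
    (hconj : ∀ x y : G, x ≠ 1 → x ^ 2 = 1 → y ≠ 1 → y ^ 2 = 1 → IsConj x y) :
    (S : Subgroup G) ≤ centralizer (V : Set G) := by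
  have hVn : V.Normal := ⟨fun x hx g => (hV _).2 (by rw [conj_pow, (hV x).1 hx]; simp)⟩
  have hVp : IsPGroup 2 V := fun x => ⟨1, Subtype.ext (by simpa using (hV x).1 x.2)⟩
  set N := centralizer (V : Set G) with hN
  by_cases hNt : N = ⊤
  · rw [hNt]; exact le_top
  have hnt : (⊤ : Subgroup (G ⧸ N)) ≠ ⊥ := by
    intro e
    refine hNt (eq_top_iff.2 fun g _ => ?_)
    have : (g : G ⧸ N) ∈ (⊥ : Subgroup (G ⧸ N)) := e ▸ trivial
    exact (QuotientGroup.eq_one_iff g).1 this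
  obtain ⟨K₀, r, hK₀, -, hr, hK₀e⟩ := exists_isMinNormal_elementary_le hnt
  have := hK₀.normal
  have : Fact r.Prime := ⟨hr⟩
  set K := K₀.comap (QuotientGroup.mk' N) with hK
  have hK₀p : IsPGroup r K₀ := fun x => ⟨1, Subtype.ext (by simpa using hK₀e.2 x x.2)⟩
  obtain ⟨k, hk⟩ := hK₀p.exists_card_eq
  have hrel : N.relIndex K = r ^ k := (relIndex_comap_mk' N K₀).trans hk
  obtain ⟨R, hRK, hR, hNR, hNt'⟩ := frat (le_comap_mk' K₀) hrel
  have key : ∀ v : G, v ≠ 1 → v ^ 2 = 1 → v ∉ centralizer (R : Set G) := by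
    intro v hv1 hv hvR
    have hvK : v ∈ centralizer (K : Set G) := by
      rw [hK, ← hNR, centralizer_sup]
      exact ⟨fun n hn => (hn v ((hV v).2 hv)).symm, hvR⟩
    have hKN : K ≤ N := fun x hx w hw => by
      by_cases hw1 : w = 1
      · simp [hw1]
      obtain ⟨g, rfl⟩ := isConj_iff.1 (hconj v w hv1 hv hw1 ((hV w).1 hw))
      exact ((inferInstance : (centralizer (K : Set G)).Normal).conj_mem v hvK g x hx).symm
    refine hK₀.ne_bot ?_
    rw [← map_comap_mk' K₀]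
    exact map_mk'_eq_bot_iff.2 hKN
  have hV0 : V ≠ ⊥ := fun e => hNt (by rw [hN, e, centralizer_bot])
  have hr2 : r ≠ 2 := by
    rintro rfl
    obtain ⟨⟨v, hv⟩, hv1⟩ := ne_bot_iff_exists_ne_one.1 (PG.inf_centralizer_ne_bot_of_isPGroup
      hVp hR (by rw [normalizer_eq_top]; exact le_top) hV0)
    exact key v (fun e => hv1 (Subtype.ext e)) ((hV v).1 hv.1) hv.2
  have hodd : ¬ 2 ∣ Nat.card (normalizer (R : Set G)) := by
    intro h2
    obtain ⟨v, hvN, hv1, hv⟩ := exists_invol h2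
    refine key v hv1 hv fun x hx => ?_
    have hdis := IsPGroup.disjoint_of_ne 2 r hr2.symm V R hVp hR
    have a1 : v * x * v⁻¹ * x⁻¹ ∈ R := R.mul_mem (conj_mem_of_mem_normalizer hvN hx) (R.inv_mem hx)
    have a2 : v * x * v⁻¹ * x⁻¹ ∈ V := by
      have := V.mul_mem ((hV v).2 hv) (hVn.conj_mem _ (V.inv_mem ((hV v).2 hv)) x)
      simpa [mul_assoc] using this
    have := Subgroup.disjoint_def.1 hdis a2 a1
    rw [mul_inv_eq_one, mul_inv_eq_iff_eq_mul] at this
    exact this.symm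
  have hidx : ¬ 2 ∣ N.index := by
    rw [← relIndex_top_right, ← hNt', sup_comm, relIndex_sup_right]
    exact fun h => hodd (h.trans (relIndex_dvd_card _ _))
  intro s hs
  obtain ⟨j, hj⟩ := S.isPGroup' ⟨s, hs⟩
  have h1 : (s : G ⧸ N) ^ 2 ^ j = 1 := by
    rw [← QuotientGroup.mk_pow, show s ^ 2 ^ j = 1 from congrArg Subtype.val hj]; rfl
  have h2 : (s : G ⧸ N) ^ N.index = 1 := pow_card_eq_one'
  have := pow_gcd_eq_one.2 ⟨h1, h2⟩
  rw [(((Nat.Prime.coprime_iff_not_dvd Nat.prime_two).2 hidx).pow_left j).gcd_eq_one,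
    pow_one] at this
  exact (QuotientGroup.eq_one_iff s).1 this

theorem sylow_le_commutator (S : Sylow 2 G) {V : Subgroup G} (hV : ∀ x, x ∈ V ↔ x ^ 2 = 1)
    (htwo : ∃ x y : G, x ≠ y ∧ x ≠ 1 ∧ x ^ 2 = 1 ∧ y ≠ 1 ∧ y ^ 2 = 1)
    (hconj : ∀ x y : G, x ≠ 1 → x ^ 2 = 1 → y ≠ 1 → y ^ 2 = 1 → IsConj x y) :
    (S : Subgroup G) ≤ _root_.commutator G := by
  have hVn : V.Normal := ⟨fun x hx g => (hV _).2 (by rw [conj_pow, (hV x).1 hx]; simp)⟩
  have hSN := sylow_le_centralizer S hV hconj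
  set N := centralizer (V : Set G) with hN
  have hnd : ∀ M : Subgroup G, (S : Subgroup G) ≤ M → ¬ 2 ∣ (S : Subgroup G).relIndex M :=
    fun M hM h => S.not_dvd_index (h.trans (relIndex_dvd_index_of_le hM))
  obtain ⟨j, hj⟩ := S.isPGroup'.exists_card_eq
  have hcop : (Nat.card (S : Subgroup G)).Coprime
      ((S : Subgroup G).relIndex (normalizer ((S : Subgroup G) : Set G))) := by
    rw [hj]
    exact ((Nat.Prime.coprime_iff_not_dvd Nat.prime_two).2 (hnd _ le_normalizer)).pow_left j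
  obtain ⟨K, hK, hSK, -, hKc⟩ := exists_complement_of_coprime_relIndex le_normalizer le_rfl hcop
  have htop : N ⊔ K = ⊤ := eq_top_iff.2 fun g _ => by
    obtain ⟨m, hm, n, hn, rfl⟩ := Tr.frattini_sylowIn S.isPGroup' hSN (hnd N hSN)
      (n := g) (by rw [normalizer_eq_top]; trivial)
    rw [← hSK] at hn
    exact Subgroup.mul_mem _ (mem_sup_left hm) (sup_le_sup_right hSN K hn)
  have htr := trans_of_sup (N := N) (fun v hv n hn => hn v ((hV v).2 hv)) htop hconj
  have hbot : (S : Subgroup G) ⊓ centralizer (K : Set G) = ⊥ := by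
    by_contra hne
    obtain ⟨v, hv, hv1, hv2⟩ := exists_invol_of_isPGroup (S.isPGroup'.to_le inf_le_left) hne
    obtain ⟨x, y, hxy, hx1, hx, hy1, hy⟩ := htwo
    have key : ∀ z : G, z ≠ 1 → z ^ 2 = 1 → z = v := fun z hz1 hz => by
      obtain ⟨k, hk, rfl⟩ := htr v z hv1 hv2 hz1 hz
      rw [hv.2 k hk, mul_inv_cancel_right]
    exact hxy ((key x hx1 hx).trans (key y hy1 hy).symm)
  have := CopAct.commutator_sup_centralizer hK (by rw [hKc]; exact hcop.symm)
    (Or.inl inferInstance)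
  rw [hbot, sup_bot_eq] at this
  rw [← this, _root_.commutator_def]
  exact commutator_mono le_top le_top

/-- With trivial odd core the Sylow 2-subgroup is normal. -/
theorem sylow_le_pCore (hO : pPrimeCore 2 G = ⊥) (S : Sylow 2 G)
    (htwo : ∃ x y : G, x ≠ y ∧ x ≠ 1 ∧ x ^ 2 = 1 ∧ y ≠ 1 ∧ y ^ 2 = 1)
    (hconj : ∀ x y : G, x ≠ 1 → x ^ 2 = 1 → y ≠ 1 → y ^ 2 = 1 → IsConj x y) :
    (S : Subgroup G) ≤ pCore 2 G := by
  set Q := pCore 2 G with hQ
  have hQp : IsPGroup 2 Q := isPGroup_pCore _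
  have hCQ : centralizer (Q : Set G) ≤ Q := centralizer_pCore_le Nat.prime_two hO
  have hQ0 : Q ≠ ⊥ := by
    intro e
    obtain ⟨x, -, -, hx1, -⟩ := htwo
    rw [e, centralizer_bot] at hCQ
    exact hx1 (hCQ (mem_top x))
  have hVQ : ∀ v : G, v ^ 2 = 1 → v ∈ Q ∧ v ∈ centralizer (Q : Set G) := by
    intro v hv
    by_cases hv1 : v = 1
    · rw [hv1]; exact ⟨Q.one_mem, Subgroup.one_mem _⟩
    obtain ⟨z, hz, hz1, hz2⟩ := exists_invol_of_isPGroup (hQp.to_le inf_le_left)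
      (PG.inf_centralizer_ne_bot_of_isPGroup hQp hQp le_normalizer hQ0)
    obtain ⟨g, rfl⟩ := isConj_iff.1 (hconj z v hz1 hz2 hv1 hv)
    exact (inferInstance : (Q ⊓ centralizer (Q : Set G)).Normal).conj_mem z hz g
  let V : Subgroup G :=
    { carrier := {x | x ^ 2 = 1}
      mul_mem' := fun {a b} ha hb => by
        have ha' : a ^ 2 = 1 := ha
        have hb' : b ^ 2 = 1 := hb
        change (a * b) ^ 2 = 1
        rw [Commute.mul_pow ((hVQ b hb).2 a (hVQ a ha).1), ha', hb', one_mul]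
      one_mem' := one_pow 2
      inv_mem' := fun {x} hx => by
        have hx' : x ^ 2 = 1 := hx
        change x⁻¹ ^ 2 = 1
        rw [inv_pow, hx', inv_one] }
  have hV : ∀ x, x ∈ V ↔ x ^ 2 = 1 := fun x => Iff.rfl
  have hVn : V.Normal := ⟨fun x hx g => (hV _).2 (by rw [conj_pow, (hV x).1 hx]; simp)⟩
  have hSN := sylow_le_centralizer S hV hconj
  have hSG := sylow_le_commutator S hV htwo hconj
  set N := centralizer (V : Set G) with hN
  have hQN : Q ≤ N := fun q hq v hv => ((hVQ v hv).2 q hq).symm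
  set f := QuotientGroup.mk' Q with hf
  have hS' : IsPGroup 2 ((S : Subgroup G).map f) := S.isPGroup'.map f
  have hbot : pCore 2 (G ⧸ Q) = ⊥ := pCore_quotient_pCore
  suffices hall : ∀ s : Nat.Primes, (S : Subgroup G).map f ≤
      centralizer (pCore s (G ⧸ Q) : Set (G ⧸ Q)) by
    have h1 : (S : Subgroup G).map f ≤ fittingSubgroup (G ⧸ Q) := by
      refine le_trans ?_ centralizer_fitting_le
      rw [fitting_eq_iSup_pCore, centralizer_iSup]
      exact le_iInf hall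
    have h2 := le_pCore_of_le_fitting hS' h1
    rw [hbot, le_bot_iff] at h2
    exact map_mk'_eq_bot_iff.1 h2
  rintro ⟨s, hs⟩
  have : Fact s.Prime := ⟨hs⟩
  change _ ≤ centralizer (pCore s (G ⧸ Q) : Set (G ⧸ Q))
  by_cases hs2 : s = 2
  · rw [hs2, hbot, centralizer_bot]; exact le_top
  set O := pCore s (G ⧸ Q) with hOdef
  have hOp : IsPGroup s O := isPGroup_pCore _
  have hNn : (N.map f).Normal := normal_map_mk' N
  set X₀ := O ⊓ N.map f with hX₀
  have hX₀p : IsPGroup s X₀ := hOp.to_le inf_le_left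
  obtain ⟨k, hk⟩ := hX₀p.exists_card_eq
  have hrel : Q.relIndex (X₀.comap f) = s ^ k := (relIndex_comap_mk' Q X₀).trans hk
  obtain ⟨X, hXY, hX, hQX, htop⟩ := frat (le_comap_mk' X₀) hrel
  have hXN : X ≤ N := by
    refine hXY.trans ((comap_mono inf_le_right).trans ?_)
    rw [comap_map_mk']
    exact sup_le le_rfl hQN
  have hXodd : Odd (Nat.card X) := by
    obtain ⟨j, hj⟩ := hX.exists_card_eq
    rw [hj]
    exact (hs.odd_of_ne_two hs2).pow
  obtain ⟨D, hD⟩ := exists_core hQp hVQ (fun v hv x hx => hXN hx v hv) le_normalizer le_rfl hXodd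
    (fun x hx hxQ => Subgroup.disjoint_def.1 (IsPGroup.disjoint_of_ne s 2 hs2 X Q hX hQp) hx
      (hCQ hxQ))
    (trans_of_sup (N := Q) (fun v hv n hn => ((hVQ v hv).2 n hn).symm) htop hconj)
  have hcyc := hD.isCyclic hs2 hX
  have hmap : X.map f = X₀ := by
    rw [← map_mk'_sup, sup_comm, hQX, map_comap_mk']
  have hcyc₀ : IsCyclic X₀ := by
    rw [← hmap]
    exact isCyclic_of_surjective _ (f.subgroupMap_surjective X)
  have h1 : (S : Subgroup G).map f ≤ centralizer (X₀ : Set (G ⧸ Q)) := by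
    refine le_trans ?_ (SS.commutator_le_centralizer_of_isCyclic X₀)
    refine (map_mono hSG).trans ?_
    rw [_root_.commutator_def, _root_.commutator_def, Subgroup.map_commutator]
    exact commutator_mono le_top le_top
  refine CopAct.le_centralizer_of_commutator_commutator_eq_bot
    (by rw [normalizer_eq_top]; exact le_top)
    (IsPGroup.coprime_card_of_ne 2 s (Ne.symm hs2) _ _ hS' hOp) ?_
  have h2 : ⁅O, (S : Subgroup G).map f⁆ ≤ X₀ :=
    le_inf (commutator_le_left _ _) ((commutator_mono le_rfl (map_mono hSN)).trans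
      (commutator_le_right _ _))
  rw [commutator_eq_bot_iff_le_centralizer]
  exact h2.trans (le_centralizer_iff.1 h1)

end Main

end Cfsg.Agent.FG.HomInv
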