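import Mathlib
import Cfsg.Agent.FG.JordanFan1

/-!
# Jordan's counting argument, II: systems of fans
-/

set_option autoImplicit false
set_option linter.style.haveILetI false
set_option linter.unusedSectionVars false

namespace Cfsg.Agent.FG.JF

open Subgroup MulAction
open scoped Pointwise

variable {H : Type*} [Group H]

/-- The join of the fans inside `K`. -/
def mf (Fan : Subgroup H → Prop) (K : Subgroup H) : Subgroup H := sSup {F | Fan F ∧ F ≤ K}

theorem mf_le (Fan : Subgroup H → Prop) (K : Subgroup H) : mf Fan K ≤ K := sSup_le fun _ h => h.2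

theorem le_mf {Fan : Subgroup H → Prop} {F K : Subgroup H} (h : Fan F) (hle : F ≤ K) :
    F ≤ mf Fan K := le_sSup ⟨h, hle⟩

theorem mf_le_of {Fan : Subgroup H → Prop} {K L : Subgroup H} (h : ∀ F, Fan F → F ≤ K → F ≤ L) :
    mf Fan K ≤ L := sSup_le fun F hF => h F hF.1 hF.2

theorem mf_smul {Fan : Subgroup H → Prop} (hc : ∀ F (x : ConjAct H), Fan F → Fan (x • F))
    (x : ConjAct H) (K : Subgroup H) : mf Fan (x • K) = x • mf Fan K := by
  have key : ∀ (x : ConjAct H) (K : Subgroup H), mf Fan (x • K) ≤ x • mf Fan K := fun x K =>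
    mf_le_of fun F hF hle => by
      rw [subset_pointwise_smul_iff] at hle ⊢
      exact le_mf (hc _ _ hF) hle
  refine le_antisymm (key x K) ?_
  rw [pointwise_smul_subset_iff]
  simpa using key x⁻¹ (x • K)

theorem smul_centralizer_set (x : ConjAct H) (s : Set H) :
    x • centralizer s = centralizer (x • s) := by
  ext y
  rw [mem_pointwise_smul_iff_inv_smul_mem, mem_centralizer_iff, mem_centralizer_iff]
  constructor
  · rintro h _ ⟨z, hz, rfl⟩
    have := congrArg (x • ·) (h z hz)
    simpa only [smul_mul', smul_inv_smul] using this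
  · intro h z hz
    have := congrArg (x⁻¹ • ·) (h (x • z) ⟨z, hz, rfl⟩)
    simpa only [smul_mul', inv_smul_smul] using this

theorem smul_cg (x : ConjAct H) (g : H) :
    x • centralizer ({g} : Set H) = centralizer ({x • g} : Set H) := by
  rw [smul_centralizer_set, Set.smul_set_singleton]

theorem smul_cs (x : ConjAct H) (E : Subgroup H) :
    x • centralizer (E : Set H) = centralizer ((x • E : Subgroup H) : Set H) := by
  rw [smul_centralizer_set, coe_pointwise_smul]

theorem smul_mem_center_iff (x : ConjAct H) (g : H) : x • g ∈ center H ↔ g ∈ center H := by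
  rw [← smul_mem_pointwise_smul_iff (a := x) (x := g), Normal.conjAct inferInstance]

theorem smul_le_center_iff (x : ConjAct H) (E : Subgroup H) : x • E ≤ center H ↔ E ≤ center H := by
  rw [← pointwise_smul_le_pointwise_smul_iff (a := x) (S := E),
    Normal.conjAct (H := center H) inferInstance]

theorem le_cg_iff {E : Subgroup H} {g : H} :
    E ≤ centralizer ({g} : Set H) ↔ g ∈ centralizer (E : Set H) :=
  ⟨fun h _ hx => mem_centralizer_singleton_iff.1 (h hx),
    fun h _ hx => mem_centralizer_singleton_iff.2 (h _ hx)⟩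

/-- The stabilizer under conjugation, as a subgroup of `H`. -/
def cstab {Y : Type*} [MulAction (ConjAct H) Y] (y : Y) : Subgroup H where
  carrier := {x | ConjAct.toConjAct x • y = y}
  mul_mem' {a b} ha hb := by
    change ConjAct.toConjAct (a * b) • y = y
    rw [map_mul, mul_smul, hb, ha]
  one_mem' := one_smul (ConjAct H) y
  inv_mem' {a} ha := by
    change ConjAct.toConjAct a⁻¹ • y = y
    rw [map_inv, inv_smul_eq_iff, ha]

theorem card_stabilizer_eq {Y : Type*} [MulAction (ConjAct H) Y] (y : Y) :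
    Nat.card (stabilizer (ConjAct H) y) = Nat.card (cstab y : Subgroup H) :=
  Nat.card_congr (Equiv.refl _)

variable [Finite H]

/-- Counting a set which is a union of cosets with controlled stabilizers. -/
theorem exists_div_eq_of_cosets (T : H → Subgroup H) (hT : ∀ (x : ConjAct H) g, T (x • g) = x • T g)
    (S : Set H) (hS : ∀ (x : ConjAct H) g, g ∈ S → x • g ∈ S)
    (h1 : ∀ g ∈ S, ∀ t ∈ T g, g * t ∈ S ∧ T (g * t) = T g)
    (h2 : ∀ g ∈ S, g ∈ normalizer (T g : Set H)) (K : ℕ)
    (h3 : ∀ g ∈ S, ∀ U : Subgroup H,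
      (∀ x, x ∈ U ↔ x ∈ normalizer (T g : Set H) ∧ g⁻¹ * (x * g * x⁻¹) ∈ T g) →
      (T g).relIndex U ≤ K) :
    ∃ a : ℕ, (S.ncard : ℝ) / Nat.card H = a / K.factorial := by
  classical
  set π : H → Subgroup H × Set H := fun g => (T g, {y | g⁻¹ * y ∈ T g}) with hπ
  have hπ' : ∀ (x : ConjAct H) g, π (x • g) = x • π g := fun x g => by
    refine Prod.ext (hT x g) ?_
    ext y
    simp only [hπ, Prod.smul_snd, Set.mem_smul_set_iff_inv_smul_mem, Set.mem_ofPred_eq, hT,
      mem_pointwise_smul_iff_inv_smul_mem, smul_mul', smul_inv', inv_smul_smul]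
  haveI : Finite (ConjAct H) := ‹Finite H›
  obtain ⟨I, hI, he⟩ := exists_reps π hπ' S hS
  have key : ∀ y ∈ I, ∃ a : ℕ, ({x ∈ S | π x = y}.ncard : ℝ) /
      Nat.card (stabilizer (ConjAct H) y) = a / K.factorial := fun y hy => by
    obtain ⟨g, hg, rfl⟩ := hI y hy
    have e1 : {x ∈ S | π x = π g} = (fun t => g * t) '' (T g : Set H) := by
      ext x
      constructor
      · rintro ⟨-, h⟩
        have h4 : x ∈ (π x).2 := by simp [hπ]
        rw [h] at h4
        exact ⟨_, h4, mul_inv_cancel_left g x⟩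
      · rintro ⟨t, ht, rfl⟩
        refine ⟨(h1 g hg t ht).1, Prod.ext (h1 g hg t ht).2 ?_⟩
        ext y
        simp only [hπ, Set.mem_ofPred_eq, (h1 g hg t ht).2, mul_inv_rev, mul_assoc]
        exact (T g).mul_mem_cancel_left ((T g).inv_mem ht)
    set U : Subgroup H := cstab (π g) with hU
    have e2 : ∀ x, x ∈ U ↔ x ∈ normalizer (T g : Set H) ∧ g⁻¹ * (x * g * x⁻¹) ∈ T g := fun x => by
      change ConjAct.toConjAct x • π g = π g ↔ _
      rw [← hπ', ← conjAct_pointwise_smul_iff, ← hT]
      constructor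
      · intro h
        have h4 : ConjAct.toConjAct x • g ∈ (π (ConjAct.toConjAct x • g)).2 := by simp [hπ]
        rw [h] at h4
        exact ⟨congrArg Prod.fst h, h4⟩
      · rintro ⟨h4, h5⟩
        have : ConjAct.toConjAct x • g ∈ {x ∈ S | π x = π g} := by
          rw [e1]; exact ⟨_, h5, mul_inv_cancel_left g _⟩
        exact this.2
    have e3 : T g ≤ U := fun t ht => (e2 t).2 ⟨le_normalizer ht, by
      have h4 := (mem_normalizer_iff.1 ((normalizer _).inv_mem (h2 g hg)) t).1 ht
      have := (T g).mul_mem h4 ((T g).inv_mem ht)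
      simpa only [inv_inv, mul_assoc] using this⟩
    have e4 : Nat.card U = Nat.card (T g) * (T g).relIndex U := by
      rw [relIndex, ← Nat.card_congr (subgroupOfEquivOfLe e3).toEquiv, card_mul_index]
    have e5 : 0 < (T g).relIndex U := Nat.pos_of_ne_zero index_ne_zero_of_finite
    obtain ⟨c, hc⟩ := Nat.dvd_factorial e5 (h3 g hg U e2)
    refine ⟨c, ?_⟩
    rw [e1, Set.ncard_image_of_injective _ (mul_right_injective g), card_stabilizer_eq, ← hU, e4,
      hc, ← Nat.card_coe_set_eq]
    have h6 : (Nat.card (T g) : ℝ) ≠ 0 := Nat.cast_ne_zero.2 Nat.card_pos.ne'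
    have h7 : ((T g).relIndex U : ℝ) ≠ 0 := Nat.cast_ne_zero.2 e5.ne'
    have h8 : (c : ℝ) ≠ 0 := Nat.cast_ne_zero.2 fun h => K.factorial_ne_zero (by rw [hc, h]; simp)
    push_cast
    field_simp
  choose! a ha using key
  refine ⟨∑ y ∈ I, a y, ?_⟩
  rw [show Nat.card H = Nat.card (ConjAct H) from rfl, he, Finset.sum_congr rfl ha]
  push_cast
  rw [Finset.sum_div]

/-- The axioms of a system of fans in a finite group. -/
structure FanSys (Fan : Subgroup H → Prop) (M N B D : ℕ) : Prop where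
  comm : ∀ F, Fan F → F ≤ centralizer (F : Set H)
  conj : ∀ F (x : ConjAct H), Fan F → Fan (x • F)
  orb : ∀ F g, Fan F → (centralizer ({g} : Set H)).relIndex F < M → F ≤ centralizer ({g} : Set H)
  good : ∀ K g, g ∉ center H → K ≤ centralizer ({g} : Set H) →
    Fan (mf Fan K) ∧ (mf Fan K).relIndex K ≤ N
  tors : ∀ F k, Fan F → 0 < k → {a | a ∈ F ∧ a ^ k = 1}.ncard ≤ k ^ D
  norm : ∀ F, Fan F → (centralizer (F : Set H)).relIndex (normalizer (F : Set H)) ≤ B

namespace FanSys

variable {Fan : Subgroup H → Prop} {M N B D : ℕ} (h : FanSys Fan M N B D)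
include h

theorem good_cs {E : Subgroup H} (hE : ¬ E ≤ center H) :
    Fan (mf Fan (centralizer (E : Set H))) ∧
      (mf Fan (centralizer (E : Set H))).relIndex (centralizer (E : Set H)) ≤ N := by
  obtain ⟨e, he, he'⟩ := SetLike.not_le_iff_exists.1 hE
  exact h.good _ e he' (centralizer_le (Set.singleton_subset_iff.2 he))

theorem good_cg {g : H} (hg : g ∉ center H) : Fan (mf Fan (centralizer ({g} : Set H))) ∧
    (mf Fan (centralizer ({g} : Set H))).relIndex (centralizer ({g} : Set H)) ≤ N :=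
  h.good _ g hg le_rfl

theorem mem_normalizer_mf {K : Subgroup H} {x : H} (hx : x ∈ normalizer (K : Set H)) :
    x ∈ normalizer (mf Fan K : Set H) := by
  rw [← conjAct_pointwise_smul_iff] at hx ⊢
  rw [← mf_smul h.conj, hx]

/-- Elements whose fan is central. -/
theorem count_central : ∃ a : ℕ,
    ({g | g ∉ center H ∧ mf Fan (centralizer ({g} : Set H)) ≤ center H}.ncard : ℝ) / Nat.card H =
      a / (N * N ^ D).factorial := by
  have hcg : ∀ g t, t ∈ center H → centralizer ({g * t} : Set H) = centralizer {g} :=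
    fun g t ht => by
      ext y
      rw [mem_centralizer_singleton_iff, mem_centralizer_singleton_iff, mul_assoc g t y,
        ← mem_center_iff.1 ht y, ← mul_assoc, ← mul_assoc, mul_left_inj]
  refine exists_div_eq_of_cosets (fun g => mf Fan (centralizer ({g} : Set H))) (fun x g => ?_)
    {g | g ∉ center H ∧ mf Fan (centralizer ({g} : Set H)) ≤ center H}
    (fun x g hg => ⟨?_, ?_⟩) (fun g hg t ht => ⟨⟨fun h0 => hg.1 ?_, ?_⟩, ?_⟩) (fun g hg => ?_) _
    fun g hg U hU => ?_
  · rw [← smul_cg, mf_smul h.conj]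
  · rw [smul_mem_center_iff]; exact hg.1
  · rw [← smul_cg, mf_smul h.conj, smul_le_center_iff]; exact hg.2
  · exact ((center H).mul_mem_cancel_right (hg.2 ht)).1 h0
  · rw [hcg g t (hg.2 ht)]; exact hg.2
  · simp only [hcg g t (hg.2 ht)]
  · exact h.mem_normalizer_mf (le_normalizer (mem_centralizer_singleton_iff.2 rfl))
  · set T := mf Fan (centralizer ({g} : Set H)) with hT
    obtain ⟨h1, h2⟩ := h.good_cg hg.1
    have hCU : centralizer ({g} : Set H) ≤ U := fun x hx => (hU x).2
      ⟨h.mem_normalizer_mf (le_normalizer hx), by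
        rw [mem_centralizer_singleton_iff.1 hx]; simp⟩
    set k := T.relIndex (centralizer ({g} : Set H)) with hk
    have hk0 : 0 < k := Nat.pos_of_ne_zero index_ne_zero_of_finite
    haveI : T.Normal := ⟨fun n hn y => by
      rw [mem_center_iff.1 (hg.2 hn) y, mul_inv_cancel_right]; exact hn⟩
    have hgk : g ^ k ∈ center H := hg.2 (T.pow_relIndex_mem (mem_centralizer_singleton_iff.2 rfl))
    have h3 := relIndex_centralizer_le U g ((fun t => g * t) '' {a | a ∈ T ∧ a ^ k = 1})
      fun x hx => by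
        have h4 := ((hU x).1 hx).2
        refine ⟨_, ⟨h4, ?_⟩, mul_inv_cancel_left g _⟩
        have h5 : (x * g * x⁻¹) ^ k = g ^ k := by
          rw [conj_pow, mem_center_iff.1 hgk x, mul_inv_cancel_right]
        have h6 : Commute g (g⁻¹ * (x * g * x⁻¹)) := mem_center_iff.1 (hg.2 h4) g
        have h7 := h6.mul_pow k
        rw [mul_inv_cancel_left, h5] at h7
        exact left_eq_mul.1 h7
    rw [Set.ncard_image_of_injective _ (mul_right_injective g)] at h3
    rw [← relIndex_mul_relIndex T _ U (mf_le _ _) hCU]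
    exact Nat.mul_le_mul h2 ((h3.trans (h.tors T k h1 hk0)).trans (Nat.pow_le_pow_left h2 D))

theorem relIndex_normalizer_le {E T : Subgroup H} (hE : ¬ E ≤ center H)
    (hT : T = mf Fan (centralizer (E : Set H))) (hET : E ≤ T) :
    T.relIndex (normalizer (T : Set H)) ≤ N * B := by
  obtain ⟨h1, h2⟩ := h.good_cs hE
  rw [← hT] at h1 h2
  rw [← relIndex_mul_relIndex T _ _ (h.comm T h1) (centralizer_le_normalizer _)]
  exact Nat.mul_le_mul ((relIndex_le_of_le_right (centralizer_le hET)
    index_ne_zero_of_finite).trans h2) (h.norm T h1)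

/-- Elements whose fan is neither central nor maximal. -/
theorem count_nonmax : ∃ a : ℕ,
    ({g | g ∉ center H ∧ ¬ mf Fan (centralizer ({g} : Set H)) ≤ center H ∧
      mf Fan (centralizer (mf Fan (centralizer ({g} : Set H)) : Set H)) ≠
        mf Fan (centralizer ({g} : Set H))}.ncard : ℝ) / Nat.card H = a / (N * B).factorial := by
  set F : H → Subgroup H := fun g => mf Fan (centralizer ({g} : Set H)) with hF
  have hFs : ∀ (x : ConjAct H) g, F (x • g) = x • F g := fun x g => by
    simp only [hF]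
    rw [← smul_cg, mf_smul h.conj]
  have hgC : ∀ g, g ∈ centralizer (F g : Set H) := fun g => le_cg_iff.1 (mf_le _ _)
  have key : ∀ g, g ∉ center H → ¬ F g ≤ center H → mf Fan (centralizer (F g : Set H)) ≠ F g →
      ∀ t ∈ mf Fan (centralizer (F g : Set H)), g * t ∉ center H ∧ F (g * t) = F g := by
    intro g h1 h2 h3 t ht
    have hFg := (h.good_cg h1).1
    have hT := (h.good_cs h2).1
    have hFT : F g ≤ mf Fan (centralizer (F g : Set H)) := le_mf hFg (h.comm _ hFg)
    have h4 : ∀ u ∈ mf Fan (centralizer (F g : Set H)), u * (g * t) = g * t * u → u * g = g * u :=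
      fun u hu h5 => by
        rwa [mul_assoc g t u, h.comm _ hT hu t ht, ← mul_assoc, ← mul_assoc, mul_left_inj] at h5
    have h5 : g * t ∉ center H := fun h0 => h3 (le_antisymm (le_mf hT fun u hu =>
      mem_centralizer_singleton_iff.2 (h4 u hu (mem_center_iff.1 h0 u))) hFT)
    have hFgt := (h.good_cg h5).1
    have h6 : F g ≤ F (g * t) :=
      le_mf hFg (le_cg_iff.2 ((centralizer _).mul_mem (hgC g) (mf_le _ _ ht)))
    have h7 : F (g * t) ≤ mf Fan (centralizer (F g : Set H)) :=
      le_mf hFgt ((h.comm _ hFgt).trans (centralizer_le h6))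
    exact ⟨h5, le_antisymm (le_mf hFgt fun u hu => mem_centralizer_singleton_iff.2
      (h4 u (h7 hu) (mem_centralizer_singleton_iff.1 (mf_le _ _ hu)))) h6⟩
  refine exists_div_eq_of_cosets (fun g => mf Fan (centralizer (F g : Set H))) (fun x g => ?_)
    {g | g ∉ center H ∧ ¬ F g ≤ center H ∧ mf Fan (centralizer (F g : Set H)) ≠ F g}
    (fun x g hg => ⟨?_, ?_, ?_⟩) (fun g hg t ht => ?_) (fun g hg => ?_) _
    fun g hg U hU => ?_
  · simp only [hFs]
    rw [← smul_cs, mf_smul h.conj]
  · rw [smul_mem_center_iff]; exact hg.1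
  · rw [hFs, smul_le_center_iff]; exact hg.2.1
  · rw [hFs, ← smul_cs, mf_smul h.conj]
    exact fun h0 => hg.2.2 (MulAction.injective x h0)
  · obtain ⟨h1, h2⟩ := key g hg.1 hg.2.1 hg.2.2 t ht
    refine ⟨⟨h1, ?_, ?_⟩, by simp only [h2]⟩
    · rw [h2]; exact hg.2.1
    · rw [h2]; exact hg.2.2
  · exact h.mem_normalizer_mf (le_normalizer (hgC g))
  · have hFg := (h.good_cg hg.1).1
    exact (relIndex_le_of_le_right (fun x hx => ((hU x).1 hx).1) index_ne_zero_of_finite).trans
      (h.relIndex_normalizer_le hg.2.1 rfl (le_mf hFg (h.comm _ hFg)))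

/-- Elements whose fan is maximal and not central. -/
theorem count_max : ∃ I : Finset (Subgroup H),
    (∀ E ∈ I, Fan E ∧ ¬ E ≤ center H ∧ mf Fan (centralizer (E : Set H)) = E) ∧
    ({g | g ∉ center H ∧ ¬ mf Fan (centralizer ({g} : Set H)) ≤ center H ∧
      mf Fan (centralizer (mf Fan (centralizer ({g} : Set H)) : Set H)) =
        mf Fan (centralizer ({g} : Set H))}.ncard : ℝ) / Nat.card H =
      ∑ E ∈ I, ((((centralizer (E : Set H)).relIndex (normalizer (E : Set H)) : ℕ) : ℝ)⁻¹ -
        (((center H).relIndex (normalizer (E : Set H)) : ℕ) : ℝ)⁻¹) := by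
  set F : H → Subgroup H := fun g => mf Fan (centralizer ({g} : Set H)) with hF
  have hFs : ∀ (x : ConjAct H) g, F (x • g) = x • F g := fun x g => by
    simp only [hF]
    rw [← smul_cg, mf_smul h.conj]
  haveI : Finite (ConjAct H) := ‹Finite H›
  obtain ⟨I, hI, he⟩ := exists_reps F hFs {g | g ∉ center H ∧ ¬ F g ≤ center H ∧
      mf Fan (centralizer (F g : Set H)) = F g} fun x g hg => ⟨by
        rw [smul_mem_center_iff]; exact hg.1, by rw [hFs, smul_le_center_iff]; exact hg.2.1, by
        rw [hFs, ← smul_cs, mf_smul h.conj, hg.2.2]⟩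
  have hI' : ∀ E ∈ I, Fan E ∧ ¬ E ≤ center H ∧ mf Fan (centralizer (E : Set H)) = E :=
    fun E hE => by
      obtain ⟨g, hg, rfl⟩ := hI E hE
      exact ⟨(h.good_cg hg.1).1, hg.2⟩
  refine ⟨I, hI', he.trans (Finset.sum_congr rfl fun E hE => ?_)⟩
  obtain ⟨h1, h2, h3⟩ := hI' E hE
  have e1 : {x ∈ {g | g ∉ center H ∧ ¬ F g ≤ center H ∧ mf Fan (centralizer (F g : Set H)) = F g} |
      F x = E} = (centralizer (E : Set H) : Set H) \ (center H : Set H) := by
    ext g
    constructor
    · rintro ⟨hg, rfl⟩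
      exact ⟨le_cg_iff.1 (mf_le _ _), hg.1⟩
    · rintro ⟨h4, h5⟩
      have hFg := (h.good_cg h5).1
      have h6 : E ≤ F g := le_mf h1 (le_cg_iff.2 h4)
      have h7 : F g = E := le_antisymm
        (h3 ▸ le_mf hFg ((h.comm _ hFg).trans (centralizer_le h6))) h6
      exact ⟨⟨h5, h7 ▸ h2, h7 ▸ h3⟩, h7⟩
  have e2 : cstab E = normalizer (E : Set H) := by
    ext x; exact conjAct_pointwise_smul_iff
  have hZC : center H ≤ centralizer (E : Set H) := center_le_centralizer _
  have e3 : ∀ K : Subgroup H, K ≤ normalizer (E : Set H) →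
      ((K.relIndex (normalizer (E : Set H)) : ℕ) : ℝ)⁻¹ =
        (K : Set H).ncard / Nat.card (normalizer (E : Set H)) := fun K hK => by
    have e4 : Nat.card (normalizer (E : Set H)) = 
        Nat.card K * K.relIndex (normalizer (E : Set H)) := by
      rw [relIndex, ← Nat.card_congr (subgroupOfEquivOfLe hK).toEquiv, card_mul_index]
    have h6 : (Nat.card K : ℝ) ≠ 0 := Nat.cast_ne_zero.2 Nat.card_pos.ne'
    rw [e4, ← Nat.card_coe_set_eq]
    push_cast
    exact (div_mul_cancel_left₀ h6 _).symm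
  rw [e1, card_stabilizer_eq, e2, e3 _ (centralizer_le_normalizer _),
    e3 _ (hZC.trans (centralizer_le_normalizer _)), ← sub_div,
    Set.ncard_sdiff hZC (Set.toFinite _), Nat.cast_sub (Set.ncard_le_ncard hZC (Set.toFinite _))]

/-- A normal maximal fan contains every fan. -/
theorem good_of_normal (hBM : B < M) {E : Subgroup H} (h1 : Fan E) (h2 : ¬ E ≤ center H)
    (h3 : mf Fan (centralizer (E : Set H)) = E) (h4 : normalizer (E : Set H) = ⊤) :
    Fan (mf Fan ⊤) ∧ (mf Fan ⊤).index ≤ N * B := by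
  have h5 : (centralizer (E : Set H)).index ≤ B := by
    have := h.norm E h1
    rwa [h4, relIndex_top_right] at this
  have h6 : mf Fan ⊤ = E := by
    refine le_antisymm (mf_le_of fun F hF _ => ?_) (le_mf h1 le_top)
    rw [← h3]
    refine le_mf hF fun f hf e he => (mem_centralizer_singleton_iff.1 (h.orb F e hF ?_ hf)).symm
    refine lt_of_le_of_lt (le_trans ?_ h5) hBM
    refine (relIndex_le_of_le_right le_top index_ne_zero_of_finite).trans ?_
    rw [relIndex_top_right]
    exact Nat.le_of_dvd (Nat.pos_of_ne_zero index_ne_zero_of_finite)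
      (index_dvd_of_le (centralizer_le (Set.singleton_subset_iff.2 he)))
  rw [h6]
  refine ⟨h1, ?_⟩
  have := h.relIndex_normalizer_le h2 h3.symm le_rfl
  rwa [h4, relIndex_top_right] at this

end FanSys

universe u

/-- Jordan's alternative. -/
theorem alternative (N B D : ℕ) : ∃ N' : ℕ, ∀ (H : Type u) [Group H] [Finite H]
    (Fan : Subgroup H → Prop) (M : ℕ), B < M → FanSys Fan M N B D →
    (Fan (mf Fan ⊤) ∧ (mf Fan ⊤).index ≤ N * B) ∨ (center H).index ≤ N' := by
  obtain ⟨N', hN'⟩ := arith'.{u} (2 * B)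
    ((N * N ^ D).factorial * (N * B).factorial * B.factorial) (by positivity)
  refine ⟨N', fun H _ _ Fan M hBM h => ?_⟩
  obtain ⟨a, ha⟩ := h.count_central
  obtain ⟨b, hb⟩ := h.count_nonmax
  obtain ⟨I, hI, hc⟩ := h.count_max
  by_cases hn : ∃ E ∈ I, normalizer (E : Set H) = ⊤
  · obtain ⟨E, hE, h4⟩ := hn
    exact Or.inl (h.good_of_normal hBM (hI E hE).1 (hI E hE).2.1 (hI E hE).2.2 h4)
  right
  push Not at hn
  set q : Subgroup H → ℕ := fun E => (centralizer (E : Set H)).relIndex (normalizer (E : Set H))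
    with hq
  set r : Subgroup H → ℕ := fun E => (center H).relIndex (normalizer (E : Set H)) with hr
  have hH : (0 : ℝ) < Nat.card H := Nat.cast_pos.2 Nat.card_pos
  -- the class equation
  have hsum : ((center H).index : ℝ)⁻¹ + a / (N * N ^ D).factorial + b / (N * B).factorial +
      ∑ E ∈ I, ((q E : ℝ)⁻¹ - (r E : ℝ)⁻¹) = 1 := by
    have hz : ((center H).index : ℝ)⁻¹ = (center H : Set H).ncard / Nat.card H := by
      rw [← (center H).card_mul_index, ← Nat.card_coe_set_eq]
      have h6 : (Nat.card (center H) : ℝ) ≠ 0 := Nat.cast_ne_zero.2 Nat.card_pos.ne'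
      push_cast
      rw [eq_div_iff (mul_ne_zero h6 (Nat.cast_ne_zero.2 index_ne_zero_of_finite)), mul_comm,
        mul_assoc, mul_inv_cancel₀ (Nat.cast_ne_zero.2 index_ne_zero_of_finite), mul_one]
    rw [hz, ← ha, ← hb, ← hc, ← add_div, ← add_div, ← add_div, div_eq_one_iff_eq hH.ne']
    norm_cast
    rw [← Set.ncard_union_eq, ← Set.ncard_union_eq, ← Set.ncard_union_eq, ← Set.ncard_univ]
    · congr 1
      ext g
      simp only [Set.mem_union, SetLike.mem_coe, Set.mem_ofPred_eq, Set.mem_univ, iff_true]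
      tauto
    · rw [Set.disjoint_left]
      simp only [Set.mem_union, SetLike.mem_coe, Set.mem_ofPred_eq]
      tauto
    · rw [Set.disjoint_left]
      simp only [Set.mem_union, SetLike.mem_coe, Set.mem_ofPred_eq]
      tauto
    · rw [Set.disjoint_left]
      simp only [SetLike.mem_coe, Set.mem_ofPred_eq]
      tauto
  have hq0 : ∀ E, 0 < q E := fun E => Nat.pos_of_ne_zero index_ne_zero_of_finite
  have hr0 : ∀ E, 0 < r E := fun E => Nat.pos_of_ne_zero index_ne_zero_of_finite
  have hqB : ∀ E ∈ I, q E ≤ B := fun E hE => h.norm E (hI E hE).1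
  have hqr : ∀ E ∈ I, 2 * q E ≤ r E := fun E hE => by
    have hZC : center H ≤ centralizer (E : Set H) := center_le_centralizer _
    simp only [hq, hr]
    rw [← relIndex_mul_relIndex _ _ _ hZC (centralizer_le_normalizer _)]
    refine Nat.mul_le_mul_right _ ?_
    have h1 : (center H).relIndex (centralizer (E : Set H)) ≠ 0 := index_ne_zero_of_finite
    have h2 : (center H).relIndex (centralizer (E : Set H)) ≠ 1 := fun h0 =>
      (hI E hE).2.1 ((h.comm E (hI E hE).1).trans (relIndex_eq_one.1 h0))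
    omega
  have hcard : I.card ≤ 2 * B := by
    rcases I.eq_empty_or_nonempty with rfl | ⟨E₀, hE₀⟩
    · simp
    have hB : (0 : ℝ) < B := Nat.cast_pos.2 ((hq0 E₀).trans_le (hqB E₀ hE₀))
    have h1 : ∀ E ∈ I, (2 * B : ℝ)⁻¹ ≤ (q E : ℝ)⁻¹ - (r E : ℝ)⁻¹ := fun E hE => by
      have h2 : (0 : ℝ) < q E := Nat.cast_pos.2 (hq0 E)
      have h3 : (r E : ℝ)⁻¹ ≤ (2 * q E : ℝ)⁻¹ :=
        inv_anti₀ (by positivity) (by exact_mod_cast hqr E hE)
      have h4 : (2 * B : ℝ)⁻¹ ≤ (2 * q E : ℝ)⁻¹ :=
        inv_anti₀ (by positivity) (by have := hqB E hE; exact_mod_cast (by omega))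
      have h5 : (q E : ℝ)⁻¹ = (2 * q E : ℝ)⁻¹ + (2 * q E : ℝ)⁻¹ := by field_simp; ring
      linarith
    have h2 := Finset.card_nsmul_le_sum I _ _ h1
    have h3 : (0 : ℝ) ≤ ((center H).index : ℝ)⁻¹ + a / (N * N ^ D).factorial +
      b / (N * B).factorial := by positivity
    have h4 : (I.card : ℝ) * (2 * B : ℝ)⁻¹ ≤ 1 := by rw [nsmul_eq_mul] at h2; linarith
    rw [mul_inv_le_iff₀ (by positivity), one_mul] at h4
    exact_mod_cast h4
  have hc' : ∀ E ∈ I, ∃ c : ℕ, (q E : ℝ)⁻¹ = c / B.factorial := fun E hE => by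
    obtain ⟨c, hc⟩ := Nat.dvd_factorial (hq0 E) (hqB E hE)
    refine ⟨c, ?_⟩
    have h1 : (q E : ℝ) ≠ 0 := Nat.cast_ne_zero.2 (hq0 E).ne'
    have h2 : (c : ℝ) ≠ 0 := Nat.cast_ne_zero.2 fun h => B.factorial_ne_zero (by rw [hc, h]; simp)
    rw [hc]; push_cast; field_simp
  choose! c hc' using hc'
  refine hN' (center H).index (Subgroup H) I r
    (a * (N * B).factorial * B.factorial + b * (N * N ^ D).factorial * B.factorial +
      (∑ E ∈ I, c E) * (N * N ^ D).factorial * (N * B).factorial -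
      (N * N ^ D).factorial * (N * B).factorial * B.factorial)
    hcard (Nat.pos_of_ne_zero index_ne_zero_of_finite) (fun E hE => ⟨hr0 E, ?_⟩) ?_
  · have hZN : center H ≤ normalizer (E : Set H) := center_le_normalizer _
    rw [← relIndex_mul_index hZN]
    have h1 : (normalizer (E : Set H)).index ≠ 0 := index_ne_zero_of_finite
    have h2 : (normalizer (E : Set H)).index ≠ 1 := fun h0 => hn E hE (index_eq_one.1 h0)
    exact lt_mul_of_one_lt_right (hr0 E) (by omega)
  · rw [Finset.sum_sub_distrib, Finset.sum_congr rfl hc', ← Finset.sum_div] at hsum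
    have h1 : ((N * N ^ D).factorial : ℝ) ≠ 0 := Nat.cast_ne_zero.2 (Nat.factorial_ne_zero _)
    have h2 : ((N * B).factorial : ℝ) ≠ 0 := Nat.cast_ne_zero.2 (Nat.factorial_ne_zero _)
    have h3 : (B.factorial : ℝ) ≠ 0 := Nat.cast_ne_zero.2 (Nat.factorial_ne_zero _)
    have h4 : ∑ E ∈ I, (r E : ℝ)⁻¹ - ((center H).index : ℝ)⁻¹ = a / (N * N ^ D).factorial +
        b / (N * B).factorial + (∑ E ∈ I, (c E : ℝ)) / B.factorial - 1 := by linarith
    rw [h4]
    push_cast
    field_simp

end Cfsg.Agent.FG.JF
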