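import Mathlib
import Cfsg.Agent.FG.JordanFan2
import Cfsg.Agent.GT.Fitting
import Cfsg.Agent.Cl.FormWeights

/-!
# Jordan's counting argument, III: the Brauer-Feit theorem

A finite linear group of degree `n` in characteristic `p` with Sylow `p`-subgroups of order `p^m`
has an abelian normal `p'`-subgroup of index bounded in terms of `p`, `m`, `n`.
-/

set_option autoImplicit false
set_option linter.style.haveILetI false
set_option linter.unusedSectionVars false

namespace Cfsg.Agent.FG.JF

open Subgroup MulAction Cfsg.Agent.GT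
open scoped Pointwise

universe u

variable {G : Type*} [Group G]

/-- What is used of a linear group. -/
structure LinData (G : Type*) [Group G] (p m D B : ℕ) (dim : Subgroup G → ℕ) : Prop where
  dim_le : ∀ K, dim K ≤ D
  dim_lt : ∀ (K K' : Subgroup G) (x : G), ¬ K ≤ centralizer ({x} : Set G) → K' ≤ K →
    K' ≤ centralizer ({x} : Set G) → dim K' < dim K
  fact : (Nat.card G).factorization p ≤ m
  tors : ∀ (F : Subgroup G) k, F ≤ centralizer (F : Set G) → ¬ p ∣ Nat.card F → 0 < k →
    {a | a ∈ F ∧ a ^ k = 1}.ncard ≤ k ^ D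
  norm : ∀ F : Subgroup G, F ≤ centralizer (F : Set G) → ¬ p ∣ Nat.card F →
    (centralizer (F : Set G)).relIndex (normalizer (F : Set G)) ≤ B

/-- An `M`-fan: an abelian `p'`-subgroup without small nontrivial conjugation orbits. -/
def IsFan (p M : ℕ) (F : Subgroup G) : Prop :=
  F ≤ centralizer (F : Set G) ∧ ¬ p ∣ Nat.card F ∧
    ∀ g, (centralizer ({g} : Set G)).relIndex F < M → F ≤ centralizer ({g} : Set G)

/-- `K` has a largest `M`-fan, of index at most `N`. -/
def Good (p M N : ℕ) (K : Subgroup G) : Prop :=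
  IsFan p M (mf (IsFan p M) K) ∧ (mf (IsFan p M) K).relIndex K ≤ N

variable {p m D B M M' N : ℕ} {dim : Subgroup G → ℕ}

theorem IsFan.mono {F : Subgroup G} (h : IsFan p M' F) (hM : M ≤ M') : IsFan p M F :=
  ⟨h.1, h.2.1, fun g hg => h.2.2 g (hg.trans_le hM)⟩

theorem Good.mono {K : Subgroup G} {N' : ℕ} (h : Good p M N K) (hN : N ≤ N') : Good p M N' K :=
  ⟨h.1, h.2.trans hN⟩

theorem IsFan.smul {F : Subgroup G} (h : IsFan p M F) (x : ConjAct G) : IsFan p M (x • F) := by
  refine ⟨?_, ?_, fun g hg => ?_⟩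
  · rw [← smul_cs]; exact pointwise_smul_le_pointwise_smul_iff.2 h.1
  · rw [← Nat.card_congr (equivSMul x F).toEquiv]; exact h.2.1
  · rw [← smul_inv_smul x g, ← smul_cg] at hg ⊢
    rw [relIndex_pointwise_smul] at hg
    exact pointwise_smul_le_pointwise_smul_iff.2 (h.2.2 _ hg)

variable [Finite G]

theorem isFan_mf {A : Subgroup G} (h1 : A ≤ centralizer (A : Set G)) (h2 : ¬ p ∣ Nat.card A) :
    IsFan p M (mf (IsFan p M) A) :=
  ⟨(mf_le _ _).trans (h1.trans (centralizer_le (mf_le _ _))),
    fun h => h2 (h.trans (card_dvd_of_le (mf_le _ _))),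
    fun g hg => mf_le_of fun _ hF hle => hF.2.2 g
      ((relIndex_le_of_le_right (le_mf hF hle) index_ne_zero_of_finite).trans_lt hg)⟩

namespace LinData

variable (h : LinData G p m D B dim)
include h

theorem exists_fan (hM : 0 < M) (d : ℕ) : ∀ A : Subgroup G, dim A = d →
    A ≤ centralizer (A : Set G) → ¬ p ∣ Nat.card A →
    ∃ F, IsFan p M F ∧ F ≤ A ∧ F.relIndex A ≤ M ^ d := by
  induction d using Nat.strong_induction_on with
  | _ d ih =>
    intro A hd h1 h2
    by_cases hA : IsFan p M A
    · exact ⟨A, hA, le_rfl, by rw [relIndex_self]; exact Nat.one_le_pow _ _ hM⟩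
    have : ∃ g, (centralizer ({g} : Set G)).relIndex A < M ∧ ¬ A ≤ centralizer ({g} : Set G) := by
      by_contra h0
      push Not at h0
      exact hA ⟨h1, h2, h0⟩
    obtain ⟨g, h3, h4⟩ := this
    have h5 := h.dim_lt A (A ⊓ centralizer {g}) g h4 inf_le_left inf_le_right
    obtain ⟨F, hF, h6, h7⟩ := ih _ (hd ▸ h5) (A ⊓ centralizer {g}) rfl
      (inf_le_left.trans (h1.trans (centralizer_le inf_le_left)))
      fun h0 => h2 (h0.trans (card_dvd_of_le inf_le_left))
    refine ⟨F, hF, h6.trans inf_le_left, ?_⟩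
    rw [← relIndex_mul_relIndex F _ A h6 inf_le_left, inf_relIndex_left]
    calc _ ≤ M ^ dim (A ⊓ centralizer {g}) * M := Nat.mul_le_mul h7 h3.le
      _ = M ^ (dim (A ⊓ centralizer {g}) + 1) := by rw [pow_succ]
      _ ≤ M ^ d := Nat.pow_le_pow_right hM (by omega)

theorem good_of_le (hM : 0 < M) {A K : Subgroup G} (hAK : A ≤ K) (h1 : A ≤ centralizer (A : Set G))
    (h2 : ¬ p ∣ Nat.card A) (h3 : ∀ F, IsFan p M F → F ≤ K → F ≤ A) (h4 : A.relIndex K ≤ N) :
    Good p M (M ^ D * N) K := by
  have h5 : mf (IsFan p M) K = mf (IsFan p M) A :=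
    le_antisymm (mf_le_of fun F hF hle => le_mf hF (h3 F hF hle))
      (mf_le_of fun F hF hle => le_mf hF (hle.trans hAK))
  obtain ⟨F, hF, h6, h7⟩ := h.exists_fan hM _ A rfl h1 h2
  rw [Good, h5]
  refine ⟨isFan_mf h1 h2, ?_⟩
  rw [← relIndex_mul_relIndex _ A K (mf_le _ _) hAK]
  refine Nat.mul_le_mul ?_ h4
  exact ((relIndex_le_of_le_left (le_mf hF h6) index_ne_zero_of_finite).trans h7).trans
    (Nat.pow_le_pow_right hM (h.dim_le A))

theorem good_mono (hM : M ≤ M') (hM' : 0 < M') {K : Subgroup G} (hK : Good p M N K) :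
    Good p M' (M' ^ D * N) K :=
  h.good_of_le hM' (mf_le _ _) hK.1.1 hK.1.2.1 (fun _ hF hle => le_mf (hF.mono hM) hle) hK.2

theorem good_of_center [Fact p.Prime] {K : Subgroup G} (hK : (center K).index ≤ N) (hM : N < M) :
    Good p M (M ^ D * (p ^ m * N)) K := by
  have hp : p.Prime := Fact.out
  set Z := (center K).map K.subtype with hZ
  have hZK : Z ≤ K := map_subtype_le _
  have hZC : ∀ x ∈ K, Z ≤ centralizer ({x} : Set G) := by
    rintro x hx _ ⟨z, hz, rfl⟩
    exact mem_centralizer_singleton_iff.2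
      (congrArg Subtype.val (mem_center_iff.1 hz ⟨x, hx⟩)).symm
  have hZi : Z.relIndex K ≤ N := by
    rwa [relIndex, hZ, ← comap_subtype, comap_map_eq_self_of_injective K.subtype_injective]
  have hZZ : Z ≤ centralizer (Z : Set G) := fun z hz x hx =>
    (mem_centralizer_singleton_iff.1 (hZC x (hZK hx) hz)).symm
  haveI : IsMulCommutative Z := le_centralizer_iff_isMulCommutative.1 hZZ
  haveI : Group.IsNilpotent Z := by
    letI : CommGroup Z := IsMulCommutative.instCommGroup
    infer_instance
  have hH := isPiHallOf_piCoreOf {p}ᶜ Z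
  refine h.good_of_le (A := piCoreOf {p}ᶜ Z) (by omega) (hH.1.trans hZK)
    (hH.1.trans (hZZ.trans (centralizer_le hH.1))) (fun h0 => hH.2.1 p hp h0 rfl)
    (fun F hF hle => ?_) ?_
  · have hFZ : F ≤ Z := fun f hf => ⟨⟨f, hle hf⟩, mem_center_iff.2 fun x => Subtype.ext
      (mem_centralizer_singleton_iff.1 (hF.2.2 x (lt_of_le_of_lt (le_trans
        ((relIndex_le_of_le_right hle index_ne_zero_of_finite).trans
          (relIndex_le_of_le_left (hZC x x.2) index_ne_zero_of_finite)) hZi) hM) hf)).symm, rfl⟩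
    exact le_piCoreOf hFZ ((hZZ.trans (centralizer_le hFZ)).trans (centralizer_le_normalizer _))
      fun q hq hd (h0 : q = p) => hF.2.1 (h0 ▸ hd)
  · rw [← relIndex_mul_relIndex _ Z K hH.1 hZK]
    refine Nat.mul_le_mul ?_ hZi
    have h0 : (piCoreOf {p}ᶜ Z).relIndex Z ≠ 0 := index_ne_zero_of_finite
    have h1 := Nat.eq_prime_pow_of_unique_prime_dvd (p := p) h0 fun {q} hq hd => by
      by_contra hne
      exact hH.2.2 q hq hne hd
    rw [h1]
    refine Nat.pow_le_pow_right hp.pos (le_trans ?_ h.fact)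
    rw [← hp.pow_dvd_iff_le_factorization Nat.card_pos.ne', ← h1]
    exact (relIndex_dvd_card _ _).trans (card_subgroup_dvd_card _)

end LinData

theorem map_mf (Fan : Subgroup G → Prop) (K : Subgroup G) (L : Subgroup K) :
    (mf (fun F : Subgroup K => Fan (F.map K.subtype)) L).map K.subtype =
      mf Fan (L.map K.subtype) := by
  refine le_antisymm (map_le_iff_le_comap.2 (mf_le_of fun F hF hle =>
    map_le_iff_le_comap.1 (le_mf hF (map_mono hle)))) (mf_le_of fun F hF hle => ?_)
  have h1 : (F.subgroupOf K).map K.subtype = F :=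
    map_subgroupOf_eq_of_le (hle.trans (map_subtype_le _))
  rw [← h1]
  refine map_mono (le_mf (by rwa [h1]) ?_)
  rw [← map_le_map_iff_of_injective K.subtype_injective, h1]
  exact hle

theorem comap_centralizer (K : Subgroup G) (s : Set K) :
    (centralizer (Subtype.val '' s : Set G)).comap K.subtype = centralizer s := by
  ext x
  simp only [mem_comap, mem_centralizer_iff, Set.forall_mem_image]
  exact forall₂_congr fun y _ => ⟨fun h => Subtype.ext h, fun h => congrArg Subtype.val h⟩

theorem LinData.fanSys (h : LinData G p m D B dim) (K : Subgroup G)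
    (hK : ∀ L, dim L < dim K → Good p M N L) :
    FanSys (fun F : Subgroup K => IsFan p M (F.map K.subtype)) M N B D := by
  have e1 : ∀ g : K, (centralizer ({(g : G)} : Set G)).comap K.subtype = centralizer {g} :=
    fun g => by rw [← comap_centralizer, Set.image_singleton]
  have e2 : ∀ F : Subgroup K, (centralizer (F.map K.subtype : Set G)).comap K.subtype =
      centralizer (F : Set K) := fun F => comap_centralizer K F
  refine ⟨fun F hF => ?_, fun F x hF => ?_, fun F g hF hg => ?_, fun L g hg hL => ?_,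
    fun F k hF hk => ?_, fun F hF => ?_⟩
  · rw [← e2, ← map_le_iff_le_comap]; exact hF.1
  · have : (x • F).map K.subtype = ConjAct.toConjAct (ConjAct.ofConjAct x : K).1 •
        F.map K.subtype := by
      exact (map_map F K.subtype (MulDistribMulAction.toMonoidHom K x)).trans
        (map_map F (MulDistribMulAction.toMonoidHom G
          (ConjAct.toConjAct (ConjAct.ofConjAct x : K).1)) K.subtype).symm
    rw [this]
    exact hF.smul _
  · rw [← e1, relIndex_comap] at hg
    rw [← e1, ← map_le_iff_le_comap]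
    exact hF.2.2 _ hg
  · have h1 := hK (L.map K.subtype) (h.dim_lt K _ g (fun h0 => hg (mem_center_iff.2 fun x =>
      Subtype.ext (mem_centralizer_singleton_iff.1 (h0 x.2)))) (map_subtype_le _)
      (by rwa [map_le_iff_le_comap, e1]))
    rw [Good, ← map_mf, relIndex_map_map_of_injective _ _ K.subtype_injective] at h1
    exact h1
  · refine le_trans ?_ (h.tors _ k hF.1 hF.2.1 hk)
    exact Set.ncard_le_ncard_of_injOn Subtype.val
      (fun a ha => ⟨⟨a, ha.1, rfl⟩, congrArg Subtype.val ha.2⟩) Subtype.val_injective.injOn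
  · rw [← e2, relIndex_comap]
    exact (relIndex_le_of_le_right (le_normalizer_map _) index_ne_zero_of_finite).trans
      (h.norm _ hF.1 hF.2.1)

theorem exists_good (p m D B : ℕ) [Fact p.Prime] (d : ℕ) : ∃ M N : ℕ, B < M ∧
    ∀ (G : Type u) [Group G] [Finite G] (dim : Subgroup G → ℕ), LinData G p m D B dim →
      ∀ K : Subgroup G, dim K < d → Good p M N K := by
  induction d with
  | zero => exact ⟨B + 1, 0, by omega, fun _ _ _ _ _ _ h => absurd h (by omega)⟩
  | succ d ih =>
    obtain ⟨M, N, hBM, ih⟩ := ih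
    obtain ⟨N', hN'⟩ := alternative.{u} N B D
    refine ⟨M + N' + 1, (M + N' + 1) ^ D * (N * B + p ^ m * N'), by omega,
      fun G _ _ dim h K hK => ?_⟩
    rcases hN' K _ M hBM (h.fanSys K fun L hL => ih G dim h L (by omega)) with h1 | h1
    · have h2 : Good p M (N * B) K := by
        have e : (⊤ : Subgroup K).map K.subtype = K := by
          rw [← MonoidHom.range_eq_map, range_subtype]
        have h3 := map_mf (IsFan p M) K ⊤
        rw [e] at h3
        rw [Good, ← h3]
        refine ⟨h1.1, ?_⟩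
        rw [relIndex, ← comap_subtype, comap_map_eq_self_of_injective K.subtype_injective]
        exact h1.2
      exact (h.good_mono (by omega) (by omega) h2).mono (Nat.mul_le_mul_left _ (by omega))
    · exact (h.good_of_center h1 (by omega)).mono (Nat.mul_le_mul_left _ (by omega))

theorem exists_bound (p m D B : ℕ) [Fact p.Prime] : ∃ N : ℕ,
    ∀ (G : Type u) [Group G] [Finite G] (dim : Subgroup G → ℕ), LinData G p m D B dim →
      ∃ A : Subgroup G, A.Normal ∧ IsMulCommutative A ∧ ¬ p ∣ Nat.card A ∧ A.index ≤ N := by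
  obtain ⟨M, N, -, h⟩ := exists_good.{u} p m D B (D + 1)
  refine ⟨N, fun G _ _ dim hG => ?_⟩
  obtain ⟨h1, h2⟩ := h G dim hG ⊤ (Nat.lt_succ_of_le (hG.dim_le _))
  refine ⟨_, Normal.of_conjugate_fixed fun g => ?_, le_centralizer_iff_isMulCommutative.1 h1.1,
    h1.2.1, by rwa [relIndex_top_right] at h2⟩
  have := mf_smul (fun F x (hF : IsFan p M F) => hF.smul x) (ConjAct.toConjAct g) ⊤
  rw [Normal.conjAct inferInstance] at this
  exact this.symm

/-- The data for a faithful matrix representation. -/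
theorem linData_of_rep {F : Type*} [Field F] [CharP F p] [Fact p.Prime] {n : ℕ}
    (ρ : G →* GL (Fin n) F) (hρ : Function.Injective ρ) :
    LinData G p ((Nat.card G).factorization p) (n * n) (n * n).factorial fun K =>
      Module.finrank F (Submodule.span F ((fun g => (ρ g : Matrix (Fin n) (Fin n) F)) '' K)) := by
  have hn : n ≤ n * n := Nat.le_mul_self n
  refine ⟨fun K => ?_, fun K K' x h1 h2 h3 => ?_, le_rfl, fun A k h1 h2 hk => ?_,
    fun A h1 h2 => ?_⟩
  · refine (Submodule.finrank_le _).trans ?_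
    rw [Module.finrank_matrix]; simp
  · refine Submodule.finrank_lt_finrank_of_lt (lt_of_le_of_ne
      (Submodule.span_mono (Set.image_mono h2)) fun h0 => h1 fun y hy => ?_)
    have h4 : Submodule.span F ((fun g => (ρ g : Matrix (Fin n) (Fin n) F)) '' K') ≤
        (Subalgebra.centralizer F {(ρ x : Matrix (Fin n) (Fin n) F)}).toSubmodule := by
      rw [Submodule.span_le]
      rintro _ ⟨z, hz, rfl⟩ _ rfl
      have := congrArg (fun g => (ρ g : Matrix (Fin n) (Fin n) F))
        (mem_centralizer_singleton_iff.1 (h3 hz))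
      simpa only [map_mul, Units.val_mul] using this.symm
    rw [h0] at h4
    have h5 := h4 (Submodule.subset_span ⟨y, hy, rfl⟩) _ rfl
    refine mem_centralizer_singleton_iff.2 (hρ (Units.ext ?_))
    simpa only [map_mul, Units.val_mul] using h5.symm
  · haveI : IsMulCommutative A := le_centralizer_iff_isMulCommutative.1 h1
    letI : CommGroup A := IsMulCommutative.instCommGroup
    obtain ⟨S, hS, hc, hsep, -⟩ := Cl.exists_weight_set ρ (A := A)
      (fun h0 => h2 ((CharP.cast_eq_zero_iff F p _).1 h0)) A.subtype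
    haveI := hS.to_subtype
    haveI : NeZero k := ⟨hk.ne'⟩
    rw [← Nat.card_coe_set_eq]
    have h3 : Nat.card {a | a ∈ A ∧ a ^ k = 1} ≤
        Nat.card (S → rootsOfUnity k (AlgebraicClosure F)) := by
      refine Nat.card_le_card_of_injective (fun a χ => ⟨(χ.1.toHomUnits ⟨a.1, a.2.1⟩), ?_⟩) ?_
      · rw [mem_rootsOfUnity, ← map_pow]
        have : (⟨a.1, a.2.1⟩ : A) ^ k = 1 := Subtype.ext a.2.2
        rw [this, map_one]
      · intro a b hab
        by_contra hne
        obtain ⟨χ, hχ, h4⟩ := hsep (⟨a.1, a.2.1⟩ * (⟨b.1, b.2.1⟩ : A)⁻¹) fun h0 => hne (by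
          rw [map_eq_one_iff _ hρ] at h0
          exact Subtype.ext (mul_inv_eq_one.1 h0))
        have h5 := congrArg Subtype.val (congrFun hab ⟨χ, hχ⟩)
        apply h4
        have h6 : χ.toHomUnits (⟨a.1, a.2.1⟩ * (⟨b.1, b.2.1⟩ : A)⁻¹) = 1 := by
          rw [map_mul, map_inv, mul_inv_eq_one]; exact h5
        exact congrArg Units.val h6
    refine h3.trans ?_
    rw [Nat.card_fun, Nat.card_coe_set_eq]
    refine (Nat.pow_le_pow_left ?_ _).trans (Nat.pow_le_pow_right hk ?_)
    · exact card_rootsOfUnity _ _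
    · simpa using hc.trans (by simpa using hn)
  · haveI : IsMulCommutative A := le_centralizer_iff_isMulCommutative.1 h1
    letI : CommGroup A := IsMulCommutative.instCommGroup
    obtain ⟨S, hS, hc, hsep, hinv⟩ := Cl.exists_weight_set ρ (A := A)
      (fun h0 => h2 ((CharP.cast_eq_zero_iff F p _).1 h0)) A.subtype
    haveI := hS.to_subtype
    have hmem : ∀ (x : normalizer (A : Set G)) (χ : S),
        χ.1.comp (A.normalizerMonoidHom x⁻¹).toMonoidHom ∈ S := fun x χ =>
      hinv (x⁻¹ : normalizer (A : Set G)) _ (fun a => by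
        simp) χ.1 χ.2
    letI : MulAction (normalizer (A : Set G)) S :=
      { smul := fun x χ => ⟨_, hmem x χ⟩
        one_smul := fun χ => Subtype.ext (MonoidHom.ext fun a => by
          change χ.1 (A.normalizerMonoidHom 1⁻¹ a) = _
          simp)
        mul_smul := fun x y χ => Subtype.ext (MonoidHom.ext fun a => by
          change χ.1 (A.normalizerMonoidHom (x * y)⁻¹ a) =
            χ.1 (A.normalizerMonoidHom y⁻¹ (A.normalizerMonoidHom x⁻¹ a))
          rw [mul_inv_rev, map_mul]; rfl) }
    have h3 : (MulAction.toPermHom (normalizer (A : Set G)) S).ker ≤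
        (centralizer (A : Set G)).subgroupOf (normalizer (A : Set G)) := fun x hx => by
      rw [← normalizerMonoidHom_ker, ← (MonoidHom.ker _).inv_mem_iff, MonoidHom.mem_ker]
      ext a
      by_contra hne
      obtain ⟨χ, hχ, h4⟩ := hsep (A.normalizerMonoidHom x⁻¹ a * a⁻¹) fun h0 => hne (by
        rw [map_eq_one_iff _ hρ] at h0
        exact mul_inv_eq_one.1 h0)
      have h6 : x • (⟨χ, hχ⟩ : S) = ⟨χ, hχ⟩ :=
        DFunLike.congr_fun (MonoidHom.mem_ker.1 hx) (⟨χ, hχ⟩ : S)
      have h7 : χ.comp (A.normalizerMonoidHom x⁻¹).toMonoidHom = χ := congrArg Subtype.val h6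
      have h5 : χ (A.normalizerMonoidHom x⁻¹ a) = χ a := DFunLike.congr_fun h7 a
      exact h4 (by rw [map_mul, h5, ← map_mul, mul_inv_cancel, map_one])
    refine (Nat.le_of_dvd (Nat.pos_of_ne_zero index_ne_zero_of_finite) (index_dvd_of_le h3)).trans ?_
    rw [index_ker]
    refine (Nat.card_le_card_of_injective _ Subtype.val_injective).trans ?_
    rw [Nat.card_perm, Nat.card_coe_set_eq]
    exact Nat.factorial_le (hc.trans (by simpa using hn))

/-- **Brauer-Feit**: the modular analogue of Jordan's theorem. -/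
theorem brauer_feit (p : ℕ) [Fact p.Prime] (m n : ℕ) : ∃ N : ℕ,
    ∀ (G : Type u) [Group G] [Finite G] (F : Type*) [Field F] [CharP F p]
      (ρ : G →* GL (Fin n) F), Function.Injective ρ → (Nat.card G).factorization p = m →
      ∃ A : Subgroup G, A.Normal ∧ IsMulCommutative A ∧ ¬ p ∣ Nat.card A ∧ A.index ≤ N := by
  obtain ⟨N, hN⟩ := exists_bound.{u} p m (n * n) (n * n).factorial
  exact ⟨N, fun G _ _ F _ _ ρ hρ hm => hN G _ (hm ▸ linData_of_rep ρ hρ)⟩

end Cfsg.Agent.FG.JF
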