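import Mathlib
import Cfsg.Agent.Loc.FpfWard
import Cfsg.Agent.Loc.MssSyl
import Cfsg.Agent.GT.HallCoprime
import Cfsg.Agent.GT.PSolvable
import Cfsg.Agent.GT.Fitting
import Cfsg.Agent.FT.BG1_15
import Cfsg.Agent.Ch.Burnside

/-!
General lemmas for Martineau's theorem (a non-cyclic group of order `r ^ 2` acting coprimely with
abelian centralizers).
-/

set_option autoImplicit false

namespace Cfsg.Agent.FG.Mart

open Cfsg Cfsg.Agent.GT Cfsg.Agent.Loc.Mss Subgroup

universe u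

variable {Γ : Type u} [Group Γ] [Finite Γ]

theorem sylow_sup_normal {H : Type*} [Group H] [Finite H] {p : ℕ} [hp : Fact p.Prime]
    (h : Group.IsNilpotent (FG.H93.nilRes (⊤ : Subgroup H))) {P : Subgroup H} (hP : Syl p P ⊤) :
    (P ⊔ piCore {p}ᶜ H).Normal := by
  set D := FG.H93.nilRes (⊤ : Subgroup H) with hD
  have hq : Group.IsNilpotent (H ⧸ D) := by
    have h1 : FG.H93.nilRes (⊤ : Subgroup (H ⧸ D)) = ⊥ := by
      rw [← map_top_of_surjective _ (QuotientGroup.mk'_surjective D), ← FG.H93.map_nilRes,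
        Subgroup.map_eq_bot_iff, QuotientGroup.ker_mk']
    have := FG.H93.nilRes_eq_bot_iff.1 h1
    exact nilpotent_of_mulEquiv topEquiv
  have h2 := hP.map (QuotientGroup.mk' D)
  rw [map_top_of_surjective _ (QuotientGroup.mk'_surjective D)] at h2
  obtain ⟨P', hP'⟩ := h2.exists_sylow_top
  have h3 : (P' : Subgroup (H ⧸ D)).Normal := isNilpotent_iff_sylow_normal.1 hq p hp P'
  rw [hP'] at h3
  have h4 : (P ⊔ D).Normal := by
    have := h3.comap (QuotientGroup.mk' D)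
    rwa [comap_map_eq, QuotientGroup.ker_mk'] at this
  have h5 : D ≤ P ⊔ piCore {p}ᶜ H := by
    rw [← piCoreOf_sup_piCoreOf_compl {p} D]
    refine sup_le (le_sup_of_le_left ?_) (le_sup_of_le_right (piCoreOf_le_piCore D))
    rw [← pCoreOf_eq_piCoreOf hp.out]
    exact hP.le_of_norm (pg_core _) le_top (norm_normal _ _)
  have h6 : P ⊔ piCore {p}ᶜ H = (P ⊔ D) ⊔ piCore {p}ᶜ H :=
    le_antisymm (sup_le_sup_right le_sup_left _)
      (sup_le (sup_le le_sup_left h5) le_sup_right)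
  rw [h6]
  infer_instance

/-- Ward's theorem in the form used here. -/
theorem ward_norm {r : ℕ} [hr : Fact r.Prime] {L V : Subgroup Γ} (hsol : Group.IsSolvable L)
    (hV : IsElementaryAbelian r V) (hcard : Nat.card V = r ^ 2) (hn : V ≤ 𝐍[L])
    (hcop : ¬ r ∣ Nat.card L) (hfix : L ⊓ 𝐂[V] = ⊥) {p : ℕ} [Fact p.Prime] {T : Subgroup Γ}
    (hT : Syl p T L) : L ≤ 𝐍[T ⊔ piCoreOf {p}ᶜ L] := by
  have hnil : Group.IsNilpotent (FG.H93.nilRes L) := by
    set K := L ⊔ V with hK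
    have hLK : L ≤ K := le_sup_left
    have hVK : V ≤ K := le_sup_right
    have : (L.subgroupOf K).Normal :=
      (normal_subgroupOf_iff_le_normalizer hLK).2 (sup_le le_normalizer hn)
    have h1 := Loc.H78.isNilpotent_nilRes_of_ward (G := L.subgroupOf K) (A := V.subgroupOf K)
      (p := r) (isSolvable_subgroupOf L K)
      ⟨by have := hV.1; infer_instance, fun a ha => Subtype.ext (hV.2 a ha)⟩
      (by rw [card_subgroupOf_of_le hVK, hcard]) (by rwa [card_subgroupOf_of_le hLK])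
      (by
        rw [cent_subgroupOf hVK, eq_bot_iff]
        intro x hx
        have : (x : Γ) ∈ L ⊓ 𝐂[V] := hx
        rw [hfix] at this
        exact Subtype.ext this)
    have h2 : (FG.H93.nilRes (L.subgroupOf K)).map K.subtype = FG.H93.nilRes L := by
      rw [FG.H93.map_nilRes, map_subtype_subgroupOf_of_le hLK]
    rw [← h2]
    exact nilpotent_of_mulEquiv (equivMapOfInjective _ _ K.subtype_injective)
  have h3 : Group.IsNilpotent (FG.H93.nilRes (⊤ : Subgroup L)) := by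
    have h2 : (FG.H93.nilRes (⊤ : Subgroup L)).map L.subtype = FG.H93.nilRes L := by
      rw [FG.H93.map_nilRes, map_subtype_top]
    rw [← h2] at hnil
    exact nilpotent_of_mulEquiv (equivMapOfInjective _ _ L.subtype_injective).symm
  have h4 := hT.subgroupOf (le_refl L)
  rw [subgroupOf_self] at h4
  have h5 := sylow_sup_normal h3 h4
  have h6 := le_normalizer_map_subtype L (T.subgroupOf L ⊔ piCore {p}ᶜ L)
  rwa [Subgroup.map_sup, map_subtype_subgroupOf_of_le hT.le] at h6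

/-- The Frobenius group lemma. -/
theorem cent_of_frob {r : ℕ} (hr : r.Prime) {T W B : Subgroup Γ} (hB : Nat.card B = r)
    (hBT : B ≤ 𝐍[T]) (hBW : B ≤ 𝐍[W]) (hTW : T ≤ 𝐍[W]) (hT : T ⊓ 𝐂[B] = ⊥)
    (hc : (Nat.card W).Coprime (Nat.card T)) (hrW : ¬ r ∣ Nat.card W)
    (hsol : Group.IsSolvable W) (h : W ⊓ 𝐂[B] ≤ 𝐂[T]) : T ≤ 𝐂[W] := by
  by_cases hT0 : T = ⊥
  · rw [hT0]; exact bot_le
  have hB0 : B ≠ ⊥ := by
    rintro rfl
    rw [card_bot] at hB
    exact hr.one_lt.ne hB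
  have hF := FT.isFrob_of_semiregular hBT (FT.semiregular_of_prime (hB ▸ hr) hT) hT0 hB0
  have hcop : (Nat.card W).Coprime (Nat.card ↥(T ⊔ B)) := by
    refine Nat.Coprime.coprime_dvd_right (m := Nat.card B * Nat.card T) ?_
      (Nat.Coprime.mul_right ?_ hc)
    · rw [sup_comm]; exact card_sup_dvd_of_le_normalizer hBT
    · rw [hB]; exact ((Nat.Prime.coprime_iff_not_dvd hr).2 hrW).symm
  have h1 := Loc.H78.relIndex_eq_pow_of_frob (D := W ⊓ 𝐂[T]) inf_le_left hTW hBW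
    (norm_inf hTW (norm_cent le_normalizer)) (norm_inf hBW (norm_cent hBT)) hF hcop hsol le_rfl
  have h2 : (W ⊓ 𝐂[T]).relIndex (W ⊓ 𝐂[B]) = 1 := relIndex_eq_one.2 (le_inf inf_le_left h)
  rw [h2, one_pow, relIndex_eq_one] at h1
  exact cent_comm (h1.trans inf_le_right)

theorem core_compl_eq {p q : ℕ} (hp : p.Prime) (hq : q.Prime) (hpq : p ≠ q) {X : Subgroup Γ}
    (hX : IsPiNum {p, q} (Nat.card X)) : piCoreOf {p}ᶜ X = pCoreOf q X := by
  refine le_antisymm (le_pCoreOf (piCoreOf_le X) (le_normalizer_piCoreOf X) ?_)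
    (le_piCoreOf (pCoreOf_le X) (le_normalizer_pCoreOf X) ?_)
  · rw [isPGroup_iff_isPiNum hq]
    intro s hs hd
    have h1 := isPiNum_piCoreOf {p}ᶜ X s hs hd
    have h2 := hX.card_of_le (piCoreOf_le X) s hs hd
    rcases h2 with h2 | h2
    · exact absurd h2 h1
    · exact h2
  · exact isPiNum_of_isPGroup hq (isPGroup_pCoreOf q X) (fun h => hpq (Eq.symm h))

theorem isSolvable_of_pq {p q : ℕ} (hq : q.Prime) {X : Subgroup Γ}
    (hX : IsPiNum {p, q} (Nat.card X)) : Group.IsSolvable X :=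
  Ch.burnside_isSolvable_of_primes (p := p) hq fun s hs hd => hX s hs hd

/-- `O_q(N_L(A)) ≤ O_q(L)` in a `{p, q}`-group. -/
theorem core_norm_le {p q : ℕ} [hp : Fact p.Prime] (hq : q.Prime) (hpq : p ≠ q) {L A : Subgroup Γ}
    (hL : IsPiNum {p, q} (Nat.card L)) (hA : A ≤ L) (hAp : IsPGroup p A) :
    pCoreOf q (L ⊓ 𝐍[A]) ≤ pCoreOf q L := by
  rw [← core_compl_eq hp.out hq hpq hL, ← core_compl_eq hp.out hq hpq (hL.card_of_le inf_le_left)]
  exact FT.p'core_norm_pgroup hA hAp (isSolvable_of_pq hq hL)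

theorem cent_core_le {p q : ℕ} [hp : Fact p.Prime] (hq : q.Prime) (hpq : p ≠ q) {L : Subgroup Γ}
    (hL : IsPiNum {p, q} (Nat.card L)) (h : pCoreOf q L = ⊥) :
    L ⊓ 𝐂[pCoreOf p L] ≤ pCoreOf p L := by
  refine (isPSolvable_of_isSolvable (isSolvable_of_pq hq hL)).inf_centralizer_pCoreOf_le ?_
  rw [pPrimeCore_eq_piCore hp.out, ← piCoreOf_eq_bot_iff, core_compl_eq hp.out hq hpq hL, h]

theorem hasCompl_iff {p : ℕ} [Fact p.Prime] {X : Subgroup Γ} :
    HasNormalPComplement p X ↔ ¬ p ∣ Nat.card (pResidualOf p X) := by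
  rw [Tr.hasNormalPComplement_iff_not_dvd_card_pResidual, pResidualOf, card_map_subtype]

end Cfsg.Agent.FG.Mart
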