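import Mathlib
import Cfsg.Agent.FG.MartA
import Cfsg.Agent.GT.CoprimeProd

/-!
Martineau's theorem: the hypothesis, the minimal counterexample, invariant Sylow subgroups.
-/

set_option autoImplicit false

namespace Cfsg.Agent.FG.Mart

open Cfsg Cfsg.Agent.GT Cfsg.Agent.Loc.Mss Subgroup

universe u

variable {Γ : Type u} [Group Γ] [Finite Γ] {r : ℕ} [hr : Fact r.Prime] {G V : Subgroup Γ}

/-- The hypothesis. -/
structure MH (r : ℕ) (G V : Subgroup Γ) : Prop where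
  ea : IsElementaryAbelian r V
  card : Nat.card V = r ^ 2
  norm : V ≤ 𝐍[G]
  cop : ¬ r ∣ Nat.card G
  ab : ∀ a ∈ V, a ≠ 1 → G ⊓ 𝐂[zpowers a] ≤ 𝐂[G ⊓ 𝐂[zpowers a]]

/-- A subgroup of order `r` of `V`. -/
structure Line (r : ℕ) (V B : Subgroup Γ) : Prop where
  le : B ≤ V
  card : Nat.card B = r

omit [Finite Γ] in
theorem Line.ne_bot {B : Subgroup Γ} (h : Line r V B) : B ≠ ⊥ := by
  rintro rfl
  have := h.card
  rw [card_bot] at this
  exact hr.out.one_lt.ne this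

namespace MH

omit [Finite Γ] in
theorem copr (h : MH r G V) {X B : Subgroup Γ} (hX : X ≤ G) (hB : B ≤ V) :
    (Nat.card B).Coprime (Nat.card X) := by
  refine Nat.Coprime.coprime_dvd_left (card_dvd_of_le hB)
    (Nat.Coprime.coprime_dvd_right (card_dvd_of_le hX) ?_)
  rw [h.card]
  exact Nat.Coprime.pow_left _ ((Nat.Prime.coprime_iff_not_dvd hr.out).2 h.cop)

omit [Finite Γ] hr in
theorem not_dvd (h : MH r G V) {X : Subgroup Γ} (hX : X ≤ G) : ¬ r ∣ Nat.card X :=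
  fun hd => h.cop (hd.trans (card_dvd_of_le hX))

omit [Finite Γ] hr in
theorem solV (h : MH r G V) {B : Subgroup Γ} (hB : B ≤ V) : Group.IsSolvable B := by
  have := h.ea.1
  have : Group.IsSolvable V := Group.isSolvable_of_comm fun a b => mul_comm' a b
  exact isSolvable_of_le hB

omit [Finite Γ] hr in
theorem normB (h : MH r G V) {B : Subgroup Γ} (hB : B ≤ V) : V ≤ 𝐍[B] := by
  refine norm_of_cent fun v hv => mem_cent.2 fun b hb => ?_
  have := h.ea.1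
  exact congrArg Subtype.val (mul_comm' (⟨b, hB hb⟩ : V) ⟨v, hv⟩)

omit [Finite Γ] hr in
theorem sub (h : MH r G V) {X : Subgroup Γ} (hX : X ≤ G) (hn : V ≤ 𝐍[X]) : MH r X V :=
  ⟨h.ea, h.card, hn, h.not_dvd hX, fun a ha h1 =>
    (inf_le_inf_right _ hX).trans ((h.ab a ha h1).trans (cent_anti (inf_le_inf_right _ hX)))⟩

theorem map (h : MH r G V) {Γ' : Type*} [Group Γ'] (f : Γ →* Γ') (hf : V ⊓ f.ker = ⊥) :
    MH r (G.map f) (V.map f) := by
  refine ⟨⟨by have := h.ea.1; infer_instance, ?_⟩, ?_, map_norm_le f h.norm, fun hd =>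
    h.cop (hd.trans (card_map_dvd _ _)), ?_⟩
  · rintro _ ⟨a, ha, rfl⟩
    rw [← map_pow, h.ea.2 a ha, map_one]
  · have := card_map_mul_card_inf_ker V f
    rwa [hf, card_bot, mul_one, h.card] at this
  · rintro _ ⟨a, ha, rfl⟩ h1
    have h2 : a ≠ 1 := by rintro rfl; exact h1 (map_one f)
    have h3 : zpowers a ≤ V := zpowers_le.2 ha
    rw [← MonoidHom.map_zpowers, ← CopAct.map_inf_centralizer' f (h3.trans h.norm)
      (h.copr le_rfl h3) (Or.inl (h.solV h3))]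
    exact map_cent_le f (h.ab a ha h2)

omit [Finite Γ] hr in
theorem subgroupOf (h : MH r G V) {K : Subgroup Γ} (hG : G ≤ K) (hV : V ≤ K) :
    MH r (G.subgroupOf K) (V.subgroupOf K) := by
  refine ⟨⟨by have := h.ea.1; infer_instance, fun a ha => Subtype.ext (h.ea.2 a ha)⟩,
    by rw [card_subgroupOf_of_le hV, h.card], ?_, by rw [card_subgroupOf_of_le hG]; exact h.cop, ?_⟩
  · rw [norm_subgroupOf hG]
    exact fun x hx => h.norm hx
  · intro a ha h1 x hx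
    have key : ∀ y : K, y ∈ G.subgroupOf K ⊓ 𝐂[zpowers a] → (y : Γ) ∈ G ⊓ 𝐂[zpowers (a : Γ)] := by
      intro y hy
      refine ⟨hy.1, mem_cent.2 ?_⟩
      rintro _ ⟨k, rfl⟩
      exact congrArg Subtype.val (mem_cent.1 hy.2 (a ^ k) ⟨k, rfl⟩)
    refine mem_cent.2 fun y hy => Subtype.ext ?_
    exact mem_cent.1 (h.ab a ha (fun e => h1 (Subtype.ext e)) (key x hx)) y (key y hy)

omit [Finite Γ] in
theorem comm (h : MH r G V) {B X Y : Subgroup Γ} (hB : Line r V B) (hX : X ≤ G) (hXB : X ≤ 𝐂[B])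
    (hY : Y ≤ G) (hYB : Y ≤ 𝐂[B]) : X ≤ 𝐂[Y] := by
  obtain ⟨a, ha, h1⟩ := (bot_or_exists_ne_one B).resolve_left hB.ne_bot
  have h2 : 𝐂[B] ≤ 𝐂[zpowers a] := cent_anti (zpowers_le.2 ha)
  exact (le_inf hX (hXB.trans h2)).trans ((h.ab a (hB.le ha) h1).trans
    (cent_anti (le_inf hY (hYB.trans h2))))

theorem gen (h : MH r G V) {X H : Subgroup Γ} (hX : X ≤ G) (hn : V ≤ 𝐍[X])
    (hl : ∀ B, Line r V B → X ⊓ 𝐂[B] ≤ H) : X ≤ H := by
  refine CopAct.le_of_hyperplane_centralizer_le h.ea ?_ hn (h.not_dvd hX) fun B hB hi =>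
    hl B ⟨hB, ?_⟩
  · rintro rfl
    have := h.card
    rw [card_bot] at this
    exact (Nat.one_lt_pow two_ne_zero hr.out.one_lt).ne this
  · have := card_mul_relIndex hB
    rw [hi, h.card, pow_two] at this
    exact Nat.eq_of_mul_eq_mul_right hr.out.pos this

theorem exists_line (h : MH r G V) {X : Subgroup Γ} (hX : X ≤ G) (hn : V ≤ 𝐍[X]) (h0 : X ≠ ⊥) :
    ∃ B, Line r V B ∧ X ⊓ 𝐂[B] ≠ ⊥ := by
  by_contra hc
  push Not at hc
  exact h0 (le_bot_iff.1 (h.gen hX hn fun B hB => (hc B hB).le))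

theorem exists_ne (h : MH r G V) {B : Subgroup Γ} (hB : Line r V B) :
    ∃ B', Line r V B' ∧ B' ≠ B := by
  have h1 : ¬ V ≤ B := by
    intro hle
    have := Nat.le_of_dvd Nat.card_pos (card_dvd_of_le hle)
    rw [h.card, hB.card] at this
    have := hr.out.one_lt
    nlinarith
  obtain ⟨a, ha, haB⟩ := SetLike.not_le_iff_exists.1 h1
  refine ⟨zpowers a, ⟨zpowers_le.2 ha, ?_⟩, fun e => haB (e ▸ mem_zpowers a)⟩
  rw [Nat.card_zpowers]
  exact orderOf_eq_prime (h.ea.2 a ha) (by rintro rfl; exact haB (one_mem _))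

theorem sup_line (h : MH r G V) {B B' : Subgroup Γ} (hB : Line r V B) (hB' : Line r V B')
    (hne : B ≠ B') : B ⊔ B' = V :=
  Loc.H78.sup_eq_of_card_sq hr.out h.card hB.le hB'.le hB'.card fun hle =>
    hne (Loc.H78.eq_of_card_prime hr.out hB'.card hle hB.ne_bot)

omit [Finite Γ] hr in
theorem invC (h : MH r G V) {X B : Subgroup Γ} (hn : V ≤ 𝐍[X]) (hB : Line r V B) :
    V ≤ 𝐍[X ⊓ 𝐂[B]] := norm_inf hn (norm_cent (h.normB hB.le))

theorem exists_syl (h : MH r G V) {X : Subgroup Γ} (hX : X ≤ G) (hn : V ≤ 𝐍[X]) (p : ℕ)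
    [Fact p.Prime] : ∃ P, Syl p P X ∧ V ≤ 𝐍[P] := by
  obtain ⟨P, h1, h2, h3, h4⟩ := CopAct.exists_invariant_sylowIn hn (h.copr hX le_rfl)
    (Or.inl (h.solV le_rfl)) p
  exact ⟨P, ⟨h1, h2, h3⟩, h4⟩

end MH

/-- The minimal counterexample. -/
structure Min (r : ℕ) (G V : Subgroup Γ) : Prop extends MH r G V where
  nsol : ¬ Group.IsSolvable G
  simple : ∀ N ≤ G, G ≤ 𝐍[N] → V ≤ 𝐍[N] → N = ⊥ ∨ N = G
  proper : ∀ X ≤ G, V ≤ 𝐍[X] → X ≠ G → Group.IsSolvable X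

/-- Reduction to the minimal counterexample. -/
theorem MH.solvable_of_min
    (hmin : ∀ (Δ : Type u) [Group Δ] [Finite Δ] (G V : Subgroup Δ), ¬ Min r G V)
    (h : MH r G V) : Group.IsSolvable G := by
  suffices H : ∀ (n : ℕ) (Δ : Type u) [Group Δ] [Finite Δ] (G V : Subgroup Δ), Nat.card G = n →
      MH r G V → Group.IsSolvable G from H _ Γ G V rfl h
  intro n
  induction n using Nat.strong_induction_on with
  | _ n ih =>
  intro Δ _ _ G V hn h
  by_contra hns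
  have hp : ∀ X ≤ G, V ≤ 𝐍[X] → X ≠ G → Group.IsSolvable X := fun X hX hV hne =>
    ih _ (hn ▸ card_lt_of_lt (lt_of_le_of_ne hX hne)) Δ X V rfl (h.sub hX hV)
  refine hmin Δ G V ⟨h, hns, fun N hN hGN hVN => ?_, hp⟩
  by_contra hc
  push Not at hc
  have hNs := hp N hN hVN hc.2
  set K := G ⊔ V
  have hGK : G ≤ K := le_sup_left
  have hVK : V ≤ K := le_sup_right
  have : (N.subgroupOf K).Normal :=
    (normal_subgroupOf_iff_le_normalizer (hN.trans hGK)).2 (sup_le hGN hVN)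
  have h1 := h.subgroupOf hGK hVK
  have hle : N.subgroupOf K ≤ G.subgroupOf K := fun x hx => hN hx
  have h2 := h1.map (QuotientGroup.mk' (N.subgroupOf K)) (by
    rw [QuotientGroup.ker_mk']
    exact disjoint_iff.1 (disjoint_of_coprime_natCard (h1.copr hle le_rfl)))
  have h3 := card_map_mk'_mul_card_inf (G.subgroupOf K) (N.subgroupOf K)
  rw [inf_eq_right.2 hle, card_subgroupOf_of_le hGK, card_subgroupOf_of_le (hN.trans hGK)] at h3
  have h4 : 1 < Nat.card N := (one_lt_card_iff_ne_bot N).2 hc.1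
  have h5 := ih _ (by
    rw [← hn, ← h3]
    exact lt_mul_of_one_lt_right Nat.card_pos h4) _ _ _ rfl h2
  have h6 : Group.IsSolvable ↥(G.subgroupOf K ⊓ (QuotientGroup.mk' (N.subgroupOf K)).ker) := by
    rw [QuotientGroup.ker_mk', inf_eq_right.2 hle]
    exact isSolvable_subgroupOf N K
  have h7 := isSolvable_of_map_of_inf_ker (G.subgroupOf K) (QuotientGroup.mk' (N.subgroupOf K))
  exact hns (isSolvable_of_mulEquiv (subgroupOfEquivOfLe hGK))

namespace Min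

theorem fix (h : Min r G V) : G ⊓ 𝐂[V] = ⊥ := by
  have h1 : G ≤ 𝐂[G ⊓ 𝐂[V]] := h.gen le_rfl h.norm fun B hB =>
    h.comm hB inf_le_left inf_le_right inf_le_left (inf_le_right.trans (cent_anti hB.le))
  rcases h.simple _ inf_le_left (norm_of_cent h1) (norm_of_cent (cent_comm inf_le_right)) with
    h2 | h2
  · exact h2
  · rw [h2] at h1
    exact absurd (Group.isSolvable_of_comm fun a b =>
      Subtype.ext (mem_cent.1 (h1 b.2) a a.2)) h.nsol

theorem fix' (h : Min r G V) {X : Subgroup Γ} (hX : X ≤ G) : X ⊓ 𝐂[V] = ⊥ :=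
  le_bot_iff.1 (h.fix ▸ inf_le_inf_right _ hX)

theorem disj (h : Min r G V) {B B' T : Subgroup Γ} (hB : Line r V B) (hB' : Line r V B')
    (hne : B ≠ B') (hT : T ≤ G) (hTB : T ≤ 𝐂[B]) : T ⊓ 𝐂[B'] = ⊥ :=
  Loc.H78.inf_cent_eq_bot_of_sup (h.sup_line hB' hB hne.symm) hTB (h.fix' hT)

omit [Finite Γ] hr in
theorem norm_solv (h : Min r G V) {B : Subgroup Γ} (hB : B ≤ G) (h0 : B ≠ ⊥) (hn : V ≤ 𝐍[B])
    (hs : Group.IsSolvable B) : Group.IsSolvable ↥(G ⊓ 𝐍[B]) := by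
  refine h.proper _ inf_le_left (norm_inf h.norm (norm_norm hn)) fun e => ?_
  rcases h.simple B hB (e ▸ inf_le_right) hn with h1 | h1
  · exact h0 h1
  · exact h.nsol (h1 ▸ hs)

theorem le_hall (h : Min r G V) {π : Set ℕ} {K H U : Subgroup Γ} (hK : K ≤ G) (hn : V ≤ 𝐍[K])
    (hs : Group.IsSolvable K) (hH : IsPiHallOf π H K) (hHn : V ≤ 𝐍[H]) (hU : U ≤ K)
    (hUπ : IsPiNum π (Nat.card U)) (hUn : V ≤ 𝐍[U]) : U ≤ H := by
  obtain ⟨c, hc, hle⟩ := hH.exists_centralizer_conj_le hn (h.copr hK le_rfl) hs hHn hU hUπ hUn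
  rw [h.fix' hK, mem_bot] at hc
  rwa [hc, map_one, one_smul] at hle

theorem le_syl (h : Min r G V) {p : ℕ} [Fact p.Prime] {P U : Subgroup Γ} (hP : Syl p P G)
    (hn : V ≤ 𝐍[P]) (hU : U ≤ G) (hUp : IsPGroup p U) (hUn : V ≤ 𝐍[U]) : U ≤ P := by
  obtain ⟨c, hc, hle⟩ := CopAct.exists_centralizer_conj_le_sylowIn h.norm (h.copr le_rfl le_rfl)
    (Or.inl (h.solV le_rfl)) hP.le hP.pg hP.nd hn hU hUp hUn
  rw [h.fix, mem_bot] at hc
  intro u hu
  simpa [hc] using hle u hu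

theorem syl_inf (h : Min r G V) {p : ℕ} [Fact p.Prime] {P X : Subgroup Γ} (hP : Syl p P G)
    (hn : V ≤ 𝐍[P]) (hX : X ≤ G) (hXn : V ≤ 𝐍[X]) : Syl p (X ⊓ P) X := by
  obtain ⟨T, hT, hTn⟩ := h.exists_syl hX hXn p
  have h1 : T ≤ X ⊓ P := le_inf hT.le (h.le_syl hP hn (hT.le.trans hX) hT.pg hTn)
  rwa [hT.eq_of_le (hP.pg.to_le inf_le_right) h1 inf_le_left]

/-- The Frobenius lemma in the minimal counterexample. -/
theorem frob (h : Min r G V) {B T W : Subgroup Γ} (hB : Line r V B) (hTn : V ≤ 𝐍[T])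
    (hW : W ≤ G) (hWn : V ≤ 𝐍[W]) (hTW : T ≤ 𝐍[W]) (hT : T ⊓ 𝐂[B] = ⊥)
    (hc : (Nat.card W).Coprime (Nat.card T)) (hs : Group.IsSolvable W) (hl : W ⊓ 𝐂[B] ≤ 𝐂[T]) :
    T ≤ 𝐂[W] :=
  cent_of_frob hr.out hB.card (hB.le.trans hTn) (hB.le.trans hWn) hTW hT hc (h.not_dvd hW) hs hl

theorem ward (h : Min r G V) {L T : Subgroup Γ} (hL : L ≤ G) (hn : V ≤ 𝐍[L])
    (hs : Group.IsSolvable L) {p : ℕ} [Fact p.Prime] (hT : Syl p T L) :
    L ≤ 𝐍[T ⊔ piCoreOf {p}ᶜ L] :=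
  ward_norm hs h.ea h.card hn (h.not_dvd hL) (h.fix' hL) hT

end Min

end Cfsg.Agent.FG.Mart
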