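import Mathlib
import Cfsg.Agent.FG.MartB

/-!
Martineau's theorem: maximal invariant `{p, q}`-subgroups.
-/

set_option autoImplicit false

namespace Cfsg.Agent.FG.Mart

open Cfsg Cfsg.Agent.GT Cfsg.Agent.Loc.Mss Subgroup

universe u

variable {Γ : Type u} [Group Γ] [Finite Γ] {r : ℕ} [hr : Fact r.Prime] {G V : Subgroup Γ}
  {p q : ℕ}

/-- An invariant `{p, q}`-subgroup. -/
structure PQ (G V : Subgroup Γ) (p q : ℕ) (X : Subgroup Γ) : Prop where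
  le : X ≤ G
  inv : V ≤ 𝐍[X]
  pi : IsPiNum {p, q} (Nat.card X)

/-- A maximal invariant `{p, q}`-subgroup. -/
structure Mx (G V : Subgroup Γ) (p q : ℕ) (L : Subgroup Γ) : Prop extends PQ G V p q L where
  max : ∀ X, PQ G V p q X → L ≤ X → X ≤ L

omit [Finite Γ] in
theorem PQ.symm {X : Subgroup Γ} (h : PQ G V p q X) : PQ G V q p X :=
  ⟨h.le, h.inv, Set.pair_comm p q ▸ h.pi⟩

omit [Finite Γ] in
theorem Mx.symm {X : Subgroup Γ} (h : Mx G V p q X) : Mx G V q p X :=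
  ⟨h.toPQ.symm, fun Y hY => h.max Y hY.symm⟩

omit [Finite Γ] in
theorem PQ.mono {X Y : Subgroup Γ} (h : PQ G V p q X) (hY : Y ≤ X) (hn : V ≤ 𝐍[Y]) :
    PQ G V p q Y := ⟨hY.trans h.le, hn, h.pi.card_of_le hY⟩

theorem PQ.exists_mx {X : Subgroup Γ} (h : PQ G V p q X) : ∃ L, X ≤ L ∧ Mx G V p q L := by
  obtain ⟨L, hL, hm⟩ := Finite.exists_le_maximal (p := PQ G V p q) h
  exact ⟨L, hL, hm.1, fun Y hY hle => hm.2 hY hle⟩

variable [hp : Fact p.Prime] [hq : Fact q.Prime]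

omit hq in
theorem PQ.of_p {X : Subgroup Γ} (h : X ≤ G) (hn : V ≤ 𝐍[X]) (hX : IsPGroup p X) :
    PQ G V p q X := ⟨h, hn, isPiNum_of_isPGroup hp.out hX (Or.inl rfl)⟩

omit hp in
theorem PQ.of_q {X : Subgroup Γ} (h : X ≤ G) (hn : V ≤ 𝐍[X]) (hX : IsPGroup q X) :
    PQ G V p q X := ⟨h, hn, isPiNum_of_isPGroup hq.out hX (Or.inr rfl)⟩

omit hp in
theorem PQ.solv {X : Subgroup Γ} (h : PQ G V p q X) : Group.IsSolvable X :=
  isSolvable_of_pq hq.out h.pi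

theorem core_cent (hpq : p ≠ q) (L : Subgroup Γ) : pCoreOf p L ≤ 𝐂[pCoreOf q L] :=
  le_centralizer_of_le_normalizer ((pCoreOf_le L).trans (le_norm_core L))
    ((pCoreOf_le L).trans (le_norm_core L))
    (disjoint_iff.1 (disjoint_of_coprime_natCard
      (Loc.H78.coprime_of_isPGroup_ne hpq (pg_core L) (pg_core L))))

omit hq in
theorem z_ne_bot {P : Subgroup Γ} (hP : IsPGroup p P) (h : P ≠ ⊥) : P ⊓ 𝐂[P] ≠ ⊥ :=
  PG.inf_centralizer_ne_bot_of_isPGroup hP hP le_normalizer h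

omit hq in
theorem le_of_norm_le {P T : Subgroup Γ} (hP : IsPGroup p P) (hT : T ≤ P) (h : P ⊓ 𝐍[T] ≤ T) :
    P ≤ T :=
  (Syl.of_norm (hP.to_le hT) hT fun _ _ _ h1 h2 => (le_inf h1 h2).trans h).ge_of_le hP hT le_rfl

omit [Finite Γ] in
theorem norm_z {X Y : Subgroup Γ} (h : X ≤ 𝐍[Y]) : X ≤ 𝐍[Y ⊓ 𝐂[Y]] := norm_inf h (norm_cent h)

namespace Min

omit hp in
theorem sup_norm (h : Min r G V) {B X Y : Subgroup Γ} (hB : PQ G V p q B) (h0 : B ≠ ⊥)
    (hX : PQ G V p q X) (hY : PQ G V p q Y) (hXB : X ≤ 𝐍[B]) (hYB : Y ≤ 𝐍[B]) :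
    PQ G V p q (X ⊔ Y) := by
  have hs := h.norm_solv hB.le h0 hB.inv hB.solv
  have hn : V ≤ 𝐍[G ⊓ 𝐍[B]] := norm_inf h.norm (norm_norm hB.inv)
  obtain ⟨H, hH, hHn⟩ := exists_isPiHallOf_invariant {p, q} hn (h.copr inf_le_left le_rfl) hs
  refine ⟨sup_le hX.le hY.le, norm_sup hX.inv hY.inv, hH.card.card_of_le (sup_le ?_ ?_)⟩
  · exact h.le_hall inf_le_left hn hs hH hHn (le_inf hX.le hXB) hX.pi hX.inv
  · exact h.le_hall inf_le_left hn hs hH hHn (le_inf hY.le hYB) hY.pi hY.inv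

omit hp in
theorem le_mx (h : Min r G V) {B X L : Subgroup Γ} (hB : PQ G V p q B) (h0 : B ≠ ⊥)
    (hL : Mx G V p q L) (hX : PQ G V p q X) (hLB : L ≤ 𝐍[B]) (hXB : X ≤ 𝐍[B]) : X ≤ L :=
  le_sup_right.trans (hL.max _ (h.sup_norm hB h0 hL.toPQ hX hLB hXB) le_sup_left)

theorem bender1 (h : Min r G V) (hpq : p ≠ q) {L M A : Subgroup Γ} (hL : Mx G V p q L)
    (hM : PQ G V p q M) (h0 : A ≠ ⊥) (hA : A ≤ pCoreOf p L) (hAM : A ≤ M) (hLA : L ≤ 𝐍[A])
    (hVA : V ≤ 𝐍[A]) : pCoreOf q L ⊓ M ≤ pCoreOf q M := by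
  have h1 : M ⊓ 𝐍[A] ≤ L := h.le_mx (hM.mono hAM hVA) h0 hL
    (hM.mono inf_le_left (norm_inf hM.inv (norm_norm hVA))) hLA inf_le_right
  refine le_trans ?_ ((pCoreOf_inf_le h1).trans
    (core_norm_le hq.out hpq hM.pi hAM ((pg_core L).to_le hA)))
  exact le_inf inf_le_left (le_inf inf_le_right
    (inf_le_left.trans ((pCoreOf_le L).trans hLA)))

theorem bender2 (h : Min r G V) (hpq : p ≠ q) {L M : Subgroup Γ} (hL : Mx G V p q L)
    (hM : PQ G V p q M) (hR : pCoreOf p L ≠ ⊥) (hRM : pCoreOf p L ⊓ 𝐂[pCoreOf p L] ≤ M) :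
    pCoreOf q L ⊓ M ≤ pCoreOf q M :=
  h.bender1 hpq hL hM (z_ne_bot (pg_core L) hR) inf_le_left hRM (norm_z (le_norm_core L))
    (norm_z (norm_core hL.inv))

theorem bender3 (h : Min r G V) (hpq : p ≠ q) {L M : Subgroup Γ} (hL : Mx G V p q L)
    (hM : PQ G V p q M) (hR : pCoreOf p L ≠ ⊥) (hS : pCoreOf q L ≠ ⊥)
    (hRM : pCoreOf p L ⊓ 𝐂[pCoreOf p L] ≤ M) (hSM : pCoreOf q L ⊓ 𝐂[pCoreOf q L] ≤ M) :
    pCoreOf p M ≤ L ∧ pCoreOf q M ≠ ⊥ := by
  have h1 := (le_inf inf_le_left hSM).trans (h.bender2 hpq hL hM hR hRM)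
  have h0 := z_ne_bot (pg_core L) hS
  refine ⟨h.le_mx (hM.mono hSM (norm_z (norm_core hL.inv))) h0 hL
    (hM.mono (pCoreOf_le M) (norm_core hM.inv)) (norm_z (le_norm_core L))
    (norm_of_cent ((core_cent hpq M).trans (cent_anti h1))), fun e => h0 ?_⟩
  rwa [e, le_bot_iff] at h1

/-- The uniqueness lemma. -/
theorem absorb (h : Min r G V) (hpq : p ≠ q) {L X : Subgroup Γ} (hL : Mx G V p q L)
    (hR : pCoreOf p L ≠ ⊥) (hS : pCoreOf q L ≠ ⊥) (hX : PQ G V p q X)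
    (hRX : pCoreOf p L ⊓ 𝐂[pCoreOf p L] ≤ X) (hSX : pCoreOf q L ⊓ 𝐂[pCoreOf q L] ≤ X) :
    X ≤ L := by
  obtain ⟨M, hXM, hM⟩ := hX.exists_mx
  have hRM := hRX.trans hXM
  have hSM := hSX.trans hXM
  obtain ⟨a1, a2⟩ := h.bender3 hpq hL hM.toPQ hR hS hRM hSM
  obtain ⟨b1, b2⟩ := h.bender3 hpq.symm hL.symm hM.toPQ.symm hS hR hSM hRM
  obtain ⟨c1, -⟩ := h.bender3 hpq hM hL.toPQ b2 a2 (inf_le_left.trans a1) (inf_le_left.trans b1)
  have d1 := (le_inf le_rfl c1).trans (h.bender2 hpq.symm hL.symm hM.toPQ.symm hS hSM)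
  have d2 := (le_inf le_rfl a1).trans
    (h.bender2 hpq.symm hM.symm hL.toPQ.symm a2 (inf_le_left.trans b1))
  refine hXM.trans (h.le_mx (hL.mono (pCoreOf_le L) (norm_core hL.inv)) hR hL hM.toPQ
    (le_norm_core L) ?_)
  rw [le_antisymm d1 d2]
  exact le_norm_core M

theorem typeA (h : Min r G V) (hpq : p ≠ q) {P L : Subgroup Γ} (hP : Syl p P G) (hPn : V ≤ 𝐍[P])
    (hL : Mx G V p q L) (hS : pCoreOf q L = ⊥) : P ≤ L ∧ L ≤ 𝐍[P] ∧ L ⊓ 𝐂[P] ≤ P := by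
  have hT := h.syl_inf hP hPn hL.le hL.inv
  have hTn : V ≤ 𝐍[L ⊓ P] := norm_inf hL.inv hPn
  have h1 := h.ward hL.le hL.inv hL.solv hT
  rw [core_compl_eq hp.out hq.out hpq hL.pi, hS, sup_bot_eq] at h1
  have h2 := cent_core_le hq.out hpq hL.pi hS
  have hPL : P ≤ L := by
    by_cases h0 : L ⊓ P = ⊥
    · have h3 := hT.core_le
      rw [h0, le_bot_iff] at h3
      rw [h3, cent_bot, inf_top_eq, le_bot_iff] at h2
      exact hL.max P (PQ.of_p hP.le hPn hP.pg) (h2 ▸ bot_le)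
    · refine (le_of_norm_le hP.pg inf_le_right (le_inf ?_ inf_le_left)).trans inf_le_left
      exact h.le_mx (hL.mono inf_le_left hTn) h0 hL
        (PQ.of_p (inf_le_left.trans hP.le) (norm_inf hPn (norm_norm hTn)) (hP.pg.to_le inf_le_left))
        h1 inf_le_right
  rw [inf_eq_right.2 hPL] at h1 hT
  rw [← le_antisymm (le_pCoreOf hPL h1 hP.pg) hT.core_le] at h2
  exact ⟨hPL, h1, h2⟩

theorem typeC (h : Min r G V) (hpq : p ≠ q) {P L : Subgroup Γ} (hP : Syl p P G) (hPn : V ≤ 𝐍[P])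
    (hL : Mx G V p q L) (hR : pCoreOf p L ≠ ⊥) (hS : pCoreOf q L ≠ ⊥) : P ≤ L := by
  have habs := fun X hX => h.absorb (X := X) hpq hL hR hS hX
  have hcent := core_cent hpq L
  have hLR : L ≤ 𝐍[pCoreOf p L] := le_norm_core L
  have hLS : L ≤ 𝐍[pCoreOf q L] := le_norm_core L
  have hRn : V ≤ 𝐍[pCoreOf p L] := norm_core hL.inv
  have hSn : V ≤ 𝐍[pCoreOf q L] := norm_core hL.inv
  have hRL : pCoreOf p L ≤ L := pCoreOf_le L
  have hSL : pCoreOf q L ≤ L := pCoreOf_le L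
  have hRp : IsPGroup p (pCoreOf p L) := pg_core L
  have hSq : IsPGroup q (pCoreOf q L) := pg_core L
  have hw := h.ward hL.le hL.inv hL.solv (h.syl_inf hP hPn hL.le hL.inv)
  rw [core_compl_eq hp.out hq.out hpq hL.pi] at hw
  have hcore : ∀ D ≤ L, L ≤ 𝐍[D] → pCoreOf p D ≤ pCoreOf p L := fun D => pCoreOf_le_pCoreOf
  generalize pCoreOf p L = R at *
  generalize pCoreOf q L = S at *
  have hRP : R ≤ P := h.le_syl hP hPn (hRL.trans hL.le) hRp hRn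
  have hP0 : P ≠ ⊥ := fun e => hR (le_bot_iff.1 (e ▸ hRP))
  have pqP : PQ G V p q P := PQ.of_p hP.le hPn hP.pg
  have pqR : PQ G V p q R := hL.mono hRL hRn
  have pqS : PQ G V p q S := hL.mono hSL hSn
  have hSs : Group.IsSolvable S := pqS.solv
  have hZL : P ⊓ 𝐂[P] ≤ L := h.le_mx pqR hR hL (pqP.mono inf_le_left (norm_z hPn)) hLR
    (norm_of_cent (inf_le_right.trans (cent_anti hRP)))
  obtain ⟨i, hi, hB0⟩ := h.exists_line (inf_le_left.trans hP.le) (norm_z hPn) (z_ne_bot hP.pg hP0)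
  have hBn := h.invC (norm_z hPn) hi
  have hBP : P ⊓ 𝐂[P] ⊓ 𝐂[i] ≤ P := inf_le_left.trans inf_le_left
  by_cases hc : P ⊓ 𝐂[P] ⊓ 𝐂[i] ≤ 𝐂[S]
  · refine le_sup_left.trans (habs (P ⊔ S) (h.sup_norm (pqP.mono hBP hBn) hB0 pqP pqS
      (norm_of_cent (cent_comm (inf_le_left.trans inf_le_right))) (norm_of_cent (cent_comm hc)))
      (le_sup_of_le_left (inf_le_left.trans hRP)) (le_sup_of_le_right inf_le_left))
  have key1 : ∀ m, Line r V m → R ⊓ 𝐂[m] ≠ ⊥ ∨ S ⊓ 𝐂[m] ≠ ⊥ → P ⊓ 𝐂[m] ≤ L := by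
    intro m hm hne
    have pqPm : PQ G V p q (P ⊓ 𝐂[m]) := pqP.mono inf_le_left (h.invC hPn hm)
    rcases hne with hne | hne
    · refine le_sup_right.trans (habs ((S ⊔ (R ⊓ 𝐂[R])) ⊔ (P ⊓ 𝐂[m]))
        (h.sup_norm (pqR.mono inf_le_left (h.invC hRn hm)) hne
          (hL.mono (sup_le hSL (inf_le_left.trans hRL)) (norm_sup hSn (norm_z hRn))) pqPm
          (norm_of_cent (sup_le ((cent_comm hcent).trans (cent_anti inf_le_left))
            (inf_le_right.trans (cent_anti inf_le_left))))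
          (norm_of_cent (h.comm hm pqPm.le inf_le_right (inf_le_left.trans pqR.le) inf_le_right)))
        (le_sup_of_le_left le_sup_right) (le_sup_of_le_left (le_sup_of_le_left inf_le_left)))
    · refine le_sup_right.trans (habs ((R ⊔ (S ⊓ 𝐂[S])) ⊔ (P ⊓ 𝐂[m]))
        (h.sup_norm (pqS.mono inf_le_left (h.invC hSn hm)) hne
          (hL.mono (sup_le hRL (inf_le_left.trans hSL)) (norm_sup hRn (norm_z hSn))) pqPm
          (norm_of_cent (sup_le (hcent.trans (cent_anti inf_le_left))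
            (inf_le_right.trans (cent_anti inf_le_left))))
          (norm_of_cent (h.comm hm pqPm.le inf_le_right (inf_le_left.trans pqS.le) inf_le_right)))
        (le_sup_of_le_left (le_sup_of_le_left inf_le_left)) (le_sup_of_le_left le_sup_right))
  have key2 : ∀ m, Line r V m → m ≠ i → P ⊓ 𝐂[m] ≤ L := by
    intro m hm hne
    refine key1 m hm (Or.inr fun e => hc ?_)
    exact h.frob hm hBn pqS.le hSn ((inf_le_left.trans hZL).trans hLS)
      (h.disj hi hm hne.symm (hBP.trans hP.le) inf_le_right)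
      (Loc.H78.coprime_of_isPGroup_ne hpq.symm hSq (hP.pg.to_le hBP)) hSs (e ▸ bot_le)
  by_cases hiL : P ⊓ 𝐂[i] ≤ L
  · refine h.gen hP.le hPn fun m hm => ?_
    by_cases e : m = i
    · rwa [e]
    · exact key2 m hm e
  have hRi : R ⊓ 𝐂[i] = ⊥ := by_contra fun e => hiL (key1 i hi (Or.inl e))
  have hSi : S ⊓ 𝐂[i] = ⊥ := by_contra fun e => hiL (key1 i hi (Or.inr e))
  have hTn : V ≤ 𝐍[L ⊓ P] := norm_inf hL.inv hPn
  have key3 : ∀ m, Line r V m → m ≠ i → P ⊓ 𝐂[m] ≤ R := by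
    intro m hm hne
    have h1 : P ⊓ 𝐂[m] ≤ 𝐂[S] := h.frob hi (h.invC hPn hm) pqS.le hSn ((key2 m hm hne).trans hLS)
      (h.disj hm hi hne (inf_le_left.trans hP.le) inf_le_right)
      (Loc.H78.coprime_of_isPGroup_ne hpq.symm hSq (hP.pg.to_le inf_le_left)) hSs (hSi ▸ bot_le)
    have h2 : PCl p ((L ⊓ P ⊔ S) ⊓ 𝐂[S]) := by
      refine pCl_of_res_le_cent (le_trans ?_ (cent_comm inf_le_right))
      exact res_le_of_le_sup (P := L ⊓ P) (inf_le_left.trans hLS) (hP.pg.to_le inf_le_right)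
        (inf_le_left.trans (sup_comm _ _).le)
    refine (h2 _ (le_inf (le_sup_of_le_left (le_inf (key2 m hm hne) inf_le_left)) h1)
      (hP.pg.to_le inf_le_left)).trans (hcore _ (inf_le_left.trans (sup_le inf_le_left hSL))
        (norm_inf hw (norm_cent hLS)))
  have hcomm : ⁅L ⊓ P, i⁆ = R := by
    have h1 : ⁅R, i⁆ = R := Loc.H78.comm_eq_of_inf_cent_eq_bot (hi.le.trans hRn)
      (h.copr pqR.le hi.le) pqR.solv hRi
    refine le_antisymm ?_ (h1.symm.le.trans (commutator_mono (le_inf hRL hRP) le_rfl))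
    refine le_trans (CopAct.commutator_le_of_le_sup_centralizer (C := L ⊓ P ⊓ 𝐂[i]) ?_ inf_le_right
      ((inf_le_left.trans inf_le_left).trans hLR)) h1.le
    refine h.gen (inf_le_left.trans hL.le) hTn fun m hm => ?_
    by_cases e : m = i
    · rw [e]; exact le_sup_right
    · exact le_sup_of_le_left ((inf_le_inf_right _ inf_le_right).trans (key3 m hm e))
  have hNn : V ≤ 𝐍[P ⊓ 𝐍[L ⊓ P]] := norm_inf hPn (norm_norm hTn)
  refine (le_of_norm_le hP.pg inf_le_right (le_inf ?_ inf_le_left)).trans inf_le_left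
  refine h.gen (inf_le_left.trans hP.le) hNn fun m hm => ?_
  by_cases e : m = i
  · rw [e]
    refine h.le_mx pqR hR hL (pqP.mono (inf_le_left.trans inf_le_left) (h.invC hNn hi)) hLR ?_
    rw [← hcomm]
    exact norm_comm (inf_le_left.trans inf_le_right) (norm_of_cent inf_le_right)
  · exact (inf_le_inf_right _ inf_le_left).trans (key2 m hm e)

end Min

end Cfsg.Agent.FG.Mart
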