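import Mathlib
import Cfsg.Agent.FG.MartC
import Cfsg.Agent.GT.Factorized
import Cfsg.Agent.S0021
import Cfsg.Agent.S0117

/-!
Martineau's theorem: the invariant Sylow subgroups permute.
-/

set_option autoImplicit false

namespace Cfsg.Agent.FG.Mart

open Cfsg Cfsg.Agent.GT Cfsg.Agent.Loc.Mss Subgroup

universe u

variable {Γ : Type u} [Group Γ] [Finite Γ] {r : ℕ} [hr : Fact r.Prime] {G V : Subgroup Γ}
  {p q : ℕ} [hp : Fact p.Prime] [hq : Fact q.Prime]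

theorem isProd_of_syl (hpq : p ≠ q) {P Q X : Subgroup Γ} (hP : Syl p P X) (hQ : Syl q Q X)
    (hX : IsPiNum {p, q} (Nat.card X)) : Fac.IsProd X P Q := by
  refine Fac.isProd_of_card_le hP.le hQ.le ?_
  rw [disjoint_iff.1 (disjoint_of_coprime_natCard
    (Loc.H78.coprime_of_isPGroup_ne hpq hP.pg hQ.pg)), card_bot, mul_one,
    ← card_mul_relIndex hP.le]
  refine Nat.mul_le_mul_left _ (Nat.le_of_dvd Nat.card_pos ?_)
  have h1 : P.relIndex X ∣ Nat.card X := Dvd.intro_left _ (card_mul_relIndex hP.le)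
  refine IsPiNum.dvd_of_dvd_mul (π := {q}) (b := Q.relIndex X) (fun s hs hd => ?_)
    ((isPiNum_compl_singleton_iff_not_dvd hq.out).2 hQ.nd) (by rwa [card_mul_relIndex hQ.le])
  rcases hX s hs (hd.trans h1) with e | e
  · exact absurd (e ▸ hd) hP.nd
  · exact e

namespace Min

theorem pairA (h : Min r G V) (hpq : p ≠ q) {P Q H K l : Subgroup Γ} (hP : Syl p P G)
    (hPn : V ≤ 𝐍[P]) (hQ : Syl q Q G) (hQn : V ≤ 𝐍[Q]) (hH1 : H ≤ 𝐍[P]) (hH2 : H ⊓ 𝐂[P] ≤ P)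
    (hK1 : K ≤ 𝐍[Q]) (hK2 : ∀ X, PQ G V p q X → Q ≤ X → X ≤ K) (hl : Line r V l)
    (hPl : P ⊓ 𝐂[l] ≠ ⊥) (hQl : Q ⊓ 𝐂[l] ≠ ⊥) (hQH : Q ⊓ 𝐂[l] ≤ H) :
    (∀ m, Line r V m → P ⊓ 𝐂[m] ≠ ⊥) ∧
      (∀ j, Line r V j → Q ⊓ 𝐂[Q] ⊓ 𝐂[j] ≠ ⊥ → j = l) ∧ P ⊓ 𝐂[l] ≤ K := by
  have hd : P ⊓ Q = ⊥ := disjoint_iff.1 (disjoint_of_coprime_natCard
    (Loc.H78.coprime_of_isPGroup_ne hpq hP.pg hQ.pg))
  have pqP : PQ G V p q P := PQ.of_p hP.le hPn hP.pg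
  have pqQ : PQ G V p q Q := PQ.of_q hQ.le hQn hQ.pg
  have nc : ∀ m, Line r V m → m ≠ l → ¬ P ⊓ 𝐂[m] ≤ 𝐂[Q ⊓ 𝐂[l]] := by
    intro m hm hne hc
    have h1 := h.frob hm (h.invC hQn hl) hP.le hPn (hQH.trans hH1)
      (h.disj hl hm hne.symm (inf_le_left.trans hQ.le) inf_le_right)
      (Loc.H78.coprime_of_isPGroup_ne hpq hP.pg (hQ.pg.to_le inf_le_left)) pqP.solv hc
    exact hQl (le_bot_iff.1 (hd ▸ le_inf ((le_inf hQH h1).trans hH2) inf_le_left))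
  have all : ∀ m, Line r V m → P ⊓ 𝐂[m] ≠ ⊥ := by
    intro m hm e
    by_cases hne : m = l
    · exact hPl (hne ▸ e)
    · exact nc m hm hne (e ▸ bot_le)
  have pk : ∀ j, Line r V j → Q ⊓ 𝐂[Q] ⊓ 𝐂[j] ≠ ⊥ → P ⊓ 𝐂[j] ≤ K := by
    intro j hj h0
    refine le_sup_right.trans (hK2 (Q ⊔ P ⊓ 𝐂[j]) (h.sup_norm
      (pqQ.mono (inf_le_left.trans inf_le_left) (h.invC (norm_z hQn) hj)) h0 pqQ
      (pqP.mono inf_le_left (h.invC hPn hj))
      (norm_of_cent (cent_comm (inf_le_left.trans inf_le_right)))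
      (norm_of_cent (h.comm hj (inf_le_left.trans hP.le) inf_le_right
        ((inf_le_left.trans inf_le_left).trans hQ.le) inf_le_right))) le_sup_left)
  have je : ∀ j, Line r V j → Q ⊓ 𝐂[Q] ⊓ 𝐂[j] ≠ ⊥ → j = l := by
    intro j hj h0
    by_contra hne
    refine nc j hj hne (comm_eq_bot_iff.1 (le_bot_iff.1 (hd ▸ le_inf ?_ ?_)))
    · exact (commutator_mono inf_le_left le_rfl).trans (comm_le_left (hQH.trans hH1))
    · exact (commutator_mono le_rfl inf_le_left).trans (comm_le_right ((pk j hj h0).trans hK1))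
  refine ⟨all, je, ?_⟩
  have hQ0 : Q ≠ ⊥ := fun e => hQl (le_bot_iff.1 (e ▸ inf_le_left))
  obtain ⟨j, hj, h0⟩ := h.exists_line (inf_le_left.trans hQ.le) (norm_z hQn) (z_ne_bot hQ.pg hQ0)
  exact je j hj h0 ▸ pk j hj h0

theorem exists_typeA (h : Min r G V) (hpq : p ≠ q) {P Q : Subgroup Γ} (hP : Syl p P G)
    (hPn : V ≤ 𝐍[P]) (hQ : Syl q Q G) (hQn : V ≤ 𝐍[Q])
    (hno : ∀ X, PQ G V p q X → P ≤ X → ¬ Q ≤ X) :
    ∃ H, Mx G V p q H ∧ P ≤ H ∧ pCoreOf q H = ⊥ := by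
  obtain ⟨H, hPH, hH⟩ := (PQ.of_p (q := q) hP.le hPn hP.pg).exists_mx
  refine ⟨H, hH, hPH, by_contra fun hS => hno H hH.toPQ hPH ?_⟩
  by_cases hR : pCoreOf p H = ⊥
  · exact (h.typeA hpq.symm hQ hQn hH.symm hR).1
  · exact h.typeC hpq.symm hQ hQn hH.symm hS hR

theorem pair_of_line (h : Min r G V) (hpq : p ≠ q) {P Q l : Subgroup Γ} (hP : Syl p P G)
    (hPn : V ≤ 𝐍[P]) (hQ : Syl q Q G) (hQn : V ≤ 𝐍[Q]) (hl : Line r V l)
    (hPl : P ⊓ 𝐂[l] ≠ ⊥) (hQl : Q ⊓ 𝐂[l] ≠ ⊥) : ∃ X, PQ G V p q X ∧ P ≤ X ∧ Q ≤ X := by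
  by_contra hno
  push Not at hno
  have hP0 : P ≠ ⊥ := fun e => hPl (le_bot_iff.1 (e ▸ inf_le_left))
  have hQ0 : Q ≠ ⊥ := fun e => hQl (le_bot_iff.1 (e ▸ inf_le_left))
  have pqP : PQ G V p q P := PQ.of_p hP.le hPn hP.pg
  have pqQ : PQ G V p q Q := PQ.of_q hQ.le hQn hQ.pg
  obtain ⟨H, hH, hPH, hHq⟩ := h.exists_typeA hpq hP hPn hQ hQn hno
  obtain ⟨K, hK, hQK, hKp⟩ := h.exists_typeA hpq.symm hQ hQn hP hPn
    fun X hX h1 h2 => hno X hX.symm h2 h1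
  obtain ⟨-, hH1, hH2⟩ := h.typeA hpq hP hPn hH hHq
  obtain ⟨-, hK1, hK2⟩ := h.typeA hpq.symm hQ hQn hK hKp
  have hor : ∀ X, PQ G V p q X → X ≤ H ∨ X ≤ K := by
    intro X hX
    obtain ⟨L, hXL, hL⟩ := hX.exists_mx
    by_cases hS : pCoreOf q L = ⊥
    · exact Or.inl (hXL.trans (h.le_mx pqP hP0 hH hL.toPQ hH1 (h.typeA hpq hP hPn hL hS).2.1))
    by_cases hR : pCoreOf p L = ⊥
    · exact Or.inr (hXL.trans (h.le_mx pqQ hQ0 hK.symm hL.toPQ hK1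
        (h.typeA hpq.symm hQ hQn hL.symm hR).2.1))
    exact absurd (h.typeC hpq.symm hQ hQn hL.symm hS hR)
      (hno L hL.toPQ (h.typeC hpq hP hPn hL hR hS))
  have hK3 : ∀ X, PQ G V p q X → Q ≤ X → X ≤ K := fun X hX hle =>
    (hor X hX).resolve_left fun e => hno H hH.toPQ hPH (hle.trans e)
  have hH3 : ∀ X, PQ G V q p X → P ≤ X → X ≤ H := fun X hX hle =>
    (hor X hX.symm).resolve_right fun e => hno K hK.toPQ.symm (hle.trans e) hQK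
  have A2 : ∀ l, Line r V l → P ⊓ 𝐂[l] ≠ ⊥ → Q ⊓ 𝐂[l] ≠ ⊥ →
      (∀ m, Line r V m → P ⊓ 𝐂[m] ≠ ⊥) ∧ (∀ m, Line r V m → Q ⊓ 𝐂[m] ≠ ⊥) ∧
        ∀ j, Line r V j → Q ⊓ 𝐂[Q] ⊓ 𝐂[j] ≠ ⊥ → j = l := by
    intro l hl hPl hQl
    have a := h.pairA hpq hP hPn hQ hQn hH1 hH2 hK1 hK3 hl hPl hQl
    have b := h.pairA hpq.symm hQ hQn hP hPn hK1 hK2 hH1 hH3 hl hQl hPl
    have pqPl := pqP.mono inf_le_left (h.invC hPn hl)
    rcases hor _ (h.sup_norm pqPl hPl pqPl (pqQ.mono inf_le_left (h.invC hQn hl)) le_normalizer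
      (norm_of_cent (h.comm hl (inf_le_left.trans hQ.le) inf_le_right pqPl.le inf_le_right))) with
      e | e
    · have a' := a (le_sup_right.trans e)
      exact ⟨a'.1, (b a'.2.2).1, a'.2.1⟩
    · have b' := b (le_sup_left.trans e)
      have a' := a b'.2.2
      exact ⟨a'.1, b'.1, a'.2.1⟩
  obtain ⟨m, hm, hne⟩ := h.exists_ne hl
  obtain ⟨a1, a2, a3⟩ := A2 l hl hPl hQl
  obtain ⟨-, -, a4⟩ := A2 m hm (a1 m hm) (a2 m hm)
  obtain ⟨j, hj, h0⟩ := h.exists_line (inf_le_left.trans hQ.le) (norm_z hQn) (z_ne_bot hQ.pg hQ0)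
  exact hne ((a4 j hj h0).symm.trans (a3 j hj h0))

omit hr in
theorem no_compl (h : Min r G V) {P : Subgroup Γ} (hP : Syl p P G) (h0 : P ≠ ⊥) :
    ¬ HasNormalPComplement p G := by
  rw [hasCompl_iff, not_not]
  rcases h.simple _ (res_le (p := p) G) (le_norm_res G) (norm_res h.norm) with e | e
  · exact absurd (CopAct.isSolvable_of_isPGroup (pg_of_res_eq_bot e)) h.nsol
  · rw [e]
    by_contra hd
    exact h0 (hP.eq_bot_iff.2 ((Nat.Prime.coprime_iff_not_dvd hp.out).2 hd).symm)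

theorem not_cent (h : Min r G V) {P B : Subgroup Γ} (hP : Syl p P G) (hPn : V ≤ 𝐍[P])
    (h0 : P ≠ ⊥) (hB : Line r V B) : ¬ P ≤ 𝐂[B] := by
  intro hc
  obtain ⟨P', h1, -⟩ := hP.exists_sylow
  refine h.no_compl hP h0 (Tr.hasNormalPComplement_of_normalizer_le_centralizer P' ?_)
  have hn : V ≤ 𝐍[G ⊓ 𝐍[P]] := norm_inf h.norm (norm_norm hPn)
  have h2 : G ⊓ 𝐍[P] ≤ 𝐂[P] := by
    rw [← CopAct.commutator_sup_centralizer (hB.le.trans hn) (h.copr inf_le_left hB.le)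
      (Or.inl (h.solV hB.le))]
    exact sup_le (CopAct.commutator_le_centralizer_of_normalizer inf_le_right (cent_comm hc))
      (h.comm hB (inf_le_left.trans inf_le_left) inf_le_right hP.le hc)
  change 𝐍[(P' : Subgroup G)] ≤ 𝐂[(P' : Subgroup G)]
  rw [h1, norm_subgroupOf hP.le, cent_subgroupOf hP.le]
  exact fun x hx => h2 ⟨x.2, hx⟩

theorem exists_line_odd (h : Min r G V) (hp2 : p ≠ 2) {P : Subgroup Γ} (hP : Syl p P G)
    (hPn : V ≤ 𝐍[P]) (h0 : P ≠ ⊥) :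
    ∃ m, Line r V m ∧ ∀ l, Line r V l → l ≠ m → P ⊓ 𝐂[l] ≠ ⊥ := by
  have hPs := CopAct.isSolvable_of_isPGroup hP.pg
  have hs := h.norm_solv hP.le h0 hPn hPs
  have hn : V ≤ 𝐍[G ⊓ 𝐍[P]] := norm_inf h.norm (norm_norm hPn)
  obtain ⟨T, hT, hTn⟩ := exists_isPiHallOf_invariant {p}ᶜ hn (h.copr inf_le_left le_rfl) hs
  have hTG : T ≤ G := hT.le.trans inf_le_left
  have hTP : T ≤ 𝐍[P] := hT.le.trans inf_le_right
  have hTp : (Nat.card T).Coprime p := (isPiNum_compl_singleton_iff hp.out).1 hT.card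
  by_contra hc
  push Not at hc
  have h1 : T ≤ 𝐂[P] := by
    refine h.gen hTG hTn fun m hm => ?_
    obtain ⟨l, hl, hne, e⟩ := hc m hm
    exact h.frob hl (h.invC hTn hm) hP.le hPn (inf_le_left.trans hTP)
      (h.disj hm hl hne.symm (inf_le_left.trans hTG) inf_le_right)
      (coprime_card_of_isPGroup hp.out hP.pg
        (hTp.coprime_dvd_left (card_dvd_of_le inf_le_left))) hPs (e ▸ bot_le)
  -- `N_G(P) = P T`, so `T` is normal in it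
  have h2 : G ⊓ 𝐍[P] ≤ T ⊔ P := by
    have hPN : P ≤ G ⊓ 𝐍[P] := le_inf hP.le le_normalizer
    have hle : T ⊔ P ≤ G ⊓ 𝐍[P] := sup_le hT.le hPN
    rw [← relIndex_eq_one]
    refine IsPiNum.eq_one (π := {p}ᶜᶜ) (hT.relIndex.of_dvd (relIndex_dvd_of_le_left _ le_sup_left)) ?_
    rw [compl_compl, isPiNum_compl_singleton_iff_not_dvd hp.out]
    exact fun hd => (hP.mono hPN inf_le_left).nd (hd.trans (relIndex_dvd_of_le_left _ le_sup_right))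
  have h3 : pResidualOf p (G ⊓ 𝐍[P]) ≤ T :=
    res_le_of_le_sup (norm_of_cent (cent_comm h1)) hP.pg h2
  -- the normalizer of `Z(J(P))`
  set Z := thZ p P
  have hZn : 𝐍[P] ≤ 𝐍[Z] := normalizer_le_normalizer_thZ p P
  have hZP : Z ≤ P := thZ_le p P
  have hMs := h.norm_solv (hZP.trans hP.le) (thZ_ne_bot dvd_rfl hP.pg h0) (hPn.trans hZn)
    (isSolvable_of_le hZP)
  set M := G ⊓ 𝐍[Z]
  have hMn : V ≤ 𝐍[M] := norm_inf h.norm (norm_norm (hPn.trans hZn))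
  have hPM : P ≤ M := le_inf hP.le (le_normalizer.trans hZn)
  have hTM : T ≤ M := le_inf hTG (hTP.trans hZn)
  have hw := h.ward inf_le_left hMn hMs (hP.mono hPM inf_le_left)
  set O := piCoreOf {p}ᶜ M
  have hOM : O ≤ M := piCoreOf_le M
  have hMO : M ≤ 𝐍[O] := le_normalizer_piCoreOf M
  have hfr := (hP.mono (le_sup_left : P ≤ P ⊔ O) ((sup_le hPM hOM).trans inf_le_left)).frattini_sup
    (sup_le hPM hOM) hw
  have h4 : M ≤ (O ⊔ T) ⊔ P := by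
    rw [← hfr]
    exact sup_le (sup_le le_sup_right (le_sup_of_le_left le_sup_left))
      (((inf_le_inf_right _ inf_le_left).trans h2).trans (sup_le_sup_right le_sup_right _))
  have h5 : pResidualOf p M ≤ O ⊔ T :=
    res_le_of_le_sup (norm_sup (hPM.trans hMO) (norm_of_cent (cent_comm h1))) hP.pg h4
  have h6 : HasNormalPComplement p M := by
    rw [hasCompl_iff, ← isPiNum_compl_singleton_iff_not_dvd hp.out]
    refine IsPiNum.card_of_le ?_ h5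
    rw [sup_comm]
    exact hT.card.card_sup_of_le_normalizer (isPiNum_piCoreOf _ M) (hTM.trans hMO)
  obtain ⟨P', e1, -⟩ := hP.exists_sylow
  refine h.no_compl hP h0 ((S0117.result hp2 P').2 ?_)
  rw [centerThompsonOf_eq, e1, thZ_subgroupOf hP.le]
  change HasNormalPComplement p ↥𝐍[Z.subgroupOf G]
  have e2 := map_subtype_norm (Z.subgroupOf G)
  rw [map_subtype_subgroupOf_of_le (hZP.trans hP.le)] at e2
  rw [show M = _ from e2.symm] at h6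
  exact h6.of_mulEquiv (equivMapOfInjective _ _ G.subtype_injective).symm

theorem pair_odd (h : Min r G V) (hpq : p ≠ q) (hp2 : p ≠ 2) {P Q : Subgroup Γ} (hP : Syl p P G)
    (hPn : V ≤ 𝐍[P]) (hQ : Syl q Q G) (hQn : V ≤ 𝐍[Q]) : ∃ X, PQ G V p q X ∧ P ≤ X ∧ Q ≤ X := by
  by_cases hP0 : P = ⊥
  · exact ⟨Q, PQ.of_q hQ.le hQn hQ.pg, hP0 ▸ bot_le, le_rfl⟩
  by_cases hQ0 : Q = ⊥
  · exact ⟨P, PQ.of_p hP.le hPn hP.pg, le_rfl, hQ0 ▸ bot_le⟩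
  obtain ⟨m, hm, hall⟩ := h.exists_line_odd hp2 hP hPn hP0
  have h1 : ∃ l, Line r V l ∧ l ≠ m ∧ Q ⊓ 𝐂[l] ≠ ⊥ := by
    by_contra hc
    push Not at hc
    refine h.not_cent hQ hQn hQ0 hm (h.gen hQ.le hQn fun l hl => ?_)
    by_cases e : l = m
    · rw [e]; exact inf_le_right
    · exact hc l hl e ▸ bot_le
  obtain ⟨l, hl, hne, hQl⟩ := h1
  exact h.pair_of_line hpq hP hPn hQ hQn hl (hall l hl hne) hQl

theorem pair (h : Min r G V) (hpq : p ≠ q) {P Q : Subgroup Γ} (hP : Syl p P G)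
    (hPn : V ≤ 𝐍[P]) (hQ : Syl q Q G) (hQn : V ≤ 𝐍[Q]) : ∃ X, PQ G V p q X ∧ P ≤ X ∧ Q ≤ X := by
  by_cases hp2 : p = 2
  · obtain ⟨X, h1, h2, h3⟩ := h.pair_odd hpq.symm (fun e => hpq (hp2.trans e.symm)) hQ hQn hP hPn
    exact ⟨X, h1.symm, h3, h2⟩
  · exact h.pair_odd hpq hp2 hP hPn hQ hQn

end Min

theorem not_min : ¬ Min r G V := by
  intro h
  have key : ∀ s : Nat.Primes, ∃ S : Sylow (s : ℕ) G, haveI := Fact.mk s.2
      ∃ P, Syl s P G ∧ V ≤ 𝐍[P] ∧ (S : Subgroup G) = P.subgroupOf G := by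
    intro s
    have := Fact.mk s.2
    obtain ⟨P, hP, hn⟩ := h.exists_syl le_rfl h.norm s
    obtain ⟨S, h1, -⟩ := hP.exists_sylow
    exact ⟨S, P, hP, hn, h1⟩
  choose S hS using key
  refine h.nsol (S0021.result S fun s t => ?_)
  by_cases e : s = t
  · rw [e]
  have := Fact.mk s.2
  have := Fact.mk t.2
  obtain ⟨P, hP, hPn, e1⟩ := hS s
  obtain ⟨Q, hQ, hQn, e2⟩ := hS t
  have hne : (s : ℕ) ≠ t := fun e' => e (Subtype.ext e')
  obtain ⟨X, hX, h1, h2⟩ := h.pair hne hP hPn hQ hQn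
  have h3 := isProd_of_syl hne ((hP.mono h1 hX.le).subgroupOf hX.le)
    ((hQ.mono h2 hX.le).subgroupOf hX.le) (hX.pi.card_subgroupOf G)
  rw [← e1, ← e2] at h3
  exact (Fac.isProd_iff_coe_eq.1 h3).symm.trans (Fac.isProd_iff_coe_eq.1 h3.symm)

/-- Martineau's theorem for abelian centralizers. -/
theorem MH.solvable (h : MH r G V) : Group.IsSolvable G :=
  h.solvable_of_min fun _ _ _ _ _ => not_min

end Cfsg.Agent.FG.Mart
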