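import Mathlib
import Cfsg.Agent.FG.BasePrim

/-! Fixed-point spaces of linear actions: the commutator inequality, fixed-point-freeness of
normal abelian subgroups of primitive groups, and the bound `3n/4` for solvable groups. -/

set_option autoImplicit false

namespace Cfsg.Agent.FG.PF

open Module Cfsg.Agent.FG.BS
open scoped commutatorElement

variable {G : Type*} (F : Type*) (V : Type*) [Group G] [Field F] [AddCommGroup V] [Module F V]
  [DistribMulAction G V] [SMulCommClass G F V]

/-- the eigenspace of a group element -/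
def eig (g : G) (c : F) : Submodule F V where
  carrier := {v | g • v = c • v}
  zero_mem' := by simp
  add_mem' := fun {a b} (ha : g • a = c • a) (hb : g • b = c • b) => by
    show g • (a + b) = c • (a + b)
    rw [smul_add, smul_add, ha, hb]
  smul_mem' := fun d a (ha : g • a = c • a) => by
    show g • (d • a) = c • (d • a)
    rw [smul_comm g d a, ha, smul_comm]

/-- the common fixed space of a subgroup -/
def fixL (H : Subgroup G) : Submodule F V where
  carrier := {v | ∀ h ∈ H, h • v = v}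
  zero_mem' := fun h _ => smul_zero h
  add_mem' := fun ha hb h hh => by rw [smul_add, ha h hh, hb h hh]
  smul_mem' := fun d a ha h hh => by rw [smul_comm h d a, ha h hh]

/-- the linear automorphism given by a group element -/
def lin (g : G) : V ≃ₗ[F] V := DistribMulAction.toLinearEquiv F V g

variable {F V}

theorem mem_eig {g : G} {c : F} {v : V} : v ∈ eig F V g c ↔ g • v = c • v := Iff.rfl

theorem mem_fixL {H : Subgroup G} {v : V} : v ∈ fixL F V H ↔ ∀ h ∈ H, h • v = v := Iff.rfl

theorem lin_apply (g : G) (v : V) : lin F V g v = g • v := rfl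

theorem mem_map_lin {g : G} {W : Submodule F V} {v : V} :
    v ∈ W.map (lin F V g : V →ₗ[F] V) ↔ g⁻¹ • v ∈ W := by
  constructor
  · rintro ⟨w, hw, rfl⟩
    show g⁻¹ • g • w ∈ W
    rwa [inv_smul_smul]
  · intro h
    exact ⟨_, h, smul_inv_smul g v⟩

theorem finrank_map_lin (g : G) (W : Submodule F V) :
    finrank F (W.map (lin F V g : V →ₗ[F] V)) = finrank F W := LinearEquiv.finrank_map_eq _ _

/-- two translates of a subspace meet in a big subspace -/
theorem two_mul_le [FiniteDimensional F V] (g : G) (W X : Submodule F V)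
    (h : ∀ v ∈ W, g⁻¹ • v ∈ W → v ∈ X) : 2 * finrank F W ≤ finrank F V + finrank F X := by
  have h1 := Submodule.finrank_sup_add_finrank_inf_eq W (W.map (lin F V g : V →ₗ[F] V))
  have h2 := Submodule.finrank_le (W ⊔ W.map (lin F V g : V →ₗ[F] V))
  have h3 : finrank F (W ⊓ W.map (lin F V g : V →ₗ[F] V) : Submodule F V) ≤ finrank F X :=
    Submodule.finrank_mono fun v hv => h v hv.1 (mem_map_lin.mp hv.2)
  rw [finrank_map_lin] at h1
  omega

theorem eig_comm [FiniteDimensional F V] (g f : G) (c : F) :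
    2 * finrank F (eig F V g c) ≤ finrank F V + finrank F (eig F V (g⁻¹ * f * g * f⁻¹) (1 : F)) := by
  refine two_mul_le f _ _ fun v h1 h2 => ?_
  rw [mem_eig] at h1 h2 ⊢
  rw [one_smul, mul_smul, mul_smul, mul_smul, h2, smul_comm f c, smul_inv_smul, ← h1,
    inv_smul_smul]

theorem eig_eq_bot {g : G} (h : ∀ x : V, g • x = x → x = 0) : eig F V g 1 = ⊥ :=
  (Submodule.eq_bot_iff _).mpr fun x hx => h x (by rw [mem_eig.mp hx, one_smul])

/-- the bound `3n/4` in the quasi-primitive situation -/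
theorem prim_bound [FiniteDimensional F V] (P : Prim G V) {g : G} (hg : g ≠ 1) :
    4 * finrank F (eig F V g 1) ≤ 3 * finrank F V := by
  have hU : ∀ u ∈ P.U, u ≠ 1 → finrank F (eig F V u 1) = 0 := fun u hu h1 => by
    rw [eig_eq_bot (P.fpf u hu h1), finrank_bot]
  have hne : ∀ x f : G, x * f ≠ f * x → x⁻¹ * f * x * f⁻¹ ≠ 1 := fun x f h e => h (by
    rw [mul_inv_eq_one, mul_assoc, inv_mul_eq_iff_eq_mul] at e; exact e.symm)
  have hF : ∀ x ∈ P.F, x ≠ 1 → 2 * finrank F (eig F V x 1) ≤ finrank F V := by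
    intro x hx h1
    by_cases hxU : x ∈ P.U
    · rw [hU x hxU h1]; omega
    obtain ⟨f, hf, hxf⟩ : ∃ f ∈ P.F, x * f ≠ f * x := by
      by_contra hc
      push Not at hc
      exact hxU (P.cF x hc)
    have h2 := eig_comm (F := F) (V := V) x f 1
    have h3 : x⁻¹ * f * x * f⁻¹ ∈ P.U := by
      have := P.comm x⁻¹ (P.F.inv_mem hx) f hf
      rwa [commutatorElement_def, inv_inv] at this
    rw [hU _ h3 (hne x f hxf)] at h2
    exact h2
  by_cases hgU : g ∈ P.U
  · rw [hU g hgU hg]; omega
  obtain ⟨f, hf, hxf⟩ : ∃ f ∈ P.F, g * f ≠ f * g := by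
    by_contra hc
    push Not at hc
    exact hgU (P.cF g hc)
  have h2 := eig_comm (F := F) (V := V) g f 1
  have h3 : g⁻¹ * f * g * f⁻¹ ∈ P.F := by
    have := P.Fn.conj_mem f hf g⁻¹
    rw [inv_inv] at this
    exact P.F.mul_mem this (P.F.inv_mem hf)
  have := hF _ h3 (hne g f hxf)
  omega

/-- a normal abelian subgroup of an irreducible linear group is fixed-point-free, or the group
permutes the summands of a direct decomposition -/
theorem fpf_or_decomp [Finite G] [FaithfulSMul G V]
    (hirr : ∀ W : Submodule F V, (∀ g : G, ∀ v ∈ W, g • v ∈ W) → W = ⊥ ∨ W = ⊤) (U : Subgroup G)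
    [hUn : U.Normal] (hUc : ∀ x ∈ U, ∀ y ∈ U, x * y = y * x) :
    (∀ u ∈ U, u ≠ 1 → ∀ v : V, u • v = v → v = 0) ∨
    ∃ (t : ℕ) (D : Fin t → Submodule F V), 2 ≤ t ∧ iSupIndep D ∧ iSup D = ⊤ ∧
      (∀ i, D i ≠ ⊥) ∧ (∀ i j, finrank F (D i) = finrank F (D j)) ∧
      ∀ g : G, ∃ σ : Equiv.Perm (Fin t), ∀ i, (D i).map (lin F V g : V →ₗ[F] V) = D (σ i) := by
  classical
  by_cases h : ∀ u ∈ U, u ≠ 1 → ∀ v : V, u • v = v → v = 0
  · exact Or.inl h
  right
  push Not at h
  obtain ⟨u, hu, hu1, v, huv, hv⟩ := h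
  obtain ⟨U0, ⟨hU0, hW0⟩, hmax'⟩ := Set.exists_max_image
    {U0 : Subgroup G | U0 ≤ U ∧ fixL F V U0 ≠ ⊥} (fun U0 => Nat.card U0) (Set.toFinite _)
    ⟨⊥, bot_le, fun h => hv (by
      rw [← Submodule.mem_bot F, ← h]; intro h hh; rw [Subgroup.mem_bot.mp hh, one_smul])⟩
  have hU0b : U0 ≠ ⊥ := by
    intro hb
    have h1 := hmax' (Subgroup.zpowers u) ⟨Subgroup.zpowers_le.mpr hu, fun h => hv (by
      rw [← Submodule.mem_bot F, ← h]
      rintro _ ⟨k, rfl⟩
      exact MulAction.mem_stabilizer_iff.mp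
        (Subgroup.zpow_mem _ (MulAction.mem_stabilizer_iff.mpr huv) k))⟩
    simp only [hb, Subgroup.card_bot] at h1
    have := Subgroup.card_le_one_iff_eq_bot _ |>.mp h1
    exact hu1 (Subgroup.zpowers_eq_bot.mp this)
  let W0 := fixL F V U0
  let tr : G → Submodule F V → Submodule F V := fun g W => W.map (lin F V g : V →ₗ[F] V)
  have htr : ∀ g W v, v ∈ tr g W ↔ g⁻¹ • v ∈ W := fun g W v => mem_map_lin
  have htrm : ∀ g g' W, tr g (tr g' W) = tr (g * g') W := fun g g' W => by
    ext v; rw [htr, htr, htr, mul_inv_rev, mul_smul]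
  have htr1 : ∀ W, tr 1 W = W := fun W => by ext v; rw [htr, inv_one, one_smul]
  let Ω : Set (Submodule F V) := Set.range fun g : G => tr g W0
  have hfin : Finite Ω := Set.finite_range _
  obtain ⟨t, ⟨e⟩⟩ := Finite.exists_equiv_fin Ω
  let D : Fin t → Submodule F V := fun i => (e.symm i).1
  have hΩ : ∀ ω : Ω, ∃ X : Subgroup G, X ≤ U ∧ Nat.card X = Nat.card U0 ∧ ω.1 = fixL F V X ∧
      ω.1 ≠ ⊥ := by
    rintro ⟨_, g, rfl⟩
    refine ⟨U0.map (MulAut.conj g).toMonoidHom, ?_, ?_, ?_, ?_⟩
    · rintro _ ⟨x, hx, rfl⟩; exact hUn.conj_mem x (hU0 hx) g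
    · exact Subgroup.card_map_of_injective (MulAut.conj g).injective
    · ext x
      show x ∈ tr g W0 ↔ _
      rw [htr, mem_fixL, mem_fixL]
      constructor
      · rintro h _ ⟨y, hy, rfl⟩
        show (g * y * g⁻¹) • x = x
        rw [mul_smul, mul_smul, h y hy, smul_inv_smul]
      · intro h y hy
        have : (g * y * g⁻¹) • x = x := h _ ⟨y, hy, rfl⟩
        rw [mul_smul, mul_smul] at this
        exact eq_inv_smul_iff.mpr this
    · intro h
      apply hW0
      have h' : tr g W0 = ⊥ := h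
      show W0 = ⊥
      rw [← htr1 W0, ← inv_mul_cancel g, ← htrm, h']
      exact Submodule.map_bot _
  have hmem : ∀ (g : G) (ω : Ω), tr g ω.1 ∈ Ω := by
    rintro g ⟨_, g', rfl⟩
    exact ⟨g * g', (htrm g g' W0).symm⟩
  let act : G → Equiv.Perm Ω := fun g =>
    { toFun := fun ω => ⟨_, hmem g ω⟩
      invFun := fun ω => ⟨_, hmem g⁻¹ ω⟩
      left_inv := fun ω => Subtype.ext (by simp only [htrm, inv_mul_cancel, htr1])
      right_inv := fun ω => Subtype.ext (by simp only [htrm, mul_inv_cancel, htr1]) }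
  have hperm : ∀ g : G, ∃ σ : Equiv.Perm (Fin t), ∀ i, tr g (D i) = D (σ i) := fun g =>
    ⟨(e.symm.trans (act g)).trans e, fun i => by simp [D, act]⟩
  let ω0 : Ω := ⟨W0, 1, htr1 W0⟩
  have hD0 : D (e ω0) = W0 := by simp [D, ω0]
  have hsup : iSup D = ⊤ := by
    refine (hirr _ fun g x hx => ?_).resolve_left fun h => hW0 ?_
    · obtain ⟨σ, hσ⟩ := hperm g
      have : tr g (iSup D) ≤ iSup D := by
        simp only [tr, Submodule.map_iSup]
        exact iSup_le fun i => (hσ i).le.trans (le_iSup D _)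
      exact this ((htr _ _ _).mpr (by rwa [inv_smul_smul]))
    · have := le_iSup D (e ω0)
      rw [hD0, h] at this
      exact le_bot_iff.mp this
  refine ⟨t, D, ?_, ?_, hsup, fun i => (hΩ _).choose_spec.2.2.2, fun i j => ?_, hperm⟩
  · by_contra hlt
    have hs : Subsingleton (Fin t) := Fin.subsingleton_iff_le_one.mpr (by omega)
    have : W0 = ⊤ := by
      rw [← hsup, ← hD0]
      exact le_antisymm (le_iSup D _) (iSup_le fun i => by rw [Subsingleton.elim i (e ω0)])
    apply hU0b
    rw [eq_bot_iff]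
    intro y hy
    exact eq_of_smul_eq_smul (α := V) fun x => by
      rw [one_smul]; exact (this ▸ Submodule.mem_top : x ∈ W0) y hy
  · have hind : Indep fun i => (D i).toAddSubgroup := by
      refine indep_of_sep _ fun i j hij => ?_
      obtain ⟨X, hX, hXc, hi, hi0⟩ := hΩ (e.symm i)
      obtain ⟨Y, hY, hYc, hj, -⟩ := hΩ (e.symm j)
      have hYX : ¬ Y ≤ X := fun h => hij (e.symm.injective (Subtype.ext (by
        rw [hi, hj, Subgroup.eq_of_le_of_card_ge h (by omega)])))
      obtain ⟨y, hyY, hyX⟩ := SetLike.not_le_iff_exists.mp hYX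
      refine ⟨DistribSMul.toAddMonoidHom V y - AddMonoidHom.id V, fun k x hx => ?_, fun x hx => ?_,
        fun x hx h0 => ?_⟩
      · obtain ⟨Z, hZ, -, hk, -⟩ := hΩ (e.symm k)
        refine AddSubgroup.sub_mem _ ?_ hx
        simp only [D, hk, Submodule.mem_toAddSubgroup] at hx ⊢
        intro z hz
        show z • y • x = y • x
        rw [← mul_smul, hUc z (hZ hz) y (hY hyY), mul_smul, hx z hz]
      · simp only [D, hj, Submodule.mem_toAddSubgroup] at hx
        exact sub_eq_zero.mpr (hx y hyY)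
      · by_contra hx0
        simp only [D, hi, Submodule.mem_toAddSubgroup] at hx
        have hle : X ⊔ Subgroup.zpowers y ≤ MulAction.stabilizer G x :=
          sup_le (fun z hz => hx z hz) (Subgroup.zpowers_le.mpr (sub_eq_zero.mp h0))
        have h1 := hmax' (X ⊔ Subgroup.zpowers y) ⟨sup_le hX (Subgroup.zpowers_le.mpr (hY hyY)),
          fun h => hx0 (by rw [← Submodule.mem_bot F, ← h]; exact fun z hz => hle hz)⟩
        have h2 := Subgroup.eq_of_le_of_card_ge (le_sup_left : X ≤ X ⊔ Subgroup.zpowers y)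
          (by omega)
        exact hyX (h2 ▸ Subgroup.mem_sup_right (Subgroup.mem_zpowers y))
    rw [iSupIndep_iff_finsetSum_eq_zero_imp_eq_zero]
    intro s w hw hs i hi
    have := hind (fun j => if j ∈ s then w j else 0) (fun j => by
      split_ifs with hj
      · exact hw j hj
      · exact AddSubgroup.zero_mem _) (by rw [Finset.sum_ite_mem, Finset.univ_inter, hs]) i
    simpa [hi] using this
  · obtain ⟨g, hg⟩ := (e.symm i).2
    obtain ⟨g', hg'⟩ := (e.symm j).2
    have e1 : D i = tr g W0 := hg.symm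
    have e2 : D j = tr g' W0 := hg'.symm
    rw [e1, e2, finrank_map_lin, finrank_map_lin]

end Cfsg.Agent.FG.PF
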