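import Mathlib
import Cfsg.Agent.FG.PrimFix

/-! Dimension counts for eigenspaces of group elements, and the symplectic algebra of a group of
class two. -/

set_option autoImplicit false

namespace Cfsg.Agent.FG.PF

open Module Polynomial
open scoped commutatorElement

section lin
variable {G : Type*} {F : Type*} {V : Type*} [Group G] [Field F] [AddCommGroup V] [Module F V]
  [DistribMulAction G V] [SMulCommClass G F V] [FiniteDimensional F V]

theorem finrank_le_of_map (f : V →ₗ[F] V) (K K' X : Submodule F V) (h1 : ∀ v ∈ K, f v ∈ K')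
    (h2 : ∀ v ∈ K, f v = 0 → v ∈ X) : finrank F K ≤ finrank F K' + finrank F X := by
  have h := LinearMap.finrank_range_add_finrank_ker (f.domRestrict K)
  have h3 : finrank F (LinearMap.range (f.domRestrict K)) ≤ finrank F K' :=
    Submodule.finrank_mono (by rintro _ ⟨v, rfl⟩; exact h1 v v.2)
  have h4 : finrank F (LinearMap.ker (f.domRestrict K)) ≤ finrank F X := by
    rw [← Submodule.finrank_map_subtype_eq]
    exact Submodule.finrank_mono (by rintro _ ⟨v, hv, rfl⟩; exact h2 v v.2 hv)
  omega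

theorem sum_finrank_le {κ : Type*} (s : Finset κ) (Y : κ → Submodule F V) (X : Submodule F V)
    (hY : ∀ k ∈ s, Y k ≤ X)
    (hind : ∀ w : κ → V, (∀ k ∈ s, w k ∈ Y k) → ∑ k ∈ s, w k = 0 → ∀ k ∈ s, w k = 0) :
    ∑ k ∈ s, finrank F (Y k) ≤ finrank F X := by
  classical
  let φ : (∀ k : s, Y k) →ₗ[F] X :=
    ∑ k : s, (Submodule.inclusion (hY k k.2)).comp (LinearMap.proj k)
  have hφ : Function.Injective φ := by
    rw [injective_iff_map_eq_zero]
    intro w hw
    have h0 : ∑ k : s, (w k : V) = 0 := by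
      have := congrArg Subtype.val hw
      simpa [φ] using this
    have := hind (fun k => if h : k ∈ s then (w ⟨k, h⟩ : V) else 0) (fun k hk => by
      simp only [hk, dite_true]; exact (w ⟨k, hk⟩).2) (by
      rw [← h0, ← Finset.sum_coe_sort]
      exact Finset.sum_congr rfl fun k _ => by simp)
    funext k
    have h1 := this k k.2
    simp only [k.2, dite_true] at h1
    exact Subtype.ext h1
  have := LinearMap.finrank_le_finrank_of_injective hφ
  rwa [Module.finrank_pi_fintype, Finset.sum_coe_sort s (fun k => finrank F (Y k))] at this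

theorem sum_eig_le {κ : Type*} (s : Finset κ) (μ : κ → F) (hμ : Set.InjOn μ s) (g : G)
    (X : Submodule F V) : ∑ k ∈ s, finrank F (X ⊓ eig F V g (μ k) : Submodule F V) ≤ finrank F X := by
  classical
  refine sum_finrank_le s _ X (fun _ _ => inf_le_left) fun w hw hs k hk => ?_
  have hi := Module.End.eigenspaces_iSupIndep (lin F V g : V →ₗ[F] V)
  have hi2 : iSupIndep fun k : s => Module.End.eigenspace (lin F V g : V →ₗ[F] V) (μ k) :=
    hi.comp (f := fun k : s => μ k) fun a b h => Subtype.ext (hμ a.2 b.2 h)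
  rw [iSupIndep_iff_finsetSum_eq_zero_imp_eq_zero] at hi2
  exact hi2 Finset.univ (fun k => w k) (fun k _ => Module.End.mem_eigenspace_iff.mpr (hw k k.2).2)
    (by rw [Finset.sum_coe_sort s w, hs]) ⟨k, hk⟩ (Finset.mem_univ _)

theorem le_sum_eig {r : ℕ} (hr : 0 < r) {ω : F} (hω : IsPrimitiveRoot ω r) {a : G} (ha : a ^ r = 1)
    (W : Submodule F V) (hW : ∀ v ∈ W, a • v ∈ W) :
    finrank F W ≤ ∑ l ∈ Finset.range r, finrank F (W ⊓ eig F V a (ω ^ l) : Submodule F V) := by
  classical
  let A : Module.End F V := (lin F V a : V →ₗ[F] V)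
  have key : ∀ s : Finset ℕ,
      finrank F (W ⊓ LinearMap.ker (aeval A (∏ i ∈ s, (X - C (ω ^ i * 1)))) : Submodule F V) ≤
        ∑ l ∈ s, finrank F (W ⊓ eig F V a (ω ^ l) : Submodule F V) := by
    intro s
    induction s using Finset.induction_on with
    | empty =>
      rw [Finset.prod_empty, map_one, Module.End.one_eq_id, LinearMap.ker_id, inf_bot_eq,
        finrank_bot]
      exact Nat.zero_le _
    | insert j s hj ih =>
      rw [Finset.sum_insert hj, add_comm]
      refine (finrank_le_of_map (aeval A (X - C (ω ^ j * 1))) _ _ _ ?_ ?_).trans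
        (Nat.add_le_add_right ih _)
      · intro v hv
        refine ⟨?_, ?_⟩
        · simp only [map_sub, aeval_X, aeval_C, LinearMap.sub_apply, Module.algebraMap_end_apply]
          exact W.sub_mem (hW v hv.1) (W.smul_mem _ hv.1)
        · have := hv.2
          rw [Finset.prod_insert hj, mul_comm, map_mul] at this
          exact this
      · intro v hv h0
        refine ⟨hv.1, ?_⟩
        simp only [map_sub, aeval_X, aeval_C, LinearMap.sub_apply, Module.algebraMap_end_apply,
          mul_one, sub_eq_zero] at h0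
        exact h0
  have h := key (Finset.range r)
  have hA : A ^ r = 1 := by
    have : ∀ k : ℕ, ∀ v, (A ^ k) v = a ^ k • v := fun k => by
      induction k with
      | zero => simp
      | succ k ih => intro v; rw [pow_succ', pow_succ', Module.End.mul_apply, ih, mul_smul]; rfl
    ext v; rw [this, ha, one_smul]; rfl
  rw [← X_pow_sub_C_eq_prod hω hr (one_pow r)] at h
  rwa [map_sub, map_pow, aeval_X, hA, map_one, map_one, sub_self, LinearMap.ker_zero,
    inf_top_eq] at h

theorem finrank_le_of_smul (x : G) (Y Y' : Submodule F V) (h : ∀ v ∈ Y, x • v ∈ Y') :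
    finrank F Y ≤ finrank F Y' := by
  rw [← finrank_map_lin x Y]
  exact Submodule.finrank_mono (by rintro _ ⟨v, hv, rfl⟩; exact h v hv)

omit [FiniteDimensional F V] in
theorem conj_smul {x a : G} {v : V} {c : F} (h : (x * a * x⁻¹) • v = c • v) :
    a • x⁻¹ • v = c • x⁻¹ • v := by
  rw [← smul_comm x⁻¹ c, ← h, mul_smul, mul_smul, inv_smul_smul]

/-- an element conjugate to a primitive `r`-th root of unity multiple of itself -/
theorem mul_eig_le {r : ℕ} {ω : F} (hω : IsPrimitiveRoot ω r) {a f : G}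
    (h : ∀ v : V, (f * a * f⁻¹) • v = ω • a • v) {c : F} (hc : c ≠ 0) :
    r * finrank F (eig F V a c) ≤ finrank F V := by
  have h1 : ∀ l : ℕ, finrank F (eig F V a c) ≤ finrank F (eig F V a (ω ^ l * c)) := by
    intro l
    induction l with
    | zero => rw [pow_zero, one_mul]
    | succ l ih =>
      refine ih.trans (finrank_le_of_smul f⁻¹ _ _ fun v hv => ?_)
      rw [mem_eig] at hv ⊢
      exact conj_smul (by rw [h, hv, smul_smul, pow_succ', mul_assoc])
  have h2 := sum_eig_le (V := V) (Finset.range r) (fun l => ω ^ l * c) (fun i hi j hj e =>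
    hω.pow_inj (by simpa using hi) (by simpa using hj) (mul_right_cancel₀ hc e)) a ⊤
  rw [finrank_top] at h2
  refine le_trans ?_ h2
  have := Finset.card_nsmul_le_sum (Finset.range r)
    (fun l => finrank F (⊤ ⊓ eig F V a (ω ^ l * c) : Submodule F V)) _ fun l _ => by
      rw [top_inf_eq]; exact h1 l
  rwa [Finset.card_range, smul_eq_mul] at this

theorem shift_le {ζ : F} {a g x : G} (h1 : ∀ v : V, (x * a * x⁻¹) • v = ζ • a • v)
    (h2 : x * g * x⁻¹ = g * a) (l m : F) (j : ℕ) :
    finrank F (eig F V g m ⊓ eig F V a l : Submodule F V) ≤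
      finrank F (eig F V a (ζ ^ j * l) ⊓ eig F V g (m * l ^ j * ζ ^ j.choose 2) : Submodule F V) := by
  induction j with
  | zero =>
    rw [Nat.choose_zero_succ, pow_zero, pow_zero, one_mul, mul_one, mul_one, inf_comm]
  | succ j ih =>
    refine ih.trans (finrank_le_of_smul x⁻¹ _ _ fun v hv => ?_)
    obtain ⟨hv1, hv2⟩ := hv
    rw [SetLike.mem_coe, mem_eig] at hv1 hv2
    refine ⟨?_, ?_⟩
    · rw [SetLike.mem_coe, mem_eig]
      exact conj_smul (by rw [h1, hv1, smul_smul, pow_succ', mul_assoc])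
    · rw [SetLike.mem_coe, mem_eig]
      refine conj_smul ?_
      rw [h2, mul_smul, hv1, smul_comm g, hv2, smul_smul, Nat.choose_succ_succ' j 1,
        Nat.choose_one_right]
      congr 1
      ring

theorem two_choose (j : ℕ) : 2 * j.choose 2 + j = j * j := by
  induction j with
  | zero => rfl
  | succ j ih => rw [Nat.choose_succ_succ' j 1, Nat.choose_one_right]; nlinarith

/-- the unipotent case -/
theorem unip_bound {r : ℕ} (hr : r.Prime) (h5 : 5 ≤ r) {ω ζ : F} (hω : IsPrimitiveRoot ω r)
    (hζ : ζ ^ r = 1) {a g x f : G} (ha : a ^ r = 1)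
    (h0 : ∀ v : V, (f * a * f⁻¹) • v = ω • a • v) (h1 : ∀ v : V, (x * a * x⁻¹) • v = ζ • a • v)
    (h2 : x * g * x⁻¹ = g * a) (hga : g * a = a * g) {c : F} (hc : c ≠ 0) :
    2 * finrank F (eig F V g c) ≤ finrank F V := by
  classical
  have hW : ∀ v ∈ eig F V g c, a • v ∈ eig F V g c := fun v hv => by
    rw [mem_eig] at hv ⊢
    rw [← mul_smul, hga, mul_smul, hv, smul_comm]
  have hω0 : ω ≠ 0 := hω.ne_zero hr.ne_zero
  by_cases hζ1 : ζ = 1
  · subst hζ1
    have h3 := le_sum_eig hr.pos hω ha _ hW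
    obtain ⟨k, rfl⟩ : ∃ k, r = k + 1 := ⟨r - 1, by omega⟩
    rw [Finset.sum_range_succ'] at h3
    have h4 : ∀ l ∈ Finset.range k, (k + 1) *
        (3 * finrank F (eig F V g c ⊓ eig F V a (ω ^ (l + 1)) : Submodule F V)) ≤ finrank F V := by
      intro l hl
      have hp : IsPrimitiveRoot (ω ^ (l + 1)) (k + 1) := hω.pow_of_coprime _
        (Nat.Coprime.symm ((Nat.coprime_of_lt_prime (by omega)
          (by have := Finset.mem_range.mp hl; omega) hr).symm) |>.symm)
      refine le_trans (Nat.mul_le_mul_left _ ?_) (mul_eig_le hω h0 (pow_ne_zero (l + 1) hω0))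
      have h5 := sum_eig_le (V := V) (Finset.range 3) (fun j => c * (ω ^ (l + 1)) ^ j)
        (fun i hi j hj e => hp.pow_inj (by simp at hi; omega) (by simp at hj; omega)
          (mul_left_cancel₀ hc e)) g (eig F V a (ω ^ (l + 1)))
      refine le_trans ?_ h5
      have := Finset.card_nsmul_le_sum (Finset.range 3) (fun j => finrank F
        (eig F V a (ω ^ (l + 1)) ⊓ eig F V g (c * (ω ^ (l + 1)) ^ j) : Submodule F V)) _
        fun j _ => by
          have := shift_le h1 h2 (ω ^ (l + 1)) c j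
          rwa [one_pow, one_pow, one_mul, mul_one] at this
      rwa [Finset.card_range, smul_eq_mul] at this
    have h5 := Finset.sum_le_card_nsmul _ _ _ h4
    rw [← Finset.mul_sum, ← Finset.mul_sum] at h5
    have h6 : (k + 1) * finrank F (eig F V g c ⊓ eig F V a (ω ^ 0) : Submodule F V) ≤ finrank F V :=
      le_trans (Nat.mul_le_mul_left _ (Submodule.finrank_mono inf_le_right))
        (mul_eig_le hω h0 (pow_ne_zero 0 hω0))
    simp only [Finset.card_range, smul_eq_mul] at h5
    generalize finrank F (eig F V g c ⊓ eig F V a (ω ^ 0) : Submodule F V) = p at *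
    generalize ∑ l ∈ Finset.range k,
      finrank F (eig F V g c ⊓ eig F V a (ω ^ (l + 1)) : Submodule F V) = q at *
    generalize finrank F (eig F V g c) = d at *
    generalize finrank F V = n at *
    have e1 : (k + 1) * (6 * d) ≤ (k + 1) * (3 * n) := by nlinarith
    have := Nat.le_of_mul_le_mul_left e1 (by omega)
    omega
  · have hp : IsPrimitiveRoot ζ r := by
      have := IsPrimitiveRoot.orderOf ζ
      rwa [orderOf_eq_prime (hp := ⟨hr⟩) hζ hζ1] at this
    have := Fact.mk hr
    have h3 := le_sum_eig hr.pos hp ha _ hW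
    let q : ℕ → F := fun l => c * (ζ ^ l) ^ (r - l) * ζ ^ (r - l).choose 2
    have h4 : ∀ l ∈ Finset.range r, finrank F (eig F V g c ⊓ eig F V a (ζ ^ l) : Submodule F V) ≤
        finrank F (eig F V a 1 ⊓ eig F V g (q l) : Submodule F V) := by
      intro l hl
      have := shift_le h1 h2 (ζ ^ l) c (r - l)
      rwa [← pow_add, Nat.sub_add_cancel (Finset.mem_range.mp hl).le, hζ] at this
    have h5 := Finset.sum_le_sum h4
    rw [Finset.sum_comp (fun μ => finrank F (eig F V a 1 ⊓ eig F V g μ : Submodule F V)) q] at h5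
    have h6 : ∀ μ ∈ (Finset.range r).image q, ((Finset.range r).filter fun l => q l = μ).card ≤ 2 := by
      intro μ hμ
      obtain ⟨l0, hl0, rfl⟩ := Finset.mem_image.mp hμ
      have hq : ∀ l ∈ Finset.range r,
          (2 : ZMod r) * ((l * (r - l) + (r - l).choose 2 : ℕ) : ZMod r) = l - l ^ 2 := by
        intro l hl
        have e1 : ((r - l : ℕ) : ZMod r) = -l := by
          rw [Nat.cast_sub (Finset.mem_range.mp hl).le, ZMod.natCast_self, zero_sub]
        have e2 := congrArg (Nat.cast : ℕ → ZMod r) (two_choose (r - l))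
        push_cast at e2 ⊢
        rw [e1] at e2 ⊢
        linear_combination e2
      refine le_trans (Finset.card_le_card_of_injOn (t := ({(l0 : ZMod r), 1 - (l0 : ZMod r)} : Finset (ZMod r)))
        (fun l : ℕ => (l : ZMod r)) (fun l hl => ?_) (fun i hi j hj e => ?_)) Finset.card_le_two
      · obtain ⟨hl, e⟩ := Finset.mem_filter.mp hl
        simp only [q, ← pow_mul, mul_assoc, ← pow_add] at e
        have e2 := mul_left_cancel₀ hc e
        have e3 : ((l * (r - l) + (r - l).choose 2 : ℕ) : ZMod r) =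
            ((l0 * (r - l0) + (r - l0).choose 2 : ℕ) : ZMod r) := by
          rw [ZMod.natCast_eq_natCast_iff]
          have := (pow_eq_pow_iff_modEq (x := Units.mk0 ζ (hp.ne_zero hr.ne_zero))).mp
            (Units.ext (by simpa using e2))
          rwa [← orderOf_units, Units.val_mk0, ← hp.eq_orderOf] at this
        have e4 : ((l : ZMod r) - l0) * (l - (1 - l0)) = 0 := by
          linear_combination hq l hl - hq l0 hl0 - 2 * e3
        simpa [sub_eq_zero] using e4
      · have hi' := Finset.mem_range.mp (Finset.mem_filter.mp hi).1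
        have hj' := Finset.mem_range.mp (Finset.mem_filter.mp hj).1
        exact Nat.ModEq.eq_of_lt_of_lt ((ZMod.natCast_eq_natCast_iff _ _ _).mp e) hi' hj'
    have h7 := sum_eig_le (V := V) ((Finset.range r).image q) id (fun _ _ _ _ e => e) g (eig F V a 1)
    have h8 : ∑ μ ∈ (Finset.range r).image q, ((Finset.range r).filter fun l => q l = μ).card •
        finrank F (eig F V a 1 ⊓ eig F V g μ : Submodule F V) ≤
        ∑ μ ∈ (Finset.range r).image q, 2 * finrank F (eig F V a 1 ⊓ eig F V g μ : Submodule F V) :=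
      Finset.sum_le_sum fun μ hμ => Nat.mul_le_mul_right _ (h6 μ hμ)
    rw [← Finset.mul_sum] at h8
    have h9 := mul_eig_le hω h0 (one_ne_zero (α := F))
    simp only [id] at h7
    nlinarith

end lin

section alg
variable {E A : Type*} [AddCommGroup E] [AddCommGroup A] {B : E →+ E →+ A}
  {τ : Module.End ℤ E} {m r : ℕ}

theorem ker_sq (hr : ∀ x : E, r • x = 0) (hc : r.Coprime m) (hp : τ ^ m = 1) {u : E}
    (h : τ (τ u - u) = τ u - u) : τ u = u := by
  have h1 : ∀ k : ℕ, (τ ^ k) u = u + k • (τ u - u) := fun k => by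
    induction k with
    | zero => simp
    | succ k ih =>
      rw [pow_succ', Module.End.mul_apply, ih, map_add, map_nsmul, h, succ_nsmul]; abel
  have h2 := h1 m
  rw [hp, Module.End.one_apply, left_eq_add] at h2
  have h3 := (addOrderOf_dvd_iff_nsmul_eq_zero.mpr (hr (τ u - u)))
  have h4 := (addOrderOf_dvd_iff_nsmul_eq_zero.mpr h2)
  exact sub_eq_zero.mp (AddMonoid.addOrderOf_eq_one_iff.mp (Nat.eq_one_of_dvd_coprimes hc h3 h4))

theorem form_coprime (halt : ∀ x, B x x = 0) (hnd : ∀ x, (∀ y, B x y = 0) → x = 0)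
    (hτ : ∀ x y, B (τ x) (τ y) = B x y) (hr : ∀ x : E, r • x = 0) (hc : r.Coprime m) (hm : Odd m)
    (hp : τ ^ m = 1) (h : ∀ x, B (τ x - x) (τ (τ x - x)) = 0) (x : E) : τ x = x := by
  have hsk : ∀ x y, B x y = -B y x := fun x y => by
    have := halt (x + y)
    simp only [map_add, AddMonoidHom.add_apply, halt, zero_add, add_zero] at this
    exact eq_neg_of_add_eq_zero_right this
  obtain ⟨k, rfl⟩ := hm
  have hsurj : ∀ y, ∃ x, τ x = y := fun y => ⟨(τ ^ (2 * k)) y, by
    rw [← Module.End.mul_apply, ← pow_succ', hp, Module.End.one_apply]⟩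
  have h1 : ∀ x y, B (τ x - x - τ (τ (τ x - x))) (τ (τ y - y)) = 0 := fun x y => by
    have e := h (x + y)
    have e1 : τ (x + y) - (x + y) = (τ x - x) + (τ y - y) := by rw [map_add]; abel
    rw [e1] at e
    have hx := h x
    have hy := h y
    generalize τ x - x = a at *
    generalize τ y - y = b at *
    simp only [map_add, AddMonoidHom.add_apply, hx, hy, zero_add, add_zero] at e
    rw [map_sub, AddMonoidHom.sub_apply, hτ, hsk (τ a) b, sub_neg_eq_add, add_comm, e]
  have h2 : ∀ u, (∀ y, B u (τ (τ y - y)) = 0) → τ u = u := fun u hu => by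
    obtain ⟨w, rfl⟩ := hsurj u
    have : τ w - w = 0 := by
      refine hnd _ fun z => ?_
      obtain ⟨y, rfl⟩ := hsurj z
      have := hu y
      rw [hτ, map_sub] at this
      rw [map_sub, AddMonoidHom.sub_apply, hτ, ← neg_sub, this, neg_zero]
    rw [sub_eq_zero.mp this]
    exact sub_eq_zero.mp this
  have h3 : ∀ x, τ (τ x) = x := fun x => by
    have e1 := h2 _ (h1 x)
    have e2 : τ (τ (τ x + x) - (τ x + x)) = τ (τ x + x) - (τ x + x) := by
      refine ker_sq hr hc hp ?_
      simp only [map_sub, map_add] at e1 ⊢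
      linear_combination (norm := abel) -e1
    have e3 := ker_sq hr hc hp e2
    rw [map_add, add_comm (τ x) x] at e3
    exact add_right_cancel e3
  have h4 : τ ^ 2 = 1 := by ext y; rw [pow_two, Module.End.mul_apply, h3]; rfl
  rw [pow_succ, pow_mul, h4, one_pow, one_mul] at hp
  rw [hp]; rfl

theorem exists_sq_zero (hrp : r.Prime) (hr : ∀ x : E, r • x = 0) (hp : τ ^ r = 1) {y : E}
    (hy : τ y ≠ y) : ∃ x, τ x ≠ x ∧ τ (τ x - x) = τ x - x := by
  classical
  obtain ⟨s, hs⟩ := (Commute.one_right (τ - 1)).exists_add_pow_prime_eq hrp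
  have h0 : (r : Module.End ℤ E) = 0 := by ext x; simpa using hr x
  rw [sub_add_cancel, hp, h0, one_pow, zero_mul, zero_mul, zero_mul, add_zero, right_eq_add] at hs
  have hex : ∃ k : ℕ, ((τ - 1) ^ (k + 1) : Module.End ℤ E) y = 0 := ⟨r - 1, by
    rw [Nat.sub_add_cancel hrp.one_le, hs]; rfl⟩
  have hδ : ∀ z, (τ - 1) z = τ z - z := fun z => rfl
  have h1 := Nat.find_spec hex
  obtain ⟨k, hk⟩ : ∃ k, Nat.find hex = k + 1 := by
    refine Nat.exists_eq_succ_of_ne_zero fun e => hy ?_
    rwa [e, zero_add, pow_one, hδ, sub_eq_zero] at h1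
  have h2 := Nat.find_min hex (m := k) (by omega)
  rw [hk, pow_succ', pow_succ', Module.End.mul_apply, Module.End.mul_apply, hδ, hδ] at h1
  rw [pow_succ', Module.End.mul_apply, hδ] at h2
  exact ⟨_, fun e => h2 (sub_eq_zero.mpr e), sub_eq_zero.mp h1⟩

end alg

universe u

theorem exists_form {N : Type u} [Group N] (hc : ∀ x y : N, ⁅x, y⁆ ∈ Subgroup.center N)
    (σ : N ≃* N) (hσ : ∀ z ∈ Subgroup.center N, σ z = z) :
    ∃ (E A : Type u) (_ : AddCommGroup E) (_ : AddCommGroup A) (π : N → E) (B : E →+ E →+ A)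
      (τ : Module.End ℤ E), Function.Surjective π ∧ (∀ x y, π (x * y) = π x + π y) ∧
      (∀ x, π x = 0 ↔ x ∈ Subgroup.center N) ∧ (∀ x y, B (π x) (π y) = 0 ↔ ⁅x, y⁆ = 1) ∧
      (∀ x, τ (π x) = π (σ x)) ∧ ∀ a b, B (τ a) (τ b) = B a b := by
  let Z := Subgroup.center N
  have hl : ∀ x y z : N, ⁅x * y, z⁆ = ⁅x, z⁆ * ⁅y, z⁆ := fun x y z => by
    have := Subgroup.mem_center_iff.mp (hc y z)
    calc ⁅x * y, z⁆ = x * ⁅y, z⁆ * (z * x⁻¹ * z⁻¹) := by
          simp only [commutatorElement_def]; group
      _ = x * (z * x⁻¹ * z⁻¹) * ⁅y, z⁆ := by rw [mul_assoc, ← this, ← mul_assoc]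
      _ = _ := by simp only [commutatorElement_def x]; group
  have hr : ∀ x y z : N, ⁅x, y * z⁆ = ⁅x, y⁆ * ⁅x, z⁆ := fun x y z => by
    rw [← commutatorElement_inv, hl, mul_inv_rev, commutatorElement_inv, commutatorElement_inv]
    exact Subgroup.mem_center_iff.mp (hc x y) _
  have hz : ∀ z ∈ Z, ∀ y : N, ⁅z, y⁆ = 1 := fun z hz y =>
    commutatorElement_eq_one_iff_mul_comm.mpr (Subgroup.mem_center_iff.mp hz y).symm
  let _ : CommGroup (N ⧸ Z) := { (inferInstance : Group (N ⧸ Z)) with
    mul_comm := fun a b => by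
      obtain ⟨x, rfl⟩ := QuotientGroup.mk_surjective a
      obtain ⟨y, rfl⟩ := QuotientGroup.mk_surjective b
      rw [← commutatorElement_eq_one_iff_mul_comm]
      exact (QuotientGroup.eq_one_iff ⁅x, y⁆).mpr (hc x y) }
  let _ : CommGroup Z := { (inferInstance : Group Z) with
    mul_comm := fun a b => Subtype.ext (Subgroup.mem_center_iff.mp b.2 a) }
  let β1 : N → N →* Z := fun x =>
    { toFun := fun y => ⟨⁅x, y⁆, hc x y⟩
      map_one' := Subtype.ext (by simp)
      map_mul' := fun y z => Subtype.ext (hr x y z) }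
  let β2 : N →* ((N ⧸ Z) →* Z) :=
    { toFun := fun x => QuotientGroup.lift Z (β1 x) fun y hy => Subtype.ext (by
        show ⁅x, y⁆ = 1
        rw [← commutatorElement_inv, hz y hy, inv_one])
      map_one' := by ext y; simp [β1]
      map_mul' := fun x y => by ext z; exact hl x y z }
  let β3 : (N ⧸ Z) →* ((N ⧸ Z) →* Z) := QuotientGroup.lift Z β2 fun x hx => by
    ext y; exact hz x hx y
  let B : Additive (N ⧸ Z) →+ Additive (N ⧸ Z) →+ Additive Z :=
    { toFun := fun a => MonoidHom.toAdditive (β3 a.toMul)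
      map_zero' := by ext; simp
      map_add' := fun a b => by ext; simp }
  let t : (N ⧸ Z) →* (N ⧸ Z) := QuotientGroup.map Z Z σ.toMonoidHom fun z hz => by
    show σ z ∈ Z
    rwa [hσ z hz]
  refine ⟨Additive (N ⧸ Z), Additive Z, inferInstance, inferInstance,
    fun x => Additive.ofMul (x : N ⧸ Z), B, (MonoidHom.toAdditive t).toIntLinearMap, ?_, fun _ _ => rfl,
    fun x => QuotientGroup.eq_one_iff x, fun x y => Subtype.ext_iff, fun _ => rfl, ?_⟩
  · intro a
    exact QuotientGroup.mk_surjective a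
  · intro a b
    obtain ⟨x, rfl⟩ := QuotientGroup.mk_surjective a
    obtain ⟨y, rfl⟩ := QuotientGroup.mk_surjective b
    refine Subtype.ext ?_
    show ⁅σ x, σ y⁆ = ⁅x, y⁆
    rw [← map_commutatorElement, hσ _ (hc x y)]

section main
variable {G : Type*} {F : Type*} {V : Type*} [Group G] [Field F] [AddCommGroup V] [Module F V]
  [DistribMulAction G V] [SMulCommClass G F V] [FaithfulSMul G V]

theorem scal_comm {s : G} {c : F} (h : ∀ v : V, s • v = c • v) (x : G) : x * s = s * x :=
  eq_of_smul_eq_smul (α := V) fun v => by rw [mul_smul, mul_smul, h, h, smul_comm]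

omit [SMulCommClass G F V] in
theorem scal_eig {s : G} {c : F} (h : ∀ v : V, s • v = c • v) (h1 : s ≠ 1) {v : V}
    (hv : s • v = v) : v = 0 := by
  by_contra h0
  have : c = 1 := smul_left_injective F h0 (by simp only [← h, hv, one_smul])
  exact h1 (eq_of_smul_eq_smul (α := V) fun w => by rw [h, this, one_smul, one_smul])

omit [SMulCommClass G F V] in
theorem scal_prim {s : G} {c : F} (h : ∀ v : V, s • v = c • v) (h1 : s ≠ 1) {r : ℕ} (hr : r.Prime)
    (hs : s ^ r = 1) : IsPrimitiveRoot c r := by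
  have hc : c ≠ 1 := fun e =>
    h1 (eq_of_smul_eq_smul (α := V) fun w => by rw [h, e, one_smul, one_smul])
  have hp : ∀ k : ℕ, ∀ v : V, s ^ k • v = c ^ k • v := fun k => by
    induction k with
    | zero => simp
    | succ k ih => intro v; rw [pow_succ', pow_succ', mul_smul, mul_smul, ih, h]
  obtain ⟨v, hv⟩ : ∃ v : V, v ≠ 0 := by
    by_contra hcon
    push Not at hcon
    exact h1 (eq_of_smul_eq_smul (α := V) fun w => by rw [hcon (s • w), hcon (1 • w)])
  have e : c ^ r = 1 := smul_left_injective F hv (by simp only [← hp, hs, one_smul])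
  have := IsPrimitiveRoot.orderOf c
  rwa [orderOf_eq_prime (hp := ⟨hr⟩) e hc] at this

variable [FiniteDimensional F V]

/-- eigenspaces of elements normalising an absolutely irreducible group of class two -/
theorem extra_bound (N : Subgroup G) {r m : ℕ} (hr : r.Prime) (hm : m.Prime)
    (hcen : ∀ h : G, (∀ x ∈ N, h * x = x * h) → ∃ c : F, ∀ v : V, h • v = c • v)
    (hcomm : ∀ x ∈ N, ∀ y ∈ N, ⁅x, y⁆ ^ r = 1 ∧ ∃ c : F, ∀ v : V, ⁅x, y⁆ • v = c • v)
    {g : G} (hg : g ∈ Subgroup.normalizer (N : Set G)) (hgm : g ^ m = 1)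
    (hns : ¬ ∃ c : F, ∀ v : V, g • v = c • v) (c : F) :
    2 * r * finrank F (eig F V g c) ≤ (r + 1) * finrank F V ∧
      (m ≠ 2 → (m ≠ r ∨ 5 ≤ m) → 2 * finrank F (eig F V g c) ≤ finrank F V) := by
  have hN : ∀ x ∈ N, g⁻¹ * x * g ∈ N := fun x hx => by
    have := (Subgroup.mem_normalizer_iff.mp (Subgroup.inv_mem _ hg) x).mp hx
    rwa [inv_inv] at this
  have hN' : ∀ x ∈ N, g * x * g⁻¹ ∈ N := fun x hx => (Subgroup.mem_normalizer_iff.mp hg x).mp hx
  have htw : ∀ a ∈ N, (¬ ∃ c : F, ∀ v : V, a • v = c • v) → ∃ (f : G) (ω : F),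
      IsPrimitiveRoot ω r ∧ ∀ v : V, (f * a * f⁻¹) • v = ω • a • v := by
    intro a ha hs
    obtain ⟨f, hf, hne⟩ : ∃ f ∈ N, a * f ≠ f * a := by
      by_contra hc
      push Not at hc
      exact hs (hcen a hc)
    obtain ⟨h1, ω, h2⟩ := hcomm f hf a ha
    refine ⟨f, ω, scal_prim h2 (fun e => hne (commutatorElement_eq_one_iff_mul_comm.mp e).symm) hr h1,
      fun v => ?_⟩
    rw [← h2, ← mul_smul, commutatorElement_def, inv_mul_cancel_right]
  have hz : ∀ f : G, g⁻¹ * f * g * f⁻¹ ≠ 1 → (∃ c : F, ∀ v : V, (g⁻¹ * f * g * f⁻¹) • v = c • v) →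
      2 * finrank F (eig F V g c) ≤ finrank F V := by
    rintro f h1 ⟨d, hd⟩
    have := eig_comm (F := F) (V := V) g f c
    rwa [eig_eq_bot fun x => scal_eig hd h1, finrank_bot, add_zero] at this
  obtain ⟨f, hf, hne⟩ : ∃ f ∈ N, g * f ≠ f * g := by
    by_contra hc
    push Not at hc
    exact hns (hcen g hc)
  have hne' : g⁻¹ * f * g * f⁻¹ ≠ 1 := fun e => hne (by
    rw [mul_inv_eq_one, mul_assoc, inv_mul_eq_iff_eq_mul] at e; exact e.symm)
  refine ⟨?_, fun hm2 hmr => ?_⟩
  · by_cases hs : ∃ c : F, ∀ v : V, (g⁻¹ * f * g * f⁻¹) • v = c • v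
    · have := hz f hne' hs
      nlinarith
    · obtain ⟨f', ω, hω, h⟩ := htw _ (N.mul_mem (hN f hf) (N.inv_mem hf)) hs
      have h1 := mul_eig_le hω h (one_ne_zero (α := F))
      have h2 := eig_comm (F := F) (V := V) g f c
      nlinarith
  by_contra hcon
  have hc0 : c ≠ 0 := by
    rintro rfl
    apply hcon
    rw [(Submodule.eq_bot_iff (eig F V g 0)).mpr fun x (hx : g • x = (0 : F) • x) =>
      (smul_eq_zero_iff_eq g).mp (by rw [hx, zero_smul]), finrank_bot]
    exact Nat.zero_le _
  have hZ : ∀ z : N, z ∈ Subgroup.center N ↔ ∃ c : F, ∀ v : V, (z : G) • v = c • v := fun z =>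
    ⟨fun h => hcen z fun x hx => congrArg Subtype.val (Subgroup.mem_center_iff.mp h ⟨x, hx⟩).symm,
      fun ⟨d, hd⟩ => Subgroup.mem_center_iff.mpr fun x => Subtype.ext (scal_comm hd x)⟩
  let σ : N ≃* N :=
    { toFun := fun x => ⟨g⁻¹ * x * g, hN x x.2⟩
      invFun := fun x => ⟨g * x * g⁻¹, hN' x x.2⟩
      left_inv := fun x => Subtype.ext (by simp only []; group)
      right_inv := fun x => Subtype.ext (by simp only []; group)
      map_mul' := fun x y => Subtype.ext (by simp only [Subgroup.coe_mul]; group) }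
  have hσ : ∀ x : N, (σ x : G) = g⁻¹ * x * g := fun _ => rfl
  obtain ⟨E, A, _, _, π, B, τ, hπ, hmul, hker, hB, hτ, hBτ⟩ := exists_form
    (fun x y : N => (hZ _).mpr (hcomm x x.2 y y.2).2) σ (fun z hz => by
      obtain ⟨d, hd⟩ := (hZ z).mp hz
      exact Subtype.ext (by rw [hσ, scal_comm hd, inv_mul_cancel_right]))
  have hπ1 : π 1 = 0 := (hker 1).mpr (Subgroup.one_mem _)
  have hsub : ∀ x y, π (x * y⁻¹) = π x - π y := fun x y => by
    rw [eq_sub_iff_add_eq, ← hmul, inv_mul_cancel_right]
  have hrE : ∀ e : E, r • e = 0 := by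
    intro e
    obtain ⟨x, rfl⟩ := hπ e
    have h1 : ∀ k : ℕ, π (x ^ k) = k • π x := fun k => by
      induction k with
      | zero => simpa using hπ1
      | succ k ih => rw [pow_succ, hmul, ih, succ_nsmul]
    rw [← h1, hker, Subgroup.mem_center_iff]
    intro y
    obtain ⟨h2, d, hd⟩ := hcomm x x.2 y y.2
    have h3 : ∀ k : ℕ, (x : G) ^ k * y = ⁅(x : G), (y : G)⁆ ^ k * y * x ^ k := fun k => by
      induction k with
      | zero => simp
      | succ k ih =>
        have e : Commute (x : G) (⁅(x : G), (y : G)⁆ ^ k) := Commute.pow_right (scal_comm hd x) k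
        rw [pow_succ', mul_assoc, ih, ← mul_assoc, ← mul_assoc, e.eq, pow_succ]
        generalize ⁅(x : G), (y : G)⁆ ^ k = w
        generalize (x : G) ^ k = u
        rw [commutatorElement_def]
        group
    refine Subtype.ext ?_
    have := h3 r
    rw [h2, one_mul] at this
    exact this.symm
  have hτm : τ ^ m = 1 := by
    have h1 : ∀ k : ℕ, ∀ x y : N, (y : G) = g⁻¹ ^ k * x * g ^ k → (τ ^ k) (π x) = π y := fun k => by
      induction k with
      | zero => intro x y h; rw [Subtype.ext (by simpa using h : (y : G) = x)]; rfl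
      | succ k ih =>
        intro x y h
        rw [pow_succ, Module.End.mul_apply, hτ]
        exact ih _ _ (by rw [h, hσ, pow_succ, pow_succ']; group)
    ext e
    obtain ⟨x, rfl⟩ := hπ e
    exact h1 m x x (by rw [inv_pow, hgm]; group)
  have hτf : τ (π ⟨f, hf⟩) ≠ π ⟨f, hf⟩ → False := by
    intro hy
    by_cases hmr' : m = r
    · subst hmr'
      obtain ⟨e, he1, he2⟩ := exists_sq_zero hr hrE hτm hy
      obtain ⟨x, rfl⟩ := hπ e
      rw [hτ] at he1
      rw [hτ, ← hsub, hτ, ← sub_eq_zero, ← hsub, hker, hZ] at he2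
      rw [ne_eq, ← sub_eq_zero, ← hsub, hker, hZ] at he1
      have ha := (σ x * x⁻¹).2
      simp only [Subgroup.coe_mul, Subgroup.coe_inv, hσ] at he1 he2 ha
      have hx : (x : G) * g * (x : G)⁻¹ = g * (g⁻¹ * x * g * (x : G)⁻¹) := by group
      generalize g⁻¹ * x * g * (x : G)⁻¹ = a at *
      have hga : g * a = a * g := by
        by_contra h
        exact hcon (hz a (fun e => h (by
          rw [mul_inv_eq_one, mul_assoc, inv_mul_eq_iff_eq_mul] at e; exact e.symm)) he2)
      have har : a ^ m = 1 := by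
        have := congrArg (· ^ m) hx
        simp only [conj_pow, hgm, (show Commute g a from hga).mul_pow] at this
        simpa using this.symm
      obtain ⟨f', ω, hω, h0⟩ := htw a ha he1
      obtain ⟨h1, ζ, h2⟩ := hcomm x x.2 a ha
      have hζ : ζ ^ m = 1 := by
        by_cases e : ⁅(x : G), a⁆ = 1
        · have : Nontrivial V := by
            by_contra hc
            rw [not_nontrivial_iff_subsingleton] at hc
            exact hns ⟨1, fun v => Subsingleton.elim _ _⟩
          obtain ⟨v, hv⟩ := exists_ne (0 : V)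
          have : ζ = 1 := smul_left_injective F hv (by simp only [← h2, e, one_smul])
          rw [this, one_pow]
        · exact (scal_prim h2 e hr h1).pow_eq_one
      exact hcon (unip_bound hr (by omega) hω hζ har h0 (fun v => by
        rw [← h2, ← mul_smul, commutatorElement_def, inv_mul_cancel_right]) hx hga hc0)
    · refine hy (form_coprime (B := B) (fun e => ?_) (fun e he => ?_) hBτ hrE
        ((Nat.coprime_primes hr hm).mpr (Ne.symm hmr')) (hm.odd_of_ne_two hm2) hτm (fun e => ?_) _)
      · obtain ⟨x, rfl⟩ := hπ e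
        exact (hB x x).mpr (commutatorElement_self x)
      · obtain ⟨x, rfl⟩ := hπ e
        exact (hker x).mpr (Subgroup.mem_center_iff.mpr fun y =>
          (commutatorElement_eq_one_iff_mul_comm.mp ((hB x y).mp (he _))).symm)
      · obtain ⟨x, rfl⟩ := hπ e
        rw [hτ, ← hsub, hτ, hB]
        by_contra h
        apply hcon
        obtain ⟨-, d, hd⟩ := hcomm _ (σ x * x⁻¹).2 _ (σ (σ x * x⁻¹)).2
        have h3 := two_mul_le (F := F) (x : G) (eig F V g c) ⊥ fun v h1 h2 => by
          rw [mem_eig] at h1 h2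
          have e1 : ((σ x * x⁻¹ : N) : G) ∈ MulAction.stabilizer G v := by
            simp only [Subgroup.coe_mul, Subgroup.coe_inv, hσ, MulAction.mem_stabilizer_iff]
            rw [mul_smul, mul_smul, mul_smul, h2, smul_comm (x : G) c, smul_inv_smul, ← h1,
              inv_smul_smul]
          have e2 : ((σ (σ x * x⁻¹) : N) : G) ∈ MulAction.stabilizer G v := by
            rw [hσ, MulAction.mem_stabilizer_iff, mul_smul, mul_smul, h1, smul_comm _ c,
              MulAction.mem_stabilizer_iff.mp e1, ← h1, inv_smul_smul]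
          refine scal_eig hd (fun e => h (Subtype.ext e)) ?_
          exact Subgroup.mul_mem _ (Subgroup.mul_mem _ (Subgroup.mul_mem _ e1 e2)
            (Subgroup.inv_mem _ e1)) (Subgroup.inv_mem _ e2)
        rwa [finrank_bot, add_zero] at h3
  refine hτf fun e => hcon (hz f hne' ?_)
  rw [hτ, ← sub_eq_zero, ← hsub, hker, hZ] at e
  exact e

end main

end Cfsg.Agent.FG.PF
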