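import Mathlib
import Cfsg.Agent.Ch.Burnside

/-! Groups all of whose elements have order at most six: basic facts and 2-groups acted on by a
dihedral group of order ten. -/

set_option autoImplicit false

namespace Cfsg.Agent.FG.Sp6

open Subgroup

universe u

/-- All elements have order at most six. -/
def St (G : Type*) [Group G] : Prop := ∀ g : G, orderOf g ≤ 6

variable {G : Type u} [Group G]

namespace St

theorem of_injective (h : St G) {H : Type*} [Group H] (f : H →* G) (hf : Function.Injective f) :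
    St H := fun g => orderOf_injective f hf g ▸ h _

theorem sub (h : St G) (H : Subgroup G) : St H := h.of_injective H.subtype H.subtype_injective

theorem of_equiv (h : St G) {H : Type*} [Group H] (e : G ≃* H) : St H :=
  h.of_injective e.symm.toMonoidHom e.symm.injective

variable [Finite G] (h : St G)
include h

theorem of_surjective {H : Type*} [Group H] (f : G →* H) (hf : Function.Surjective f) : St H :=
  fun g => by
    obtain ⟨g, rfl⟩ := hf g
    exact (Nat.le_of_dvd (orderOf_pos g) (orderOf_map_dvd f g)).trans (h g)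

theorem quot (N : Subgroup G) [N.Normal] : St (G ⧸ N) :=
  h.of_surjective _ (QuotientGroup.mk'_surjective N)

theorem prime_le {p : ℕ} (hp : p.Prime) (hd : p ∣ Nat.card G) : p = 2 ∨ p = 3 ∨ p = 5 := by
  haveI := Fact.mk hp
  obtain ⟨g, hg⟩ := exists_prime_orderOf_dvd_card' p hd
  have h1 := h g
  have h2 := hp.two_le
  rw [hg] at h1
  interval_cases p <;> first | omega | exact absurd hp (by norm_num)

theorem mul_le {a b : G} (hc : Commute a b) (hab : (orderOf a).Coprime (orderOf b)) :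
    orderOf a * orderOf b ≤ 6 := hc.orderOf_mul_eq_mul_orderOf_of_coprime hab ▸ h _

theorem pow_four {g : G} {k : ℕ} (hk : g ^ 2 ^ k = 1) : g ^ 4 = 1 := by
  obtain ⟨j, -, hj⟩ := (Nat.dvd_prime_pow Nat.prime_two).1 (orderOf_dvd_of_pow_eq_one hk)
  have h1 := h g
  have h2 : j ≤ 2 := by
    by_contra h3
    have := Nat.pow_le_pow_right two_pos (show 3 ≤ j by omega)
    omega
  exact orderOf_dvd_iff_pow_eq_one.1 (hj ▸ pow_dvd_pow 2 h2)

theorem eq_five {g : G} (hg : 5 ∣ orderOf g) : orderOf g = 5 := by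
  have h1 := h g
  have h2 := orderOf_pos g
  omega

theorem pow_five {x g : G} (hx : orderOf x = 5) (hc : Commute x g) : g ^ 5 = 1 := by
  by_cases h1 : 5 ∣ orderOf g
  · rw [← h.eq_five h1, pow_orderOf_eq_one]
  · have h2 := h.mul_le hc (hx ▸ (Nat.Prime.coprime_iff_not_dvd Nat.prime_five).2 h1)
    have h3 := orderOf_pos g
    rw [hx] at h2
    rw [orderOf_eq_one_iff.1 (show orderOf g = 1 by omega), one_pow]

/-- An element of order five centralizes no nontrivial element of order prime to five. -/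
theorem eq_one {x g : G} (hx : orderOf x = 5) (hc : Commute x g) {n : ℕ} (hn : n.Coprime 5)
    (hg : g ^ n = 1) : g = 1 :=
  orderOf_eq_one_iff.1 (Nat.eq_one_of_dvd_coprimes hn (orderOf_dvd_of_pow_eq_one hg)
    (orderOf_dvd_of_pow_eq_one (h.pow_five hx hc)))

theorem isSolvable (h5 : ¬ 5 ∣ Nat.card G) : Group.IsSolvable G :=
  Ch.burnside_isSolvable_of_primes (p := 2) Nat.prime_three fun r hr hd => by
    rcases h.prime_le hr hd with h1 | h1 | rfl
    · exact Or.inl h1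
    · exact Or.inr h1
    · exact absurd hd h5

theorem exists_five (hs : ¬ Group.IsSolvable G) : ∃ x : G, orderOf x = 5 :=
  haveI := Fact.mk Nat.prime_five
  exists_prime_orderOf_dvd_card' 5 (by_contra fun h5 => hs (h.isSolvable h5))

/-- An element of order three centralizes no element of order four. -/
theorem sq_of_three {x g : G} (hx : orderOf x = 3) (hc : Commute x g) {k : ℕ}
    (hk : g ^ 2 ^ k = 1) : g * g = 1 := by
  have h1 := orderOf_dvd_of_pow_eq_one (h.pow_four hk)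
  have h2 := h.mul_le hc (hx ▸ (Nat.Coprime.coprime_dvd_right h1 (by norm_num)))
  have h3 := orderOf_pos g
  rw [← sq, ← orderOf_dvd_iff_pow_eq_one]
  rw [hx] at h2
  have h4 : orderOf g ≤ 2 := by omega
  interval_cases orderOf g <;> norm_num

end St

theorem commute_of_sq {Q : Subgroup G} (h : ∀ a ∈ Q, a * a = 1) {a b : G} (ha : a ∈ Q)
    (hb : b ∈ Q) : Commute a b := by
  have h1 := h _ (mul_mem ha hb)
  rw [mul_eq_one_iff_eq_inv, mul_inv_rev, inv_eq_of_mul_eq_one_right (h a ha),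
    inv_eq_of_mul_eq_one_right (h b hb)] at h1
  exact h1

/-- A dihedral group of order ten acting on an elementary abelian 2-group. -/
structure D10 {V : Type*} [CommGroup V] (τ ξ : V →* V) : Prop where
  sq : ∀ v : V, v * v = 1
  tt : ∀ v, τ (τ v) = v
  five : ∀ v, ξ (ξ (ξ (ξ (ξ v)))) = v
  rel : ∀ v, ξ (τ (ξ v)) = τ v
  fpf : ∀ v, ξ v = v → v = 1

namespace D10

variable {V : Type*} [CommGroup V] {τ ξ : V →* V} (h : D10 τ ξ)
include h

theorem norm (v : V) : v = ξ v * ξ (ξ v) * (ξ (ξ (ξ v)) * ξ (ξ (ξ (ξ v)))) := by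
  have h1 : v * (ξ v * ξ (ξ v) * (ξ (ξ (ξ v)) * ξ (ξ (ξ (ξ v))))) = 1 := h.fpf _ (by
    simp only [map_mul, h.five]
    ac_rfl)
  rw [mul_eq_one_iff_eq_inv, ← mul_eq_one_iff_eq_inv, ← h.sq v] at h1
  exact (mul_left_cancel h1).symm

theorem free {u : V} (hu : τ u = u) : ∃ w, u = τ w * w := by
  have h1 : ∀ v, τ (ξ v) = ξ (ξ (ξ (ξ (τ v)))) := fun v => by rw [← h.rel v, h.five]
  refine ⟨ξ u * ξ (ξ u), ?_⟩
  rw [map_mul, h1, h1, h1, hu, h.five]
  conv_lhs => rw [h.norm u]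
  ac_rfl

theorem split (u : V) : ∃ a b, τ a = a ∧ τ (ξ b) = b ∧ u = a * b := by
  have h1 : ∀ v, τ (τ v * v) = τ v * v := fun v => by rw [map_mul, h.tt, mul_comm]
  set v := ξ (τ u) * ξ (ξ (ξ (τ u))) with hv
  refine ⟨τ v * v, τ (ξ v) * v, h1 v, by rw [map_mul, map_mul, h.rel, h.tt, mul_comm], ?_⟩
  have h2 : v * ξ v = τ u := by
    conv_rhs => rw [h.norm (τ u)]
    rw [hv, map_mul]
    ac_rfl
  calc u = τ (v * ξ v) * (v * v) := by rw [h2, h.tt, h.sq, mul_one]
    _ = _ := by rw [map_mul]; ac_rfl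

end D10

/-- `t` and `x` induce a dihedral group of order ten on the elementary abelian 2-group `Q`. -/
structure Fr (Q : Subgroup G) (t x : G) : Prop where
  sq : ∀ a ∈ Q, a * a = 1
  nt : t ∈ normalizer (Q : Set G)
  nx : x ∈ normalizer (Q : Set G)
  tt : t * t ∈ Q
  rel : x * t * x * t⁻¹ ∈ Q
  five : x ^ 5 = 1
  fpf : ∀ a ∈ Q, Commute x a → a = 1

/-- Conjugation on `Q`. -/
def cjQ (Q : Subgroup G) {g : G} (hg : g ∈ normalizer (Q : Set G)) : Q →* Q :=
  (Q.normalizerMonoidHom ⟨g, hg⟩).toMonoidHom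

theorem coe_cjQ {Q : Subgroup G} {g : G} (hg : g ∈ normalizer (Q : Set G)) (a : Q) :
    (cjQ Q hg a : G) = g * a * g⁻¹ := rfl

namespace Fr

variable {Q : Subgroup G} {t x : G} (h : Fr Q t x)
include h

theorem conj_eq {a b : G} (ha : a ∈ Q) (hb : b ∈ Q) : a * b * a⁻¹ = b := by
  rw [(commute_of_sq h.sq ha hb).eq, mul_inv_cancel_right]

/-- The commutative group structure on `Q`. -/
abbrev cg : CommGroup Q :=
  { (inferInstance : Group Q) with
    mul_comm := fun a b => Subtype.ext (commute_of_sq h.sq a.2 b.2).eq }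

theorem d10 : @D10 Q h.cg (cjQ Q h.nt) (cjQ Q h.nx) := by
  letI := h.cg
  refine ⟨fun v => Subtype.ext (h.sq v v.2), fun v => Subtype.ext ?_, fun v => Subtype.ext ?_,
    fun v => Subtype.ext ?_, fun v hv => Subtype.ext (h.fpf v v.2 ?_)⟩
  · simp only [coe_cjQ]
    conv_rhs => rw [← h.conj_eq h.tt v.2]
    group
  · simp only [coe_cjQ]
    calc _ = x ^ 5 * v * (x ^ 5)⁻¹ := by simp [pow_succ, mul_assoc]
      _ = _ := by rw [h.five]; simp
  · simp only [coe_cjQ]
    conv_rhs => rw [← h.conj_eq h.rel ((mem_normalizer_iff.1 h.nt v).1 v.2)]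
    group
  · exact mul_inv_eq_iff_eq_mul.1 (congrArg Subtype.val hv)

theorem free {u : G} (hu : u ∈ Q) (hc : Commute t u) : ∃ w ∈ Q, u = t * w * t⁻¹ * w := by
  letI := h.cg
  obtain ⟨w, hw⟩ := h.d10.free (u := ⟨u, hu⟩) (Subtype.ext (mul_inv_eq_iff_eq_mul.2 hc.eq))
  exact ⟨w, w.2, congrArg Subtype.val hw⟩

theorem split {u : G} (hu : u ∈ Q) :
    ∃ a ∈ Q, ∃ b ∈ Q, Commute t a ∧ Commute (t * x) b ∧ u = a * b := by
  letI := h.cg
  obtain ⟨a, b, h1, h2, h3⟩ := h.d10.split ⟨u, hu⟩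
  refine ⟨a, a.2, b, b.2, mul_inv_eq_iff_eq_mul.1 (congrArg Subtype.val h1), ?_,
    congrArg Subtype.val h3⟩
  have h4 : t * (x * b * x⁻¹) * t⁻¹ = b := congrArg Subtype.val h2
  rw [Commute, SemiconjBy]
  conv_rhs => rw [← h4]
  group

theorem commute_conj_mul {w : G} (hw : w ∈ Q) : Commute t (t * w * t⁻¹ * w) := by
  have h1 := h.conj_eq h.tt hw
  have h2 := (commute_of_sq h.sq hw ((mem_normalizer_iff.1 h.nt w).1 hw)).eq
  rw [Commute, SemiconjBy, ← h2]
  conv_rhs => rw [← h1]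
  rw [h2]
  calc _ = t * t * w * (t * t)⁻¹ * (t * w * t⁻¹) * t := by group
    _ = _ := by rw [h1, h2]

theorem card_sq [Finite G] :
    Nat.card ↥(Q ⊓ centralizer {t}) * Nat.card ↥(Q ⊓ centralizer {t}) = Nat.card Q := by
  letI := h.cg
  let f : Q →* Q := cjQ Q h.nt * MonoidHom.id Q
  have h1 : f.ker = (centralizer {t}).subgroupOf Q := by
    ext w
    rw [MonoidHom.mem_ker, mem_subgroupOf, mem_centralizer_singleton_iff, Subtype.ext_iff]
    show t * w * t⁻¹ * w = 1 ↔ _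
    rw [mul_eq_one_iff_eq_inv, inv_eq_of_mul_eq_one_right (h.sq w w.2), mul_inv_eq_iff_eq_mul,
      eq_comm]
  have h2 : f.range = (centralizer {t}).subgroupOf Q := by
    ext u
    rw [mem_subgroupOf, mem_centralizer_singleton_iff]
    refine ⟨?_, fun hu => ?_⟩
    · rintro ⟨w, rfl⟩
      exact (h.commute_conj_mul w.2).eq.symm
    · obtain ⟨w, hw, e⟩ := h.free u.2 hu.symm
      exact ⟨⟨w, hw⟩, Subtype.ext e.symm⟩
  have h3 := f.ker.card_mul_index
  rw [index_ker, h1, h2, ← inf_subgroupOf_left,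
    Nat.card_congr (subgroupOfEquivOfLe inf_le_left).toEquiv] at h3
  exact h3

end Fr

theorem St.fr [Finite G] (h : St G) {Q : Subgroup G} (hQ : ∀ a ∈ Q, a * a = 1) {t x : G}
    (ht : t ∈ normalizer (Q : Set G)) (hx : x ∈ normalizer (Q : Set G)) (htt : t * t ∈ Q)
    (hr : x * t * x * t⁻¹ ∈ Q) (ho : orderOf x = 5) : Fr Q t x :=
  ⟨hQ, ht, hx, htt, hr, ho ▸ pow_orderOf_eq_one x, fun a ha hc =>
    h.eq_one ho hc (n := 2) (by norm_num) (by rw [sq, hQ a ha])⟩

/-- The involutions in the centre of a normal subgroup. -/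
def om (Q : Subgroup G) : Subgroup G where
  carrier := {z | z ∈ Q ⊓ centralizer (Q : Set G) ∧ z * z = 1}
  one_mem' := ⟨one_mem _, mul_one 1⟩
  mul_mem' := fun {a b} ha hb => ⟨mul_mem ha.1 hb.1, by
    rw [mul_assoc, ← mul_assoc b, ha.1.2 b hb.1.1, mul_assoc, hb.2, mul_one, ha.2]⟩
  inv_mem' := fun {a} ha => ⟨inv_mem ha.1, by rw [← mul_inv_rev, ha.2, inv_one]⟩

instance (Q : Subgroup G) [Q.Normal] : (om Q).Normal :=
  ⟨fun z hz g => ⟨Normal.conj_mem inferInstance z hz.1 g, by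
    rw [conj_mul, hz.2, mul_one, mul_inv_cancel]⟩⟩

theorem om_ne_bot [Finite G] {Q : Subgroup G} (hQ : IsPGroup 2 Q) (h1 : Q ≠ ⊥) : om Q ≠ ⊥ := by
  haveI := (nontrivial_iff_ne_bot Q).2 h1
  haveI := hQ.center_nontrivial
  obtain ⟨k, hk, hc⟩ := (hQ.to_subgroup (center Q)).nontrivial_iff_card.1 inferInstance
  obtain ⟨z, hz⟩ := exists_prime_orderOf_dvd_card' (G := center Q) 2 (hc ▸ dvd_pow_self 2 hk.ne')
  have h2 : orderOf ((z : Q) : G) = 2 := by rw [orderOf_coe, orderOf_coe, hz]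
  intro e
  have h3 : ((z : Q) : G) ∈ om Q := ⟨⟨(z : Q).2, fun g hg =>
    congrArg Subtype.val (mem_center_iff.1 z.2 ⟨g, hg⟩)⟩, by rw [← sq, ← h2, pow_orderOf_eq_one]⟩
  rw [e, mem_bot] at h3
  simp [h3] at h2

/-- A normal 2-subgroup with a dihedral group of order ten above it is elementary abelian. -/
theorem St.sq_eq_one : ∀ (n : ℕ) (G : Type u) [Group G] [Finite G], Nat.card G = n → St G →
    ∀ (Q : Subgroup G) [Q.Normal], IsPGroup 2 Q → ∀ t x : G, t * t ∈ Q → x * t * x * t⁻¹ ∈ Q →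
      orderOf x = 5 → ∀ u ∈ Q, u * u = 1 := by
  intro n
  induction n using Nat.strong_induction_on with | _ n ih => ?_
  intro G _ _ hn h Q hQn hQ t x ht hr hx
  by_cases h0 : Q = ⊥
  · intro u hu
    simp [h0] at hu
    simp [hu]
  set π := QuotientGroup.mk' (om Q) with hπ
  have hk : ∀ {g}, π g = 1 ↔ g ∈ om Q := QuotientGroup.eq_one_iff _
  haveI : (Q.map π).Normal := hQn.map π (QuotientGroup.mk'_surjective _)
  have hx' : orderOf (π x) = 5 := by
    haveI := Fact.mk Nat.prime_five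
    refine orderOf_eq_prime (by rw [← map_pow, ← hx, pow_orderOf_eq_one, map_one]) fun e => ?_
    have := h.eq_one hx (Commute.refl x) (n := 2) (by norm_num) (by rw [sq, (hk.1 e).2])
    simp [this] at hx
  have hlt : Nat.card (G ⧸ om Q) < n := by
    rw [← hn, card_eq_card_quotient_mul_card_subgroup (om Q)]
    exact lt_mul_of_one_lt_right Nat.card_pos (one_lt_card_iff_ne_bot _ |>.2 (om_ne_bot hQ h0))
  have hb := ih _ hlt (G ⧸ om Q) rfl (h.quot _) (Q.map π) (hQ.map π) (π t) (π x)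
    ⟨_, ht, by simp⟩ ⟨_, hr, by simp⟩ hx'
  have fr : ∀ s : G, s * s ∈ Q → x * s * x * s⁻¹ ∈ Q → Fr (Q.map π) (π s) (π x) := fun s h1 h2 =>
    (h.quot _).fr hb ((normalizer_eq_top _).ge (mem_top _)) ((normalizer_eq_top _).ge (mem_top _))
      ⟨_, h1, by simp⟩ ⟨_, h2, by simp⟩ hx'
  have c1 : ∀ s : G, s * s ∈ Q → x * s * x * s⁻¹ ∈ Q → ∀ q ∈ Q, Commute (π s) (π q) →
      q * q = 1 := by
    intro s h1 h2 q hq hc
    obtain ⟨_, ⟨w, hw, rfl⟩, e⟩ := (fr s h1 h2).free
      (mem_map_of_mem π (mul_mem hq (inv_mem h1)))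
      (by simpa using hc.mul_right ((Commute.refl _).mul_right (Commute.refl _)).inv_right)
    have h3 : s * w * (s * w) ∈ Q := by
      rw [show s * w * (s * w) = s * w * s⁻¹ * (s * s) * w by group]
      exact mul_mem (mul_mem (hQn.conj_mem w hw s) h1) hw
    have h4 : (s * w * (s * w))⁻¹ * q ∈ om Q := by
      rw [← hk, map_mul, map_inv, inv_mul_eq_one]
      have h5 := (commute_of_sq hb (mem_map_of_mem π h1) (mem_map_of_mem π hw)).eq
      rw [map_mul, map_inv, mul_inv_eq_iff_eq_mul] at e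
      rw [e, mul_assoc _ (π w), ← h5]
      simp only [map_mul]
      group
    obtain ⟨k, hk⟩ := hQ ⟨_, h3⟩
    have h5 : (s * w) ^ 4 = 1 := h.pow_four (k := k + 1)
      (by rw [pow_succ', pow_mul, sq]; exact congrArg Subtype.val hk)
    have h6 := h4.1.2 _ h3
    have h7 := h4.2
    generalize hm : (s * w * (s * w))⁻¹ * q = m at h6 h7
    rw [inv_mul_eq_iff_eq_mul] at hm
    calc q * q = s * w * (s * w) * (m * (s * w * (s * w))) * m := by rw [hm]; group
      _ = (s * w) ^ 4 * (m * m) := by rw [← h6]; simp [pow_succ, mul_assoc]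
      _ = 1 := by rw [h5, h7, mul_one]
  have c2 : ∀ s : G, s * s ∈ Q → x * s * x * s⁻¹ ∈ Q → ∀ a ∈ Q, Commute (π s) (π a) → ∀ u ∈ Q,
      s * (a * u * a⁻¹ * u⁻¹) * s⁻¹ = a * u * a⁻¹ * u⁻¹ := by
    intro s h1 h2 a ha hc u hu
    have h3 : a⁻¹ * (s * a * s⁻¹) ∈ om Q := by
      rw [← hk]
      simp [hc.eq]
    have h4 : u⁻¹ * (s * u * s⁻¹) ∈ Q := mul_mem (inv_mem hu) (hQn.conj_mem u hu s)
    have h5 : Commute (π s) (π (u⁻¹ * (s * u * s⁻¹))) := by
      have h6 := (fr s h1 h2).commute_conj_mul (mem_map_of_mem π hu)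
      rw [(commute_of_sq hb (mem_map_of_mem π (hQn.conj_mem u hu s)) (mem_map_of_mem π hu)).eq.trans
        (show _ = π (u⁻¹ * (s * u * s⁻¹)) by
          rw [map_mul π u⁻¹, map_inv, inv_eq_of_mul_eq_one_right (hb _ (mem_map_of_mem π hu))])
        |>.symm]
      simpa using h6
    have h6 : Commute a (u⁻¹ * (s * u * s⁻¹)) :=
      commute_of_sq (Q := Q ⊓ (centralizer {π s}).comap π)
        (fun q hq => c1 s h1 h2 q hq.1 (mem_centralizer_singleton_iff.1 hq.2).symm)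
        ⟨ha, mem_centralizer_singleton_iff.2 hc.eq.symm⟩
        ⟨h4, mem_centralizer_singleton_iff.2 h5.eq.symm⟩
    have h7 := h3.1.2 _ (hQn.conj_mem u hu s)
    generalize hm : a⁻¹ * (s * a * s⁻¹) = m at h7
    generalize hv : u⁻¹ * (s * u * s⁻¹) = v at h6
    have h8 : s * u * s⁻¹ = u * v := by rw [← hv]; group
    calc _ = a * (a⁻¹ * (s * a * s⁻¹) * (s * u * s⁻¹)) * (a⁻¹ * (s * a * s⁻¹))⁻¹ * a⁻¹ *
          (s * u * s⁻¹)⁻¹ := by group
      _ = a * u * (v * a⁻¹) * v⁻¹ * u⁻¹ := by rw [hm, ← h7, h8]; group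
      _ = _ := by rw [← h6.inv_left.eq]; group
  have h1 : t * x * (t * x) ∈ Q := by
    rw [show t * x * (t * x) = t * (x * t * x * t⁻¹) * t⁻¹ * (t * t) by group]
    exact mul_mem (hQn.conj_mem _ hr t) ht
  have h2 : x * (t * x) * x * (t * x)⁻¹ ∈ Q := by
    rwa [show x * (t * x) * x * (t * x)⁻¹ = x * t * x * t⁻¹ by group]
  intro u hu
  obtain ⟨a', -, _, ⟨b, hb', rfl⟩, ha, hc, e⟩ := (fr t ht hr).split (mem_map_of_mem π hu)
  have h3 : a' = π (u * b⁻¹) := by rw [map_mul, e]; simp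
  rw [h3] at ha
  rw [← map_mul] at hc
  have h4 := mul_mem hu (inv_mem hb')
  generalize hab : u * b⁻¹ = a at ha h4
  have h5 := c2 t ht hr a h4 ha b hb'
  have h6 := congrArg (·⁻¹) (c2 _ h1 h2 b hb' hc a h4)
  have h7 : a * b * a⁻¹ * b⁻¹ = 1 := by
    obtain ⟨k, hk⟩ := hQ ⟨_, mul_mem (mul_mem (mul_mem h4 hb') (inv_mem h4)) (inv_mem hb')⟩
    refine h.eq_one hx ?_ (n := 2 ^ k) (Nat.Coprime.pow_left k (by norm_num))
      (congrArg Subtype.val hk)
    rw [Commute, SemiconjBy, ← mul_inv_eq_iff_eq_mul, ← mul_left_cancel_iff (a := t),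
      ← mul_right_cancel_iff (a := t⁻¹), h5]
    simpa [mul_assoc] using h6
  rw [mul_inv_eq_one, mul_inv_eq_iff_eq_mul] at h7
  rw [mul_inv_eq_iff_eq_mul] at hab
  rw [hab, mul_assoc, ← mul_assoc b, ← h7, mul_assoc, c1 _ h1 h2 b hb' hc, mul_one,
    c1 t ht hr a h4 ha]

end Cfsg.Agent.FG.Sp6
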