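import Mathlib
import Cfsg.Agent.FG.Sp6A
import Cfsg.Agent.FT.BG1_6
import Cfsg.Agent.GT.Fitting
import Cfsg.Agent.GT.PGroupChain

/-! Solvable groups of characteristic two containing a large elementary abelian subgroup. -/

set_option autoImplicit false

namespace Cfsg.Agent.FG.Sp6

open Subgroup
open scoped commutatorElement

universe u

variable {G : Type u} [Group G]

/-- The elements normalizing `A` and acting trivially on `B` modulo `A`. -/
def ss (B A : Subgroup G) : Subgroup G where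
  carrier := {g | g ∈ normalizer (A : Set G) ∧ ∀ b ∈ B, ⁅g, b⁆ ∈ A}
  one_mem' := ⟨one_mem _, fun b _ => by simp⟩
  mul_mem' := fun {g k} hg hk => ⟨mul_mem hg.1 hk.1, fun b hb => by
    rw [show ⁅g * k, b⁆ = g * ⁅k, b⁆ * g⁻¹ * ⁅g, b⁆ by simp only [commutatorElement_def]; group]
    exact mul_mem ((mem_normalizer_iff.1 hg.1 _).1 (hk.2 b hb)) (hg.2 b hb)⟩
  inv_mem' := fun {g} hg => ⟨inv_mem hg.1, fun b hb => by
    rw [show ⁅g⁻¹, b⁆ = g⁻¹ * ⁅g, b⁆⁻¹ * g⁻¹⁻¹ by simp only [commutatorElement_def]; group]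
    exact (mem_normalizer_iff.1 (inv_mem hg.1) _).1 (inv_mem (hg.2 b hb))⟩

theorem conj_mem_ss {A B : Subgroup G} {n g : G} (hA : n ∈ normalizer (A : Set G))
    (hB : n ∈ normalizer (B : Set G)) (hg : g ∈ ss B A) : n * g * n⁻¹ ∈ ss B A :=
  ⟨mul_mem (mul_mem hA hg.1) (inv_mem hA), fun b hb => by
    rw [show ⁅n * g * n⁻¹, b⁆ = n * ⁅g, n⁻¹ * b * n⁻¹⁻¹⁆ * n⁻¹ by
      simp only [commutatorElement_def]; group]
    exact (mem_normalizer_iff.1 hA _).1 (hg.2 _ ((mem_normalizer_iff.1 (inv_mem hB) b).1 hb))⟩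

theorem mem_norm (N : Subgroup G) [N.Normal] (g : G) : g ∈ normalizer (N : Set G) :=
  (normalizer_eq_top N).ge (mem_top g)

instance (A B : Subgroup G) [A.Normal] [B.Normal] : (ss B A).Normal :=
  ⟨fun _ hg n => conj_mem_ss (mem_norm A n) (mem_norm B n) hg⟩

theorem inv_mul_mem_of_relIndex {Q A : Subgroup G} (h : Q.relIndex A ∣ 2) {a b : G} (ha : a ∈ A)
    (hb : b ∈ A) (h1 : a ∉ Q) (h2 : b ∉ Q) : a⁻¹ * b ∈ Q := by
  rcases (Nat.dvd_prime Nat.prime_two).1 h with h | h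
  · exact absurd (relIndex_eq_one.1 h ha) h1
  · have := (mul_mem_iff_of_index_two h (a := (⟨a, ha⟩ : A)⁻¹) (b := ⟨b, hb⟩)).2
      (by simp [mem_subgroupOf, h1, h2])
    exact this

variable [Finite G]

theorem isPGroup_of_odd {D : Subgroup G} (h : ∀ g ∈ D, Odd (orderOf g) → g = 1) :
    IsPGroup 2 D := fun g => by
  obtain ⟨k, m, hm, e⟩ := Nat.exists_eq_two_pow_mul_odd (orderOf_pos (g : G)).ne'
  refine ⟨k, Subtype.ext (h _ (g ^ 2 ^ k).2 (hm.of_dvd_nat (orderOf_dvd_of_pow_eq_one ?_)))⟩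
  rw [coe_pow, ← pow_mul, ← e, pow_orderOf_eq_one]

theorem isPGroup_ss (hc : centralizer (pCore 2 G : Set G) ≤ pCore 2 G) {A B : Subgroup G}
    (hA : A ≤ pCore 2 G) (hB : B ≤ pCore 2 G) {D : Subgroup G} (h1 : D ≤ ss (pCore 2 G) A)
    (h2 : D ≤ ss A B) (h3 : D ≤ centralizer (B : Set G)) : IsPGroup 2 D := by
  refine isPGroup_of_odd fun g hg ho => ?_
  have hY := GT.isPGroup_pCore (G := G) 2
  have cop : ∀ K ≤ pCore 2 G, (Nat.card K).Coprime (Nat.card (zpowers g)) := fun K hK => by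
    obtain ⟨k, hk⟩ := (hY.to_le hK).exists_card_eq
    rw [hk, Nat.card_zpowers]
    exact (Nat.coprime_two_left.2 ho).pow_left k
  have key : ∀ {K L : Subgroup G}, D ≤ ss K L → ⁅K, zpowers g⁆ ≤ L := fun h => by
    rw [commutator_comm, commutator_le]
    exact fun x hx => (h (zpowers_le.2 hg hx)).2
  have h4 := FT.stable_factor_cent (FT.stable_factor_cent ((zpowers_le.2 hg).trans h3) (key h2)
    (cop B hB)) (key h1) (cop A hA)
  have h5 := (cop _ le_rfl).symm.eq_one_of_dvd (card_dvd_of_le (h4.trans hc))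
  rwa [Nat.card_zpowers, orderOf_eq_one_iff] at h5

/-- The local configuration. -/
structure Lc (Q : Subgroup G) (m : ℕ) : Prop where
  st : St G
  solv : Group.IsSolvable G
  char : centralizer (pCore 2 G : Set G) ≤ pCore 2 G
  sq : ∀ a ∈ Q, a * a = 1
  norm : pCore 2 G ≤ normalizer (Q : Set G)
  sqY : ∀ y ∈ pCore 2 G, y * y ∈ Q
  free : ∀ y ∈ pCore 2 G, y ∉ Q → ∀ u ∈ Q, Commute y u → ∃ w ∈ Q, u = y * w * y⁻¹ * w
  card : ∀ y ∈ pCore 2 G, y ∉ Q → Nat.card ↥(Q ⊓ centralizer {y}) = m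
  cardQ : Nat.card Q = m * m
  four : 4 ≤ m
  idx : Q.relIndex (pCore 2 G) ∣ 4
  nle : ¬ Q ≤ pCore 2 G

/-- The centre of `O₂(G)`. -/
abbrev ZY (G : Type u) [Group G] : Subgroup G := pCore 2 G ⊓ centralizer (pCore 2 G : Set G)

namespace Lc

variable {Q : Subgroup G} {m : ℕ} (h : Lc Q m)
include h

theorem comm {a b : G} (ha : a ∈ Q) (hb : b ∈ Q) : Commute a b := commute_of_sq h.sq ha hb

theorem br_eq {y w : G} (hw : w ∈ Q) : ⁅y, w⁆ = y * w * y⁻¹ * w := by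
  rw [commutatorElement_def, inv_eq_of_mul_eq_one_right (h.sq w hw)]

theorem br_mem {y w : G} (hy : y ∈ pCore 2 G) (hw : w ∈ Q) : ⁅w, y⁆ ∈ pCore 2 G ⊓ Q := by
  refine mem_inf.2 ⟨?_, ?_⟩
  · exact mul_mem (Normal.conj_mem inferInstance y hy w) (inv_mem hy)
  · rw [← commutatorElement_inv]
    exact inv_mem (mul_mem ((mem_normalizer_iff.1 (h.norm hy) w).1 hw) (inv_mem hw))

theorem br_comm {y w : G} (hy : y ∈ pCore 2 G) (hw : w ∈ Q) : Commute y ⁅w, y⁆ := by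
  have h1 := (h.comm (h.sqY y hy) hw).eq
  have h2 := (h.comm hw ((mem_normalizer_iff.1 (h.norm hy) w).1 hw)).eq
  rw [← commutatorElement_inv, h.br_eq hw]
  refine Commute.inv_right ?_
  calc y * (y * w * y⁻¹ * w) = y * y * w * (y * y)⁻¹ * (y * w * y⁻¹) * y := by group
    _ = _ := by rw [h1, mul_inv_cancel_right, h2]

theorem cent_le {y : G} (hy : y ∈ pCore 2 G) (hQ : y ∉ Q) : Q ⊓ centralizer {y} ≤ pCore 2 G := by
  intro u hu
  obtain ⟨w, hw, rfl⟩ := h.free y hy hQ u hu.1 (mem_centralizer_singleton_iff.1 hu.2).symm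
  rw [← h.br_eq hw, ← commutatorElement_inv]
  exact inv_mem (h.br_mem hy hw).1

theorem le_ss {A : Subgroup G} [A.Normal] (hA : pCore 2 G ⊓ Q ≤ A) : Q ≤ ss (pCore 2 G) A :=
  fun q hq => ⟨mem_norm A q, fun _ hb => hA (h.br_mem hb hq)⟩

theorem le_cent {A : Subgroup G} (hA : A ≤ Q) : Q ≤ centralizer (A : Set G) :=
  fun _ hq _ ha => (h.comm (hA ha) hq).eq

theorem chain {A B : Subgroup G} [A.Normal] [B.Normal] (hA : A ≤ pCore 2 G) (hB : B ≤ pCore 2 G)
    (h1 : Q ≤ ss (pCore 2 G) A) (h2 : Q ≤ ss A B) (h3 : B ≤ Q) : False :=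
  h.nle ((le_inf (le_inf h1 h2) (h.le_cent h3)).trans (GT.le_pCore (isPGroup_ss h.char hA hB
    (inf_le_left.trans inf_le_left) (inf_le_left.trans inf_le_right) inf_le_right)))

theorem chain₂ {A : Subgroup G} [A.Normal] (hA : A ≤ pCore 2 G) (h1 : Q ≤ ss (pCore 2 G) A)
    (h2 : A ≤ Q) : False :=
  h.chain hA hA h1 (fun q _ => ⟨mem_norm A q, fun b hb =>
    mul_mem (Normal.conj_mem inferInstance b hb q) (inv_mem hb)⟩) h2

theorem le_ZY {y : G} (hy : y ∈ pCore 2 G) (hQ : y ∉ Q)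
    (hc : pCore 2 G ⊓ Q ≤ centralizer {y}) : pCore 2 G ⊓ Q ≤ ZY G ∧
      Nat.card ↥(pCore 2 G ⊓ Q) = m := by
  have h1 : Nat.card ↥(pCore 2 G ⊓ Q) = m := by
    rw [← h.card y hy hQ, le_antisymm (le_inf inf_le_right hc)
      (le_inf (h.cent_le hy hQ) inf_le_left)]
  refine ⟨fun q hq => ⟨hq.1, fun z hz => ?_⟩, h1⟩
  by_cases hz' : z ∈ Q
  · exact (h.comm hz' hq.2).eq
  · have h2 := eq_of_le_of_card_ge (le_inf (h.cent_le hz hz') inf_le_left)
      (by rw [h1, h.card z hz hz'])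
    exact (mem_centralizer_singleton_iff.1 (h2.ge hq).2).symm

theorem ZY_le : ZY G ≤ Q := by
  by_contra hn
  obtain ⟨z, hz, hzQ⟩ := SetLike.not_le_iff_exists.1 hn
  obtain ⟨h1, h2⟩ := h.le_ZY hz.1 hzQ fun q hq => mem_centralizer_singleton_iff.2 (hz.2 q hq.1)
  haveI := h.solv
  set π := QuotientGroup.mk' (pCore 2 G) with hπ
  have hk : ∀ {g}, π g = 1 ↔ g ∈ pCore 2 G := QuotientGroup.eq_one_iff _
  have hodd : ∀ K : Subgroup (G ⧸ pCore 2 G), IsPGroup 2 K →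
      K ⊓ fittingSubgroup (G ⧸ pCore 2 G) = ⊥ := fun K hK => le_bot_iff.1
    ((GT.le_pCore_of_le_fitting (hK.to_le inf_le_left) inf_le_right).trans
      GT.pCore_quotient_pCore.le)
  have hQ : IsPGroup 2 Q := fun a => ⟨1, Subtype.ext (by simpa [pow_two] using h.sq a a.2)⟩
  have h3 : fittingSubgroup (G ⧸ pCore 2 G) ≤
      (normalizer ((pCore 2 G ⊓ Q : Subgroup G) : Set G)).map π := by
    refine FT.coprime_abelian_gen_cent1 (A := Q.map π) ⟨⟨?_⟩⟩ (fun hc => ?_)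
      (fun g _ => mem_norm _ g) ?_ ?_
    · rintro ⟨_, a, ha, rfl⟩ ⟨_, b, hb, rfl⟩
      exact Subtype.ext ((h.comm ha hb).map π).eq
    · have h4 : Monoid.exponent (Q.map π) ∣ 2 := Monoid.exponent_dvd_of_forall_pow_eq_one (by
        rintro ⟨_, a, ha, rfl⟩
        exact Subtype.ext (by simp [pow_two, ← map_mul, h.sq a ha]))
      rw [IsCyclic.exponent_eq_card, ← relIndex_ker, QuotientGroup.ker_mk'] at h4
      have h5 := FT.card_mul_relIndex (pCore 2 G) Q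
      have h6 := Nat.le_of_dvd two_pos h4
      have h7 := h.four
      rw [h2, h.cardQ] at h5
      nlinarith
    · obtain ⟨k, hk⟩ := (hQ.map π).exists_card_eq
      rw [hk]
      refine Nat.Coprime.pow_right k (Nat.coprime_two_right.2 (Nat.not_even_iff_odd.1 fun e => ?_))
      obtain ⟨g, hg⟩ := exists_prime_orderOf_dvd_card' 2 e.two_dvd
      have h4 := hodd (zpowers (g : G ⧸ pCore 2 G))
        (IsPGroup.of_card (n := 1) (by rw [Nat.card_zpowers, orderOf_coe, hg, pow_one]))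
      have h5 := h4.le ⟨mem_zpowers _, g.2⟩
      rw [mem_bot, OneMemClass.coe_eq_one] at h5
      simp [h5] at hg
    · rintro _ ⟨q, hq, rfl⟩ hq1 n ⟨-, hn⟩
      obtain ⟨n, rfl⟩ := QuotientGroup.mk'_surjective _ n
      refine mem_map_of_mem _ (mem_normalizer_fintype fun u hu => ?_)
      have h4 : n * u * n⁻¹ ∈ ZY G := Normal.conj_mem inferInstance u (h1 hu) n
      refine ⟨h4.1, by_contra fun h5 => hq1 (hk.2 (h.cent_le h4.1 h5 ⟨hq, ?_⟩))⟩
      have h6 : q⁻¹ * (n * q * n⁻¹) ∈ pCore 2 G := by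
        have h7 : π n * π q = π q * π n := mem_centralizer_singleton_iff.1 hn
        rw [← hk]
        simp [h7]
      have h7 : Commute (q⁻¹ * (n * q * n⁻¹)) (n * u * n⁻¹) := h4.2 _ h6
      have h8 : Commute (n * q * n⁻¹) (n * u * n⁻¹) := by
        simpa using (h.comm hq hu.2).map (MulAut.conj n)
      exact mem_centralizer_singleton_iff.2 (by simpa [mul_assoc] using (h8.mul_left h7.inv_left).eq)
  have h4 : IsPGroup 2 ↥(ss (pCore 2 G) (pCore 2 G ⊓ Q) ⊓ centralizer ↑(pCore 2 G ⊓ Q)) :=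
    isPGroup_ss h.char inf_le_left inf_le_left inf_le_left (fun g hg => ⟨hg.1.1, fun b hb => by
      rw [commutatorElement_eq_one_iff_mul_comm.2 (hg.2 b hb).symm]; exact one_mem _⟩) inf_le_right
  have h5 : ∀ q ∈ Q, q ∈ ss (pCore 2 G) (pCore 2 G ⊓ Q) ⊓ centralizer ↑(pCore 2 G ⊓ Q) :=
    fun q hq => ⟨⟨centralizer_le_normalizer _ (h.le_cent inf_le_right hq),
      fun _ hb => h.br_mem hb hq⟩, h.le_cent inf_le_right hq⟩
  refine h.nle fun q hq => hk.1 (mem_bot.1 ((hodd _ (hQ.map π)).le ⟨mem_map_of_mem π hq, ?_⟩))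
  refine GT.centralizer_fitting_le fun f hf => ?_
  rw [← commutatorElement_eq_one_iff_mul_comm, ← mem_bot, ← hodd _ (h4.map π)]
  refine mem_inf.2 ⟨?_, by
    rw [← commutatorElement_inv]
    exact inv_mem (mul_mem (Normal.conj_mem inferInstance f hf _) (inv_mem hf))⟩
  obtain ⟨n, hn, rfl⟩ := h3 hf
  rw [← map_commutatorElement]
  refine mem_map_of_mem π (mul_mem (mem_inf.2 ⟨conj_mem_ss hn (mem_norm _ n) (h5 q hq).1,
    fun b hb => ?_⟩) (inv_mem (h5 q hq)))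
  have h6 := (h5 q hq).2 _ ((mem_normalizer_iff.1 (inv_mem hn) b).1 hb)
  calc b * (n * q * n⁻¹) = n * (n⁻¹ * b * n⁻¹⁻¹ * q) * n⁻¹ := by group
    _ = _ := by rw [h6]; group

theorem not_le_cent {y : G} (hy : y ∈ pCore 2 G) (hQ : y ∉ Q) :
    ¬ pCore 2 G ⊓ Q ≤ centralizer {y} := fun hc =>
  h.chain₂ inf_le_left (h.le_ss (h.le_ZY hy hQ hc).1) h.ZY_le

theorem not_dvd_two {A : Subgroup G} [A.Normal] (h1 : pCore 2 G ⊓ Q ≤ A) (h2 : A ≤ pCore 2 G) :
    ¬ Q.relIndex A ∣ 2 := fun h3 => by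
  refine h.chain (B := A ⊓ centralizer (A : Set G)) h2 (inf_le_left.trans h2) (h.le_ss h1)
    (fun q hq => ⟨mem_norm _ q, fun b hb => ?_⟩) fun w hw => by_contra fun h4 =>
      h.not_le_cent (h2 hw.1) h4 fun q hq => mem_centralizer_singleton_iff.2 (hw.2 q (h1 hq))
  have h5 := h.br_mem (h2 hb) hq
  refine ⟨h1 h5, fun a ha => ?_⟩
  by_cases h6 : a ∈ Q
  · exact (h.comm h6 h5.2).eq
  by_cases h7 : b ∈ Q
  · simp [commutatorElement_eq_one_iff_mul_comm.2 (h.comm hq h7).eq]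
  · have h8 := (h.br_comm (h2 hb) hq).mul_left
      (h.comm (inv_mul_mem_of_relIndex h3 hb ha h7 h6) h5.2)
    simpa using h8.eq

theorem relIndex_eq : Q.relIndex (pCore 2 G) = 4 := by
  have h1 := h.not_dvd_two inf_le_left le_rfl
  have h2 := Nat.le_of_dvd (by norm_num) h.idx
  have h3 := h.idx
  interval_cases Q.relIndex (pCore 2 G) <;> simp_all

theorem exists_second : ∃ y ∈ pCore 2 G, y ∉ Q ∧ y ∈ ss (pCore 2 G) (ZY G) := by
  by_contra hn
  have hY := GT.isPGroup_pCore (G := G) 2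
  have h1 : pCore 2 G ⊓ ss (pCore 2 G) (ZY G) ≤ Q := fun y hy =>
    by_contra fun h2 => hn ⟨y, hy.1, h2, hy.2⟩
  obtain ⟨x, hx, hxZ, -, -, h2⟩ := GT.PG.exists_step (N := ZY G) hY hY le_normalizer
    (fun g _ => mem_norm _ g) (lt_of_le_of_ne inf_le_left fun e => by
      have h2 := h.relIndex_eq
      rw [relIndex_eq_one.2 (e.ge.trans h.ZY_le)] at h2
      omega)
  set A := pCore 2 G ⊓ centralizer ((pCore 2 G ⊓ ss (pCore 2 G) (ZY G) : Subgroup G) : Set G)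
  have h3 : pCore 2 G ⊓ Q ≤ A := inf_le_inf_left _ (h.le_cent h1)
  refine h.not_dvd_two h3 inf_le_left ?_
  have h4 := relIndex_mul_relIndex _ _ _ h3 (inf_le_left : A ≤ _)
  rw [inf_relIndex_left (pCore 2 G) Q, h.relIndex_eq, ← inf_relIndex_left A, ← inf_assoc,
    inf_eq_left.2 (inf_le_left : A ≤ _), inf_relIndex_left A Q] at h4
  have h5 : A.relIndex (pCore 2 G) ≠ 1 := fun e =>
    hxZ ⟨hx, fun g hg => ((relIndex_eq_one.1 e hg).2 x ⟨hx, mem_norm _ x, h2⟩).symm⟩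
  have h6 : Q.relIndex A ∣ 4 := Dvd.intro _ h4
  have h7 := Nat.le_of_dvd (by norm_num) h6
  interval_cases Q.relIndex A <;> first | omega | simp

end Lc

end Cfsg.Agent.FG.Sp6
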