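import Mathlib
import Cfsg.Agent.FG.Sp6C
import Cfsg.Agent.GT.Zipper
import Cfsg.Agent.Perm.TWPerm

/-! The local configuration with an element of order three permuting the cosets. -/

set_option autoImplicit false

namespace Cfsg.Agent.FG.Sp6

open Subgroup
open scoped commutatorElement

universe u

variable {G : Type u} [Group G] [Finite G]

theorem St.pow_three (h : St G) {g : G} {k : ℕ} (hk : g ^ 3 ^ k = 1) : g ^ 3 = 1 := by
  obtain ⟨j, -, hj⟩ := (Nat.dvd_prime_pow Nat.prime_three).1 (orderOf_dvd_of_pow_eq_one hk)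
  have h1 := h g
  have h2 : j ≤ 1 := by
    by_contra h3
    have := Nat.pow_le_pow_right three_pos (show 2 ≤ j by omega)
    omega
  exact orderOf_dvd_iff_pow_eq_one.1 (hj ▸ pow_dvd_pow 3 h2)

namespace Lc

variable {Q : Subgroup G} {m : ℕ} (h : Lc Q m)
include h

theorem class_two {r : G} (hr : r ∈ normalizer (Q : Set G))
    (hm : ∀ y ∈ pCore 2 G, y ∉ Q → y⁻¹ * (r * y * r⁻¹) ∉ Q) :
    pCore 2 G ≤ ss (pCore 2 G) (ZY G) := by
  obtain ⟨y, hy, hyQ, hy2⟩ := h.exists_second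
  set A := pCore 2 G ⊓ ss (pCore 2 G) (ZY G) ⊔ pCore 2 G ⊓ Q with hA
  have h2 : A ≤ pCore 2 G := sup_le inf_le_left inf_le_left
  have h3 : ¬ Q.relIndex A ∣ 2 := fun e => hm y hy hyQ (inv_mul_mem_of_relIndex e
    (mem_sup_left ⟨hy, hy2⟩) (mem_sup_left (Normal.conj_mem inferInstance y
      (mem_inf.2 ⟨hy, hy2⟩) r)) hyQ fun e => hyQ ((mem_normalizer_iff.1 hr y).2 e))
  have h4 := relIndex_mul_relIndex _ _ _ (le_sup_right : pCore 2 G ⊓ Q ≤ A) h2
  rw [inf_relIndex_left (pCore 2 G) Q, h.relIndex_eq, ← inf_relIndex_left A, ← inf_assoc,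
    inf_eq_left.2 h2, inf_relIndex_left A Q] at h4
  have h5 : Q.relIndex A ∣ 4 := Dvd.intro _ h4
  have h6 := Nat.le_of_dvd (by norm_num) h5
  have h7 : pCore 2 G ≤ A := relIndex_eq_one.1 (by
    generalize A.relIndex (pCore 2 G) = k at h4 ⊢
    interval_cases Q.relIndex A <;> first | omega | simp at h3)
  have h8 : A ≤ ss (pCore 2 G ⊓ Q) (ZY G) := sup_le
    (fun z hz => ⟨mem_norm _ z, fun b hb => hz.2.2 b hb.1⟩) fun z hz => ⟨mem_norm _ z, fun b hb => by
      rw [commutatorElement_eq_one_iff_mul_comm.2 (h.comm hz.2 hb.2).eq]; exact one_mem _⟩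
  refine h7.trans (sup_le inf_le_right fun z hz => ⟨mem_norm _ z, fun b hb => ?_⟩)
  rw [← commutatorElement_inv]
  exact inv_mem ((h8 (h7 hb)).2 z hz)

theorem cent_three (h2 : pCore 2 G ≤ ss (pCore 2 G) (ZY G)) {t : G} (ht : orderOf t = 3)
    (hZ : t ∈ centralizer (ZY G : Set G)) : pCore 2 G ⊓ centralizer {t} ≤ ZY G := by
  have hY := GT.isPGroup_pCore (G := G) 2
  have h3 : t ^ 3 = 1 := ht ▸ pow_orderOf_eq_one t
  have sq : ∀ a ∈ pCore 2 G ⊓ centralizer {t}, a * a = 1 := fun a ha => by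
    obtain ⟨k, hk⟩ := hY ⟨a, ha.1⟩
    exact h.st.sq_of_three ht (mem_centralizer_singleton_iff.1 ha.2).symm (congrArg Subtype.val hk)
  have cj : ∀ y ∈ pCore 2 G, t * y * t⁻¹ ∈ pCore 2 G := fun y hy =>
    Normal.conj_mem inferInstance y hy t
  intro c hc
  refine mem_inf.2 ⟨hc.1, fun y hy => ?_⟩
  have hc' := mem_centralizer_singleton_iff.1 hc.2
  have b1 : ∀ y ∈ pCore 2 G, ⁅c, t * y * t⁻¹⁆ = ⁅c, y⁆ := fun y hy => by
    have h4 := hZ _ ((h2 hc.1).2 y hy)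
    calc ⁅c, t * y * t⁻¹⁆ = t * ⁅t⁻¹ * (c * t), y⁆ * t⁻¹ := by
          simp only [commutatorElement_def]; group
      _ = _ := by rw [hc', inv_mul_cancel_left, ← h4, mul_inv_cancel_right]
  have b2 : ∀ y ∈ pCore 2 G, ∀ z ∈ pCore 2 G, ⁅c, y * z⁆ = ⁅c, y⁆ * ⁅c, z⁆ := fun y hy z hz => by
    have h4 := ((h2 hc.1).2 z hz).2 y hy
    calc ⁅c, y * z⁆ = ⁅c, y⁆ * (y * ⁅c, z⁆) * y⁻¹ := by simp only [commutatorElement_def]; group
      _ = _ := by rw [h4]; group
  set y1 := t * y * t⁻¹ with hy1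
  set y2 := t * y1 * t⁻¹ with hy2
  have e1 := cj y hy
  have e2 := cj _ e1
  have h4 : t * (y * y1 * y2) * t⁻¹ = ⁅y⁻¹, y * y1 * y2⁆ * (y * y1 * y2) := by
    calc _ = y1 * y2 * (t ^ 3 * y * (t ^ 3)⁻¹) := by rw [hy2, hy1]; simp [pow_succ, mul_assoc]
      _ = _ := by rw [h3, commutatorElement_def]; group
  have e3 := mul_mem (mul_mem hy e1) e2
  have h5 := (h2 (inv_mem hy)).2 _ e3
  generalize ⁅y⁻¹, y * y1 * y2⁆ = z at h4 h5
  have h6 : ⁅c, y * y1 * y2⁆ = ⁅c, y⁆ := by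
    rw [b2 _ (mul_mem hy e1) _ e2, b2 _ hy _ e1, b1 _ e1, b1 _ hy,
      h.sq _ (h.ZY_le ((h2 hc.1).2 y hy)), one_mul]
  generalize y * y1 * y2 = n at h4 h6 e3
  have h7 := hZ z h5
  have h8 : t * (z * n) * t⁻¹ = n := by
    rw [← mul_assoc, ← h7, mul_assoc z, mul_assoc z, h4, ← mul_assoc, h.sq z (h.ZY_le h5), one_mul]
  have h9 : t * n * t⁻¹ = n := by
    calc _ = t * (t * (t * n * t⁻¹) * t⁻¹) * t⁻¹ := by rw [h4, h8, h4]
      _ = t ^ 3 * n * (t ^ 3)⁻¹ := by simp [pow_succ, mul_assoc]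
      _ = n := by simp [h3]
  rw [commutatorElement_eq_one_iff_mul_comm.2 (commute_of_sq sq hc ⟨e3,
    mem_centralizer_singleton_iff.2 (mul_inv_eq_iff_eq_mul.1 h9).symm⟩).eq] at h6
  exact (commutatorElement_eq_one_iff_mul_comm.1 h6.symm).symm

theorem not_nine (h2 : pCore 2 G ≤ ss (pCore 2 G) (ZY G)) :
    ¬ 3 ^ 2 ∣ Nat.card (centralizer (ZY G : Set G)) := by
  intro h9
  obtain ⟨K, hK⟩ := Sylow.exists_subgroup_card_pow_prime 3 h9
  set A := K.map (centralizer (ZY G : Set G)).subtype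
  have h1 : Nat.card A = 3 ^ 2 := by rw [card_map_of_injective (subtype_injective _), hK]
  have h3 : ∀ a ∈ A, a ^ 3 = 1 := fun a ha => h.st.pow_three (k := 2)
    (congrArg Subtype.val (h1 ▸ pow_card_eq_one' (x := (⟨a, ha⟩ : A))))
  have h4 : pCore 2 G ≤ ZY G := by
    refine FT.coprime_abelian_gen_cent1 (A := A) (IsPGroup.isMulCommutative_of_card_eq_prime_sq h1)
      (fun hc => ?_) (fun g _ => mem_norm _ g) ?_ fun a ha h0 =>
        h.cent_three h2 (orderOf_eq_prime (h3 a ha) h0) (map_subtype_le K ha)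
    · have h5 : Monoid.exponent A ∣ 3 :=
        Monoid.exponent_dvd_of_forall_pow_eq_one fun a => Subtype.ext (h3 a a.2)
      rw [IsCyclic.exponent_eq_card, h1] at h5
      omega
    · obtain ⟨k, hk⟩ := (GT.isPGroup_pCore (G := G) 2).exists_card_eq
      rw [hk, h1]
      exact Nat.Coprime.pow _ _ (by norm_num)
  have h5 := h.relIndex_eq
  rw [relIndex_eq_one.2 (h4.trans h.ZY_le)] at h5
  omega

theorem exists_ZY : ∃ z ∈ ZY G, z ≠ 1 := by
  have h1 : pCore 2 G ≠ ⊥ := fun e => by simpa [e] using h.relIndex_eq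
  obtain ⟨⟨z, hz⟩, h2⟩ := ne_bot_iff_exists_ne_one.1 (om_ne_bot (GT.isPGroup_pCore 2) h1)
  exact ⟨z, hz.1, by simpa using h2⟩

theorem not_five {x : G} (hx : x ∈ centralizer (ZY G : Set G)) : orderOf x ≠ 5 := fun e => by
  obtain ⟨z, hz, h1⟩ := h.exists_ZY
  exact h1 (h.st.eq_one e (hx z hz).symm (n := 2) (by norm_num)
    (by rw [pow_two, h.sq z (h.ZY_le hz)]))

theorem isPGroup_sup : IsPGroup 2 ↥(pCore 2 G ⊔ Q) :=
  IsPGroup.to_sup_of_normal_left (GT.isPGroup_pCore 2)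
    fun a => ⟨1, Subtype.ext (by simpa [pow_two] using h.sq a a.2)⟩

theorem sup_le_cent : pCore 2 G ⊔ Q ≤ centralizer (ZY G : Set G) :=
  sup_le (fun y hy z hz => (hz.2 y hy).symm) (h.le_cent h.ZY_le)

theorem relIndex_cent (h2 : pCore 2 G ≤ ss (pCore 2 G) (ZY G)) (ho : Odd (pCore 2 G ⊔ Q).index) :
    (pCore 2 G ⊔ Q).relIndex (centralizer (ZY G : Set G)) ∣ 3 := by
  have h1 := relIndex_dvd_card (pCore 2 G ⊔ Q) (centralizer (ZY G : Set G))
  have h3 := ho.of_dvd_nat (relIndex_dvd_index_of_le h.sup_le_cent)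
  have h0 : (pCore 2 G ⊔ Q).relIndex (centralizer (ZY G : Set G)) ≠ 0 :=
    ne_zero_of_dvd_ne_zero Nat.card_pos.ne' h1
  generalize (pCore 2 G ⊔ Q).relIndex (centralizer (ZY G : Set G)) = n at *
  have h4 := Nat.eq_prime_pow_of_unique_prime_dvd (p := 3) h0 fun {p} hp hd => by
    rcases (h.st.sub _).prime_le hp (hd.trans h1) with rfl | rfl | rfl
    · exact absurd (h3.of_dvd_nat hd) (by decide)
    · rfl
    · haveI := Fact.mk Nat.prime_five
      obtain ⟨x, hx⟩ := exists_prime_orderOf_dvd_card' 5 (hd.trans h1)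
      exact absurd (by rw [orderOf_coe, hx]) (h.not_five x.2)
  generalize n.primeFactorsList.length = k at h4
  have h5 : k ≤ 1 := by
    by_contra h6
    exact h.not_nine h2 ((pow_dvd_pow 3 (by omega)).trans (h4 ▸ h1))
  exact h4 ▸ pow_dvd_pow 3 h5

theorem card_le (h3 : (pCore 2 G ⊔ Q).relIndex (centralizer (ZY G : Set G)) ∣ 3) :
    m * m ≤ Nat.card ↥(pCore 2 G ⊓ Q) * 2 := by
  set C := centralizer (ZY G : Set G)
  set T := pCore 2 G ⊔ Q
  have h1 := Perm.relIndex_coreIn_dvd' C T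
  have h2 : (T.relIndex C - 1).factorial ∣ 2 := by
    rcases (Nat.dvd_prime Nat.prime_three).1 h3 with e | e <;> simp [e]
  have h4 : Perm.coreIn C T ≤ pCore 2 G :=
    (GT.le_pCoreOf (Perm.coreIn_le_left _ _) (Perm.le_normalizer_coreIn _ _)
      (h.isPGroup_sup.to_le (Perm.coreIn_le_right _ _))).trans (GT.pCoreOf_le_pCore C)
  rw [inf_eq_left.2 h.sup_le_cent] at h1
  have h5 := (relIndex_dvd_of_le_left T h4).trans (h1.trans h2)
  rw [relIndex_sup_left] at h5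
  rw [← h.cardQ, ← FT.card_mul_relIndex (pCore 2 G) Q]
  exact Nat.mul_le_mul_left _ (Nat.le_of_dvd two_pos h5)

theorem card_le' (h2 : pCore 2 G ≤ ss (pCore 2 G) (ZY G)) :
    Nat.card ↥(pCore 2 G ⊓ Q) ≤ Nat.card (ZY G) * 4 := by
  obtain ⟨q, hq, hqY⟩ := SetLike.not_le_iff_exists.1 h.nle
  obtain ⟨g, hg⟩ := not_forall.1 fun e => hqY (GT.baer_suzuki_elem e)
  obtain ⟨t, ht, h1⟩ : ∃ t ∈ closure {q, g * q * g⁻¹}, ¬ (Odd (orderOf t) → t = 1) :=
    by_contra fun e => hg (isPGroup_of_odd fun t ht => by_contra fun e' => e ⟨t, ht, e'⟩)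
  have cl : ∀ {A : Subgroup G}, A ≤ Q → A ≤ Q.map (MulAut.conj g).toMonoidHom →
      t ∈ centralizer (A : Set G) := fun {A} h3 h4 => by
    refine (closure_le (centralizer (A : Set G))).2 ?_ ht
    rintro _ (rfl | rfl)
    · exact h.le_cent h3 hq
    · intro a ha
      obtain ⟨b, hb, rfl⟩ := h4 ha
      simpa using ((h.comm hb hq).map (MulAut.conj g)).eq
  have h3 := cl h.ZY_le fun z hz => ⟨g⁻¹ * z * g⁻¹⁻¹,
    h.ZY_le (Normal.conj_mem inferInstance z hz _), by simp [mul_assoc]⟩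
  have h4 : orderOf t = 3 := by
    have h5 := h.st t
    have h6 := h.not_five h3
    rw [_root_.not_imp, ← orderOf_eq_one_iff] at h1
    obtain ⟨⟨k, hk⟩, h7⟩ := h1
    omega
  set B := Q.map (MulAut.conj g).toMonoidHom
  have h5 : B ⊓ (pCore 2 G ⊓ Q) ≤ ZY G := fun u hu => h.cent_three h2 h4 h3 ⟨hu.2.1,
    mem_centralizer_singleton_iff.2 (cl (inf_le_right.trans inf_le_right) inf_le_left u hu)⟩
  have h6 : B.relIndex (pCore 2 G) = 4 := by
    rw [← h.relIndex_eq, ← relIndex_map_map_of_injective Q _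
      (f := (MulAut.conj g).toMonoidHom) (MulAut.conj g).injective]
    congr 1
    exact (mem_normalizer_iff_map_conj_eq.1 (mem_norm _ g)).symm
  rw [← FT.card_mul_relIndex B]
  refine Nat.mul_le_mul (card_le_of_le h5) ?_
  rw [← h6]
  exact relIndex_le_of_le_right inf_le_left (by omega)

theorem two_mul_le : Nat.card (ZY G) * 2 ≤ m := by
  obtain ⟨y, hy, q, hq, h1⟩ : ∃ y ∈ pCore 2 G, ∃ q ∈ Q, ⁅q, y⁆ ∉ ZY G := by
    by_contra! hn
    exact h.chain₂ inf_le_left (fun q hq => ⟨mem_norm _ q, fun y hy => hn y hy q hq⟩) h.ZY_le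
  have h2 : y ∉ Q := fun e => h1 (by
    rw [commutatorElement_eq_one_iff_mul_comm.2 (h.comm hq e).eq]; exact one_mem _)
  have h3 : ZY G ≤ Q ⊓ centralizer {y} := fun z hz =>
    ⟨h.ZY_le hz, mem_centralizer_singleton_iff.2 (hz.2 y hy).symm⟩
  rw [← h.card y hy h2, ← FT.card_mul_relIndex_of_le h3]
  refine Nat.mul_le_mul_left _ ?_
  have h4 : (ZY G).relIndex (Q ⊓ centralizer {y}) ≠ 1 := fun e => h1 (relIndex_eq_one.1 e
    ⟨(h.br_mem hy hq).2, mem_centralizer_singleton_iff.2 (h.br_comm hy hq).eq.symm⟩)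
  have h5 : (ZY G).relIndex (Q ⊓ centralizer {y}) ≠ 0 := index_ne_zero_of_finite
  omega

theorem false (ho : Odd (pCore 2 G ⊔ Q).index) {r : G} (h11 : r ∉ pCore 2 G ⊔ Q)
    (hr : r ∈ normalizer (Q : Set G))
    (hm : ∀ y ∈ pCore 2 G, y ∉ Q → y⁻¹ * (r * y * r⁻¹) ∉ Q) : False := by
  have h2 := h.class_two hr hm
  have h4 := h.relIndex_cent h2 ho
  have h5 := h.card_le h4
  have h6 := h.card_le' h2
  have h7 := h.two_mul_le
  have h8 : Nat.card (ZY G) ≤ 2 := by nlinarith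
  obtain ⟨z, hz, h1⟩ := h.exists_ZY
  have h9 : centralizer (ZY G : Set G) = ⊤ := by
    refine eq_top_iff.2 fun g _ w hw => ?_
    have e : ∀ w ∈ ZY G, w ≠ 1 → w = z := fun w hw hw1 => by
      by_contra e
      letI := Fintype.ofFinite (ZY G)
      have := Fintype.two_lt_card_iff.2 ⟨(⟨1, one_mem _⟩ : ZY G), ⟨z, hz⟩, ⟨w, hw⟩,
        by simpa using h1.symm, by simpa using Ne.symm hw1, by simpa using Ne.symm e⟩
      rw [← Nat.card_eq_fintype_card] at this
      omega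
    by_cases h0 : w = 1
    · simp [h0]
    · rw [← mul_inv_eq_iff_eq_mul.1 ((e _ (Normal.conj_mem inferInstance w hw g)
        (by simpa [mul_inv_eq_iff_eq_mul] using h0)).trans (e w hw h0).symm)]
  rw [h9, relIndex_top_right] at h4
  set T := pCore 2 G ⊔ Q
  have h10 : r ∈ normalizer (T : Set G) := by
    rw [mem_normalizer_iff_map_conj_eq] at hr ⊢
    rw [Subgroup.map_sup, hr, mem_normalizer_iff_map_conj_eq.1 (mem_norm _ r)]
  have h12 := relIndex_mul_index (le_normalizer : T ≤ _)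
  have h13 : T.relIndex (normalizer (T : Set G)) ≠ 1 := fun e => h11 (relIndex_eq_one.1 e h10)
  have h14 : (normalizer (T : Set G)).index = 1 := by
    rcases (Nat.dvd_prime Nat.prime_three).1 h4 with e | e <;> rw [e] at h12
    · exact Nat.eq_one_of_mul_eq_one_left h12
    · rcases (Nat.dvd_prime Nat.prime_three).1 (Dvd.intro _ h12) with e' | e'
      · exact absurd e' h13
      · rw [e'] at h12; omega
  haveI : T.Normal := normalizer_eq_top_iff.1 (index_eq_one.1 h14)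
  exact h.nle (le_sup_right.trans (GT.le_pCore h.isPGroup_sup))

end Lc

end Cfsg.Agent.FG.Sp6
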